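import Mathlib
import Cfsg.Agent.Lib.Compute.Schur2.Cert

/-!
# The check of a certificate in several parts
-/

set_option autoImplicit false

namespace Cfsg.Agent.Lib.Compute.Schur2

open Cfsg Cfsg.Agent.Lib.Compute.SchurLin
open Cfsg.Agent.Lib.Compute.ToddCoxeterCore
open Cfsg.Agent.Lib.Compute.ToddCoxeterPresented (RT rulesOK)
open Cfsg.Agent.Lib.Compute.PermCert (allB)

theorem allFrom_iff {f : ℕ → Bool} {n a : ℕ} : allFrom f n a = true ↔ ∀ k, a ≤ k → k < a + n → f k = true := by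
  refine ⟨allFrom_spec, ?_⟩
  induction n generalizing a with
  | zero => intro _; rfl
  | succ n ih =>
    intro h
    have e : allFrom f (n + 1) a = Bool.rec (motive := fun _ => Bool) false (frc (Nat.succ a) (allFrom f n)) (f a) := rfl
    rw [e, h a le_rfl (by omega)]
    show frc (Nat.succ a) (allFrom f n) = true
    rw [frc_eq]
    apply ih
    intro k h1 h2
    exact h k (by omega) (by omega)

/-- Two runs of checks. -/
theorem allFrom_join {f : ℕ → Bool} {n m a c : ℕ} (h1 : allFrom f n a = true) (h2 : allFrom f m (a + n) = true)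
    (hc : c = n + m) : allFrom f c a = true := by
  subst hc
  rw [allFrom_iff]
  intro k h3 h4
  by_cases h : k < a + n
  · exact allFrom_spec h1 k h3 h
  · exact allFrom_spec h2 k (by omega) (by omega)

/-- The first part of a check. -/
noncomputable def certB0 (d : TC) (E : ℕ → ℕ) (M Lbl : ℕ) (Pd : ℕ → ℕ) (rt : RT) (m : ℕ) : Bool :=
  Nat.blt 0 d.N && Nat.ble m d.nrel &&
    d.W.all (fun w => w.all (fun x => Nat.blt x (Nat.mul 2 d.n))) &&
    allB d.treeCheck d.N &&
    rulesOK (mkC d E M Lbl Pd rt).L (mkC d E M Lbl Pd rt).inv (d.W.take m) rt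

/-- The check of a certificate from parts. -/
theorem certB_of_parts {d : TC} {E : ℕ → ℕ} {M Lbl : ℕ} {Pd : ℕ → ℕ} {rt : RT} {m : ℕ}
    (h0 : certB0 d E M Lbl Pd rt m = true)
    (h1 : allFrom (mkC d E M Lbl Pd rt).chkKey M 0 = true)
    (h2 : allFrom (mkC d E M Lbl Pd rt).chkLbl (Lbl - 1) 1 = true)
    (h3 : allFrom ((mkC d E M Lbl Pd rt).chkFin (List.range (mkC d E M Lbl Pd rt).L)) d.N 0 = true)
    (h4 : allB (fun i => allB (fun x => Nat.beq ((mkC d E M Lbl Pd rt).T x i) (d.t i x)) (Nat.mul 2 d.n)) d.N = true) :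
    certB d E M Lbl Pd rt m = true := by
  have e : certB d E M Lbl Pd rt m =
      (certB0 d E M Lbl Pd rt m && allFrom (mkC d E M Lbl Pd rt).chkKey M 0 && allFrom (mkC d E M Lbl Pd rt).chkLbl (Lbl - 1) 1 &&
        allFrom ((mkC d E M Lbl Pd rt).chkFin (List.range (mkC d E M Lbl Pd rt).L)) d.N 0 &&
        allB (fun i => allB (fun x => Nat.beq ((mkC d E M Lbl Pd rt).T x i) (d.t i x)) (Nat.mul 2 d.n)) d.N) := rfl
  rw [e, h0, h1, h2, h3, h4]
  rfl

end Cfsg.Agent.Lib.Compute.Schur2
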