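import Mathlib
import Cfsg.Agent.Lib.Compute.PermCert

/-!
# A chain of stabilizers exhausts a group, from invariants of the points
-/

set_option autoImplicit false

namespace Cfsg.Agent.Lib.Compute.Schur2

open Cfsg.Agent.Lib.Compute.PermCert

variable {w m n : ℕ}

/-- The check that the transversals contain all the points allowed by the invariants, and that the invariants determine
elements at the end. -/
def compB (n : ℕ) (cmp : List ℕ → ℕ → ℕ → Bool) (fin : List ℕ → Bool) : List ℕ → List Level → Bool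
  | pre, [] => fin pre
  | pre, l :: ls =>
    allB (fun v => !(cmp pre l.base v) || (findPt v l.trans).isSome) n && compB n cmp fin (l.base :: pre) ls

/-- A group `K` containing the group of a chain, whose elements respect the invariants, is the group of the chain. -/
theorem le_chain_of_compB {K : Subgroup (Equiv.Perm (Fin n))} {cmp : List ℕ → ℕ → ℕ → Bool} {fin : List ℕ → Bool}
    (hcmp : ∀ g ∈ K, ∀ pre : List ℕ, (∀ p (hp : p < n), p ∈ pre → (g ⟨p, hp⟩ : ℕ) = p) →
      ∀ b (hb : b < n), cmp pre b (g ⟨b, hb⟩ : ℕ) = true)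
    (hfin : ∀ pre, fin pre = true → ∀ g ∈ K, (∀ p (hp : p < n), p ∈ pre → (g ⟨p, hp⟩ : ℕ) = p) → g = 1) :
    ∀ (ls : List Level) (pre : List ℕ), chainCheck w m n ls = true → chainGroup w m n ls ≤ K →
      compB n cmp fin pre ls = true →
      (∀ h ∈ chainGroup w m n ls, ∀ p (hp : p < n), p ∈ pre → (h ⟨p, hp⟩ : ℕ) = p) →
      ∀ g ∈ K, (∀ p (hp : p < n), p ∈ pre → (g ⟨p, hp⟩ : ℕ) = p) → g ∈ chainGroup w m n ls := by
  intro ls
  induction ls with
  | nil =>
    intro pre _ _ hc _ g hg hfix
    rw [hfin pre hc g hg hfix]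
    exact one_mem _
  | cons l ls ih =>
    intro pre hchain hle hc hfixH g hg hfix
    simp only [compB, Bool.and_eq_true, allB_iff] at hc
    obtain ⟨hc1, hc2⟩ := hc
    have hchain' := hchain
    simp only [chainCheck, Bool.and_eq_true] at hchain'
    have hf := levelFacts hchain'.1
    have hb := hf.base_lt
    have hgb := hcmp g hg pre hfix l.base hb
    have hv := (g ⟨l.base, hb⟩).2
    have h1 := hc1 _ hv
    rw [hgb] at h1
    simp only [Bool.not_true, Bool.false_or] at h1
    obtain ⟨e, he⟩ := Option.isSome_iff_exists.1 h1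
    obtain ⟨he1, he2⟩ := findPt_some he
    have ht : permOf w m n e.u ∈ chainGroup w m n (l :: ls) := hf.trans_mem e he1
    have htb : (permOf w m n e.u ⟨l.base, hb⟩ : Fin n) = g ⟨l.base, hb⟩ := by
      apply Fin.ext
      rw [permOf_apply (hf.trans_valid e he1), hf.trans_pt e he1, he2]
    have hg' : (permOf w m n e.u)⁻¹ * g ∈ K := mul_mem (inv_mem (hle ht)) hg
    have hle' : chainGroup w m n ls ≤ chainGroup w m n (l :: ls) := chainGroup_le hchain'.1 hchain'.2
    have hfix' := next_fixes hchain'.1 hchain'.2 hb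
    have key := ih (l.base :: pre) hchain'.2 (hle'.trans hle) hc2 ?_ _ hg' ?_
    · have := mul_mem ht (hle' key)
      simpa using this
    · intro h hh p hp hpm
      rcases List.mem_cons.1 hpm with rfl | hpm
      · have := hfix' h hh
        exact congrArg Fin.val this
      · exact hfixH h (hle' hh) p hp hpm
    · intro p hp hpm
      rcases List.mem_cons.1 hpm with rfl | hpm
      · show (((permOf w m n e.u)⁻¹ * g) ⟨l.base, hp⟩ : ℕ) = l.base
        rw [Equiv.Perm.mul_apply, ← htb]
        simp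
      · show (((permOf w m n e.u)⁻¹ * g) ⟨p, hp⟩ : ℕ) = p
        have h1 : g ⟨p, hp⟩ = ⟨p, hp⟩ := Fin.ext (hfix p hp hpm)
        have h2 : (permOf w m n e.u) ⟨p, hp⟩ = ⟨p, hp⟩ := Fin.ext (hfixH _ ht p hp hpm)
        have h3 : (permOf w m n e.u)⁻¹ ⟨p, hp⟩ = ⟨p, hp⟩ := by
          rw [Equiv.Perm.inv_eq_iff_eq, h2]
        rw [Equiv.Perm.mul_apply, h1, h3]

end Cfsg.Agent.Lib.Compute.Schur2
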