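import Mathlib
import Cfsg.Agent.Lib.Compute.Schur2.Upper

/-!
# Checks of the cascade in pieces

The edges of a cascade are checked on intervals of cosets, one theorem for each interval.
-/

set_option autoImplicit false

namespace Cfsg.Agent.Lib.Compute.Schur2.Chunk

open Cfsg.Agent.Lib.Compute.PermCert (allB allB_iff)

/-- The check of a function on an interval. -/
def allR (f : ℕ → Bool) (a : ℕ) : ℕ → Bool
  | 0 => true
  | n + 1 => f (Nat.add a n) && allR f a n

theorem allR_spec {f : ℕ → Bool} {a n : ℕ} (h : allR f a n = true) : ∀ i, i < n → f (a + i) = true := by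
  induction n with
  | zero =>
    intro i hi
    omega
  | succ n ih =>
    simp only [allR, Bool.and_eq_true] at h
    intro i hi
    rcases Nat.lt_succ_iff_lt_or_eq.mp hi with h1 | rfl
    · exact ih h.2 i h1
    · exact h.1

/-- The part of the check of the cascade without the edges. -/
def upBase (c : UP) : Bool :=
  Nat.blt 0 c.M &&
    c.W.all (fun w => w.all (fun x => Nat.blt x (Nat.mul 2 c.n))) &&
    allB c.relCheck c.W.length

/-- The check of the edges at a coset. -/
def upEdges (c : UP) (i : ℕ) : Bool := allB (c.edgeCheck i) (Nat.mul 2 c.n)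

theorem check_of_chunks {c : UP} (K m : ℕ) (hK : 0 < K) (hN : c.N ≤ m * K) (h0 : upBase c = true)
    (h : ∀ j, j < m → allR (upEdges c) (j * K) K = true) : c.check = true := by
  unfold UP.check
  unfold upBase at h0
  rw [h0, Bool.true_and, allB_iff]
  intro i hi
  have h1 : i / K < m := Nat.div_lt_of_lt_mul (by
    have : i < m * K := lt_of_lt_of_le hi hN
    rwa [mul_comm] at this)
  have h2 := allR_spec (h _ h1) (i % K) (Nat.mod_lt _ hK)
  rw [Nat.div_add_mod'] at h2
  exact h2

end Cfsg.Agent.Lib.Compute.Schur2.Chunk
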