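import Mathlib
import Cfsg.Agent.Lib.Compute.Schur2.Cert
import Cfsg.Agent.Lib.Compute.ToddCoxeterPresented

/-!
# The checks of the toolkit, in parts

Kernel computations keep everything they compute until the end of the declaration, so long checks are better done
in pieces.
-/

set_option autoImplicit false

namespace Cfsg.Agent.Lib.Compute.Schur2

open Cfsg Cfsg.Agent.Lib.Compute.SchurLin
open Cfsg.Agent.Lib.Compute.ToddCoxeterCore
open Cfsg.Agent.Lib.Compute.ToddCoxeterPresented (mkRules getD_valid mem_mkRules_valid T_spec RT rulesOK rulesOK_spec mkCfg allFrom_all allFrom_chain allFrom_nil)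
open Cfsg.Agent.Lib.Compute.PermCert (allB allB_iff)

universe u

/-- The small part of the check of a certificate. -/
noncomputable def certB0 (d : TC) (E : ℕ → ℕ) (M Lbl : ℕ) (Pd : ℕ → ℕ) (rt : RT) (m : ℕ) : Bool :=
  let C := mkC d E M Lbl Pd rt
  Nat.blt 0 d.N && Nat.ble m d.nrel &&
    d.W.all (fun w => w.all (fun x => Nat.blt x (Nat.mul 2 d.n))) &&
    allB d.treeCheck d.N &&
    rulesOK C.L C.inv (d.W.take m) rt

/-- The last part of the check of a certificate, at a point. -/
noncomputable def certT (d : TC) (E : ℕ → ℕ) (M Lbl : ℕ) (Pd : ℕ → ℕ) (rt : RT) (i : ℕ) : Bool :=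
  allB (fun x => Nat.beq ((mkC d E M Lbl Pd rt).T x i) (d.t i x)) (Nat.mul 2 d.n)

/-- Soundness from a check in parts. -/
theorem sound_of_parts {d : TC} {E : ℕ → ℕ} {M Lbl : ℕ} {Pd : ℕ → ℕ} {rt : RT} {m : ℕ}
    (h0 : certB0 d E M Lbl Pd rt m = true)
    (h6 : ∀ k, 0 ≤ k → k < M → (mkC d E M Lbl Pd rt).chkKey k = true)
    (h7 : ∀ k, 1 ≤ k → k < Lbl → (mkC d E M Lbl Pd rt).chkLbl k = true)
    (h8 : ∀ k, 0 ≤ k → k < d.N → (mkC d E M Lbl Pd rt).chkFin (List.range (mkC d E M Lbl Pd rt).L) k = true)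
    (h9 : ∀ k, 0 ≤ k → k < d.N → certT d E M Lbl Pd rt k = true) : TC.Sound.{u} d := by
  apply CertOK.sound (C := mkC d E M Lbl Pd rt) (m := m)
  simp only [certB0, Bool.and_eq_true, Nat.blt_eq, Nat.ble_eq] at h0
  obtain ⟨⟨⟨⟨h1, h2⟩, h3⟩, h4⟩, h5⟩ := h0
  refine ⟨rfl, rfl, rfl, ?_, ?_, h2, ?_, ?_, ?_, ?_, ?_, ?_, ?_, ?_, h1⟩
  · intro x hx
    exact invOf_lt hx
  · exact invOf_self _
  · exact fun r => rulesOK_spec h5 r
  · intro w
    rfl
  · intro k hk
    exact h6 k (Nat.zero_le k) hk
  · intro j hj0 hj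
    exact h7 j (by omega) hj
  · intro i hi
    exact h8 i (Nat.zero_le i) hi
  · intro i hi x hx
    have h10 := h9 i (Nat.zero_le i) hi
    unfold certT at h10
    rw [allB_iff] at h10
    exact Nat.eq_of_beq_eq_true (h10 x hx)
  · intro k x hx
    rw [List.all_eq_true] at h3
    by_cases hk : k < d.W.length
    · rw [List.getD_eq_getElem _ _ hk] at hx
      have := h3 _ (List.getElem_mem hk)
      rw [List.all_eq_true] at this
      have h5 := this x hx
      rw [Nat.blt_eq] at h5
      exact h5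
    · rw [List.getD_eq_default _ _ (by omega)] at hx
      simp at hx
  · intro i hi h0
    rw [allB_iff] at h4
    have := h4 i hi
    unfold TC.treeCheck at this
    have h5 : Nat.beq i 0 = false := by
      cases hb : Nat.beq i 0 with
      | false => rfl
      | true => exact absurd (Nat.eq_of_beq_eq_true hb) h0
    rw [h5, cond_false] at this
    simp only [Bool.and_eq_true, Nat.blt_eq, Nat.beq_eq] at this
    exact ⟨this.1.1, this.1.2, this.2⟩

/-- The edges at a point. -/
def UP.edgeAll (c : UP) (i : ℕ) : Bool := allB (c.edgeCheck i) (Nat.mul 2 c.n)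

/-- The small part of the check of a cascade. -/
def UP.check0 (c : UP) : Bool :=
  Nat.blt 0 c.M &&
    c.W.all (fun w => w.all (fun x => Nat.blt x (Nat.mul 2 c.n))) &&
    allB c.relCheck c.W.length

/-- The check of a cascade in parts. -/
theorem UP.check_of_parts {c : UP} (h0 : c.check0 = true)
    (h1 : ∀ k, 0 ≤ k → k < c.N → c.edgeAll k = true) : c.check = true := by
  unfold UP.check
  unfold UP.check0 at h0
  rw [h0, Bool.true_and, allB_iff]
  intro i hi
  exact h1 i (Nat.zero_le i) hi

/-- The flips at a point. -/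
def LC.flipAll (c : LC) (i : ℕ) : Bool := allB (c.flipCheck i) (Nat.mul 2 c.n)

/-- The small part of the check of labels. -/
def LC.check0 (c : LC) : Bool :=
  allB (fun k => allB (fun j => c.eqm j (c.en j k) 0) c.r) c.n &&
    allB (fun j => (c.unit j).all (fun p => Nat.blt p.1 c.nrel) &&
      allB (fun l => c.eqm l (c.comb l (c.unit j)) (bif Nat.beq l j then 1 else 0)) c.r) c.r

/-- The check of a relator at a point. -/
def LC.relAt (c : LC) (k i : ℕ) : Bool :=
  Nat.beq (walkEnd c.t i (c.W.getD k [])) i &&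
    allB (fun j => c.eqm j (LC.relCheck.UP_walk c i (c.W.getD k []) j) (c.en j k)) c.r

/-- The check of a relator at all points. -/
noncomputable def LC.relAll (c : LC) (k : ℕ) : Bool := allFrom (c.relAt k) c.N 0

/-- The check of labels in parts. -/
theorem LC.check_of_parts {c : LC} (h0 : c.check0 = true)
    (h1 : ∀ k, 0 ≤ k → k < c.N → c.flipAll k = true)
    (h2 : ∀ k, 0 ≤ k → k < c.nrel → c.relAll k = true) : c.check = true := by
  unfold LC.check
  unfold LC.check0 at h0
  rw [Bool.and_eq_true] at h0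
  rw [Bool.and_assoc, Bool.and_assoc, Bool.and_eq_true, Bool.and_eq_true, Bool.and_eq_true]
  refine ⟨?_, ?_, h0.1, h0.2⟩
  · rw [allB_iff]
    intro i hi
    exact h1 i (Nat.zero_le i) hi
  · rw [allB_iff]
    intro k hk
    unfold LC.relCheck
    rw [allB_iff]
    intro i hi
    exact allFrom_spec (h2 k (Nat.zero_le k) hk) i (Nat.zero_le i) (by omega)

end Cfsg.Agent.Lib.Compute.Schur2
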