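import Mathlib
import Cfsg.Agent.Lib.Compute.Schur2.Pres

/-!
# Sections over subgroups with a nontrivial multiplier

Let `σ : Γ → X` be a stem extension and `P` a perfect subgroup of `X` whose own multiplier is cyclic, of prime order
`p`, and killed by the commutativity of the lifts of one pair of elements `q₁, q₂` of `P`.  If, in `X`, the pair has a
*reflection*, an element `t` inverting `q₁` and centralizing `q₂`, then the lifts commute, so `σ` has a section over
`P`.
-/

set_option autoImplicit false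

namespace Cfsg.Agent.Lib.Compute.Schur2.Cover

open Cfsg Cfsg.Agent.Lib.Compute.SchurLin Cfsg.Agent.Lib.Compute.Schur2
open Cfsg.Agent.Lib.Compute.ToddCoxeterCore (wordEl wordEl_nil wordEl_cons wordEl_append)
open Cfsg.Agent.Lib.Compute.PermCert (allB allB_iff)
open Cfsg.Agent.Lib.Compute.Schur2.UP

/-! ### Lifts of commuting elements -/

/-- The lifts of a pair of commuting elements of order three with a reflection commute. -/
theorem comm_of_reflection {Γ X : Type*} [Group Γ] [Group X] (σ : Γ →* X) (hs : Function.Surjective σ)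
    (hc : σ.ker ≤ Subgroup.center Γ) {q₁ q₂ t : X} (h3 : q₁ ^ 3 = 1) (hq : q₁ * q₂ = q₂ * q₁)
    (ht1 : t⁻¹ * q₁ * t = q₁⁻¹) (ht2 : t⁻¹ * q₂ * t = q₂) {a b : Γ} (ha : σ a = q₁) (hb : σ b = q₂) :
    a * b = b * a := by
  have hcen : ∀ {x : Γ}, σ x = 1 → ∀ y : Γ, y * x = x * y := fun {x} hx y =>
    Subgroup.mem_center_iff.mp (hc (MonoidHom.mem_ker.mpr hx)) y
  set c : Γ := a * b * a⁻¹ * b⁻¹ with hcdef
  have hcc : σ c = 1 := by
    simp only [hcdef, map_mul, map_inv, ha, hb]
    rw [hq]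
    group
  have hC := hcen hcc
  -- conjugation by `a`
  have hab : a * b = c * (b * a) := by
    rw [hcdef]
    group
  have hpow : ∀ n : ℕ, a ^ n * b = c ^ n * (b * a ^ n) := by
    intro n
    induction n with
    | zero => simp
    | succ n ih =>
      calc a ^ (n + 1) * b = a ^ n * (a * b) := by group
        _ = a ^ n * (c * (b * a)) := by rw [hab]
        _ = c * (a ^ n * (b * a)) := by
            rw [← mul_assoc, hC (a ^ n), mul_assoc]
        _ = c * ((a ^ n * b) * a) := by group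
        _ = c * ((c ^ n * (b * a ^ n)) * a) := by rw [ih]
        _ = c ^ (n + 1) * (b * a ^ (n + 1)) := by
            rw [pow_succ, pow_succ]
            group
  -- the cube
  have hc3 : c ^ 3 = 1 := by
    have h1 : σ (a ^ 3) = 1 := by rw [map_pow, ha, h3]
    have h2 := hpow 3
    rw [← hcen h1 b] at h2
    have h5 : (b * a ^ 3) * (b * a ^ 3)⁻¹ = 1 := mul_inv_cancel _
    have h6 : c ^ 3 * (b * a ^ 3) * (b * a ^ 3)⁻¹ = 1 := by
      rw [← h2, h5]
    simpa [mul_assoc] using h6
  -- the reflection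
  obtain ⟨τ, hτ⟩ := hs t
  have hinv : c * c = 1 := by
    set a' : Γ := τ⁻¹ * a * τ with ha'
    set b' : Γ := τ⁻¹ * b * τ with hb'
    have h1 : σ (a' * a) = 1 := by
      simp only [ha', map_mul, map_inv, hτ, ha, ht1]
      group
    have h2 : σ (b' * b⁻¹) = 1 := by
      simp only [hb', map_mul, map_inv, hτ, hb, ht2]
      group
    set α : Γ := a' * a with hα
    set β : Γ := b' * b⁻¹ with hβ
    have ha2 : a' = α * a⁻¹ := by
      rw [hα]
      group
    have hb2 : b' = β * b := by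
      rw [hβ]
      group
    have hα' := hcen h1
    have hβ' := hcen h2
    have h4 : a' * b' * a'⁻¹ * b'⁻¹ = τ⁻¹ * c * τ := by
      rw [ha', hb', hcdef]
      group
    have h5 : τ⁻¹ * c * τ = c := by
      rw [mul_assoc, ← hC τ]
      group
    have h6 : a' * b' * a'⁻¹ * b'⁻¹ = a⁻¹ * b * a * b⁻¹ := by
      rw [ha2, hb2]
      have e1 : α * a⁻¹ * (β * b) * (α * a⁻¹)⁻¹ * (β * b)⁻¹ =
          α * (a⁻¹ * β) * b * a * α⁻¹ * b⁻¹ * β⁻¹ := by group
      rw [e1, hβ' a⁻¹]
      have e2 : α * (β * a⁻¹) * b * a * α⁻¹ * b⁻¹ * β⁻¹ =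
          (α * β) * (a⁻¹ * b * a * (α⁻¹ * b⁻¹)) * β⁻¹ := by group
      have h7 : a⁻¹ * b * a * (α⁻¹ * b⁻¹) = α⁻¹ * (a⁻¹ * b * a * b⁻¹) := by
        have hαi : σ α⁻¹ = 1 := by
          rw [map_inv, h1, inv_one]
        rw [← mul_assoc, hcen hαi (a⁻¹ * b * a), mul_assoc]
      rw [e2, h7]
      have hβi : σ β⁻¹ = 1 := by
        rw [map_inv, h2, inv_one]
      rw [mul_assoc, hcen hβi]
      have e3 : α * β * (β⁻¹ * (α⁻¹ * (a⁻¹ * b * a * b⁻¹))) = a⁻¹ * b * a * b⁻¹ := by group
      rw [e3]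
    have h8 : a⁻¹ * b * a * b⁻¹ = c⁻¹ := by
      -- from `a * b = c * (b * a)`
      have h9 : a⁻¹ * (c * (b * a)) = b := by
        rw [← hab]
        group
      have h10 : c * (a⁻¹ * b * a) = b := by
        calc c * (a⁻¹ * b * a) = (c * a⁻¹) * (b * a) := by group
          _ = (a⁻¹ * c) * (b * a) := by rw [hC a⁻¹]
          _ = a⁻¹ * (c * (b * a)) := by group
          _ = b := h9
      have h11 : a⁻¹ * b * a = c⁻¹ * b := by
        rw [eq_inv_mul_iff_mul_eq]
        exact h10
      rw [h11]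
      group
    have h12 : c = c⁻¹ := by
      calc c = τ⁻¹ * c * τ := h5.symm
        _ = a' * b' * a'⁻¹ * b'⁻¹ := h4.symm
        _ = a⁻¹ * b * a * b⁻¹ := h6
        _ = c⁻¹ := h8
    calc c * c = c * c⁻¹ := by rw [← h12]
      _ = 1 := mul_inv_cancel c
  have hc1 : c = 1 := by
    have h1 : c ^ 3 = c * (c * c) := by
      rw [pow_succ, pow_two, mul_assoc]
    rw [h1, hinv, mul_one] at hc3
    exact hc3
  have h1 : a * b * a⁻¹ * b⁻¹ = 1 := hc1
  calc a * b = (a * b * a⁻¹ * b⁻¹) * (b * a) := by group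
    _ = b * a := by rw [h1, one_mul]

/-! ### Sections over perfect subgroups -/

variable {Γ G : Type} [Group Γ] [Group G]

/-- Over a perfect subgroup whose stem extensions with commuting lifts of a pair of elements are isomorphisms, a
central extension with commuting lifts of the pair has a section. -/
theorem exists_section_of_pair [Finite Γ] (σ : Γ →* G) (hs : Function.Surjective σ)
    (hc : σ.ker ≤ Subgroup.center Γ) (L : Subgroup G) (hL : commutator L = ⊤) (q₁ q₂ : L)
    (hT : ∀ (Δ : Type) [Group Δ] [Finite Δ] (τ : Δ →* L), IsStemExtension τ →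
      (∀ a b : Δ, τ a = q₁ → τ b = q₂ → a * b = b * a) → Function.Injective τ)
    (hpair : ∀ a b : Γ, σ a = q₁ → σ b = q₂ → a * b = b * a) :
    ∃ s : L →* Γ, ∀ l, σ (s l) = l := by
  set E : Subgroup Γ := L.comap σ with hE
  set D : Subgroup Γ := ⁅E, E⁆ with hD
  have hLL : ⁅L, L⁆ = L := by
    have h1 := Subgroup.map_subtype_commutator L
    rw [hL] at h1
    rw [← h1]
    ext x
    simp
  have hEmap : E.map σ = L := Subgroup.map_comap_eq_self_of_surjective hs L
  have hDmap : D.map σ = L := by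
    rw [hD, Subgroup.map_commutator, hEmap, hLL]
  have hdec : ∀ e ∈ E, ∃ d ∈ D, ∃ z ∈ σ.ker, e = d * z := by
    intro e he
    have h1 : σ e ∈ D.map σ := by rw [hDmap]; exact he
    obtain ⟨d, hd, hde⟩ := h1
    refine ⟨d, hd, d⁻¹ * e, ?_, by group⟩
    rw [MonoidHom.mem_ker, map_mul, map_inv, hde, inv_mul_cancel]
  have hDD : D ≤ ⁅D, D⁆ := by
    show ⁅E, E⁆ ≤ ⁅D, D⁆
    rw [Subgroup.commutator_le]
    intro a ha b hb
    obtain ⟨d, hd, z, hz, rfl⟩ := hdec a ha
    obtain ⟨f, hf, y, hy, rfl⟩ := hdec b hb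
    rw [commutatorElement_def, comm_central_mul d f z y (hc hz) (hc hy)]
    have h5 := Subgroup.commutator_mem_commutator hd hf
    rwa [commutatorElement_def] at h5
  let τ : D →* L := (σ.comp D.subtype).codRestrict L (fun x => by
    have : σ x ∈ D.map σ := ⟨x, x.2, rfl⟩
    rw [hDmap] at this
    exact this)
  have hτ : ∀ x, ((τ x : L) : G) = σ x := fun _ => rfl
  have hτs : Function.Surjective τ := by
    rintro ⟨l, hl⟩
    rw [← hDmap] at hl
    obtain ⟨d, hd, rfl⟩ := hl
    exact ⟨⟨d, hd⟩, Subtype.ext rfl⟩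
  have hstem : IsStemExtension τ := by
    refine ⟨hτs, ?_, ?_⟩
    · intro x hx
      have h1 : σ (x : Γ) = 1 := congrArg Subtype.val (MonoidHom.mem_ker.mp hx)
      have h2 := Subgroup.mem_center_iff.mp (hc (MonoidHom.mem_ker.mpr h1))
      rw [Subgroup.mem_center_iff]
      intro y
      apply Subtype.ext
      exact h2 y
    · have h1 : commutator D = ⊤ := by
        apply Subgroup.map_injective D.subtype_injective
        rw [Subgroup.map_subtype_commutator]
        ext x
        simp only [Subgroup.mem_map, Subgroup.mem_top, true_and, Subgroup.subtype_apply]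
        constructor
        · intro hx
          exact ⟨⟨x, comm_le_self D hx⟩, rfl⟩
        · rintro ⟨y, rfl⟩
          exact hDD y.2
      rw [h1]
      exact le_top
  have hinj := hT D τ hstem (fun a b ha hb => by
    apply Subtype.ext
    exact hpair a b (congrArg Subtype.val ha) (congrArg Subtype.val hb))
  let e : D ≃* L := MulEquiv.ofBijective τ ⟨hinj, hτs⟩
  refine ⟨D.subtype.comp e.symm.toMonoidHom, fun l => ?_⟩
  have : τ (e.symm l) = l := e.apply_symm_apply l
  have h2 := congrArg Subtype.val this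
  exact h2

/-! ### The labels -/

/-- The data of a stem extension give labels, with the lifts of the generators. -/
theorem exists_cocy_lifts {Γ G Ω : Type*} [Group Γ] [Group G] [MulAction G Ω] {σ : Γ →* G}
    (hstem : IsStemExtension σ) {g : ℕ → G} {ω : ℕ → Ω} {n N : ℕ} {t : ℕ → ℕ → ℕ} {par lt : ℕ → ℕ}
    (tab : Tab g ω n N t par lt) (hgenG : ∀ h : G, h ∈ Subgroup.closure (g '' Set.Iio n))
    {W : List (List ℕ)} (hletW : ∀ k, ∀ x ∈ W.getD k [], x < 2 * n)
    (hrelG : ∀ k, wordEl (ltr g) (W.getD k []) = 1)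
    (hexactW : ∀ k < n, ∃ C : List ℕ, W.getD k [] = C ++ [2 * k + 1])
    (hexpW : ∀ k < n, ∀ j < n, expV ((W.getD k []).dropLast) j = 0)
    (s : MulAction.stabilizer G (ω 0) →* Γ) (hs : ∀ l, σ (s l) = l) :
    ∃ (Y : ℕ → Γ) (z : ℕ → ℕ → σ.ker) (rr : ℕ → σ.ker), (∀ j, σ (Y j) = g j) ∧ Cocy t par lt n N W n z rr ∧
      ∀ w : List ℕ, (∀ x ∈ w, x < 2 * n) → ∀ i < N, walkEnd t i w = i →
        ∀ h : wordEl (ltr Y) w ∈ σ.ker, walkProd t z i w = ⟨wordEl (ltr Y) w, h⟩ := by
  classical
  obtain ⟨hsurj, hc, hcomm⟩ := hstem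
  have hC : ∀ j < n, wordEl (ltr g) ((W.getD j []).dropLast) = g j := by
    intro j hj
    obtain ⟨C, hCe⟩ := hexactW j hj
    have h1 := hrelG j
    rw [hCe, wordEl_append] at h1
    rw [hCe, List.dropLast_concat]
    have h2 : ltr g (2 * j + 1) = (g j)⁻¹ := by
      have h4 : (2 * j + 1) / 2 = j := by omega
      simp [ltr, h4]
    rw [wordEl_cons, wordEl_nil, one_mul, h2] at h1
    exact (inv_mul_eq_one.1 h1).symm
  have hletC : ∀ j < n, ∀ x ∈ (W.getD j []).dropLast, x < 2 * n :=
    fun j _ x hx => hletW j x (List.mem_of_mem_dropLast hx)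
  obtain ⟨Y, hY, hYC⟩ := exists_normalized σ hsurj hc hC hletC hexpW
  have hgY : (fun j => σ (Y j)) = g := funext hY
  have hgen : ∀ a : Γ, ∃ w : List ℕ, (∀ x ∈ w, x < 2 * n) ∧ wordEl (ltr Y) w = a := by
    apply gen_of_stem ⟨hsurj, hc, hcomm⟩
    rw [hgY]
    exact hgenG
  have tab' : Tab (fun j => σ (Y j)) ω n N t par lt := by
    rw [hgY]
    exact tab
  obtain ⟨z, h1, h2, h3, h4⟩ := exists_cocycle hc hgen tab' s hs
  have hker : ∀ k, wordEl (ltr Y) (W.getD k []) ∈ σ.ker := by
    intro k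
    rw [MonoidHom.mem_ker, map_wordEl_ltr, hgY]
    exact hrelG k
  refine ⟨Y, z, fun k => ⟨wordEl (ltr Y) (W.getD k []), hker k⟩, hY, ?_, h3⟩
  refine ⟨h2, h1, ?_, ?_, h4⟩
  · intro k hk
    apply Subtype.ext
    obtain ⟨C, hCe⟩ := hexactW k hk
    have h5 := hYC k hk
    rw [hCe, List.dropLast_concat] at h5
    show wordEl (ltr Y) (W.getD k []) = 1
    rw [hCe, wordEl_append, h5, wordEl_cons, wordEl_nil, one_mul]
    have h4' : (2 * k + 1) / 2 = k := by omega
    simp [ltr, h4']
  · intro k i hi he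
    exact h3 _ (hletW k) i hi he (hker k)

/-- The walks and the table. -/
theorem tab_walk_end {G Ω : Type*} [Group G] [MulAction G Ω] {g : ℕ → G} {ω : ℕ → Ω} {n N : ℕ} {t : ℕ → ℕ → ℕ}
    {par lt : ℕ → ℕ} (tab : Tab g ω n N t par lt) {w : List ℕ} (hw : ∀ x ∈ w, x < 2 * n) {i : ℕ} (hi : i < N) :
    walkEnd t i w < N ∧ wordEl (ltr g) w • ω i = ω (walkEnd t i w) := by
  induction w generalizing i with
  | nil =>
    simp [walkEnd, hi]
  | cons x w ih =>
    have hx : x < 2 * n := hw x (by simp)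
    obtain ⟨h1, h2⟩ := ih (fun y hy => hw y (by simp [hy])) (tab.hlt i hi x hx)
    refine ⟨h1, ?_⟩
    rw [wordEl_cons, mul_smul, tab.hact i hi x hx]
    exact h2

section UPx

variable {c : UP} {B : Type*} [CommGroup B] {z : ℕ → ℕ → B} {rr : ℕ → B}

/-- The numbers on the edges, in the generator of the kernel. -/
def ccE (c : UP) (d : Tail) (u : ℕ) : ℕ :=
  ∑ j ∈ Finset.range c.s, (d.beta.getD j []).headD 0 * c.lab j u

theorem yv_gen (hcc : Cocy c.t c.par c.lt c.n c.N c.W c.e z rr) (hm : ∀ a : B, a ^ c.M = 1) (hf : Facts c)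
    {d : Tail} (hd : tailCheck c d = true) {g0 : List ℕ} (hg : d.gens = [g0]) {j0 : ℕ} (hj0 : j0 < c.s) :
    yv c z rr j0 = vval c z rr g0 ^ ((d.beta.getD j0 []).headD 0) := by
  simp only [tailCheck, Bool.and_eq_true, allB_iff] at hd
  obtain ⟨⟨h1, h2⟩, h3⟩ := hd
  have hR := rels_one hcc hm hf h1
  rw [← vf_unit hj0]
  have h4 : vf c z rr (fun j => bif Nat.beq j j0 then 1 else 0) =
      vf c z rr (combo (d.beta.getD j0 []) (d.gens ++ d.Rlit)) := by
    refine vf_congr hm ?_
    intro j hj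
    exact eqM_iff.mp (h3 j0 hj0 j hj)
  rw [h4, hg]
  generalize d.beta.getD j0 [] = cs
  cases cs with
  | nil =>
    have : combo [] ([g0] ++ d.Rlit) = fun _ => 0 := rfl
    rw [this, vf_zero]
    simp
  | cons a cs =>
    have : combo (a :: cs) ([g0] ++ d.Rlit) = fun j => a * g0.getD j 0 + combo cs d.Rlit j := rfl
    rw [this, vf_add, vf_smul]
    have h5 := combo_mem (c := c) (z := z) (rr := rr) (⊥ : Subgroup B) cs d.Rlit (fun v hv => by
      rw [hR v hv]
      exact Subgroup.one_mem _)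
    rw [Subgroup.mem_bot.mp h5, mul_one]
    rfl

theorem z_gen (hcc : Cocy c.t c.par c.lt c.n c.N c.W c.e z rr) (hm : ∀ a : B, a ^ c.M = 1) (hf : Facts c)
    {d : Tail} (hd : tailCheck c d = true) {g0 : List ℕ} (hg : d.gens = [g0]) {i x : ℕ} (hi : i < c.N)
    (hx : x < 2 * c.n) : z i x = vval c z rr g0 ^ ccE c d (c.key i x) := by
  rw [(all_eq hcc hm hf).1 i hi x hx, EE, vf, ccE, ← Finset.prod_pow_eq_pow_sum]
  apply Finset.prod_congr rfl
  intro j hj
  rw [yv_gen hcc hm hf hd hg (Finset.mem_range.1 hj), pow_mul]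

theorem walkProd_gen (hcc : Cocy c.t c.par c.lt c.n c.N c.W c.e z rr) (hm : ∀ a : B, a ^ c.M = 1) (hf : Facts c)
    {d : Tail} (hd : tailCheck c d = true) {g0 : List ℕ} (hg : d.gens = [g0]) {w : List ℕ}
    (hw : ∀ x ∈ w, x < 2 * c.n) {i : ℕ} (hi : i < c.N) :
    walkProd c.t z i w = vval c z rr g0 ^ walkSum c.t (Nat.mul 2 c.n) (ccE c d) i w := by
  induction w generalizing i with
  | nil => simp [walkProd, walkSum]
  | cons x w ih =>
    have hx := hw x List.mem_cons_self
    have hti := (hf.edge_parts hi hx).1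
    simp only [walkProd, walkSum]
    rw [ih (fun y hy => hw y (List.mem_cons_of_mem _ hy)) hti, z_gen hcc hm hf hd hg hi hx, ← pow_add]
    congr 1
    exact Nat.add_comm _ _

end UPx

/-! ### Injectivity from a pair -/

/-- The word of a commutator. -/
def commW (w1 w2 : List ℕ) : List ℕ := w1 ++ w2 ++ invW w1 ++ invW w2

theorem wordEl_commW {X : Type*} [Group X] (y : ℕ → X) (w1 w2 : List ℕ) :
    wordEl (ltr y) (commW w1 w2) =
      (wordEl (ltr y) w2)⁻¹ * (wordEl (ltr y) w1)⁻¹ * wordEl (ltr y) w2 * wordEl (ltr y) w1 := by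
  unfold commW invW
  simp only [wordEl_append, wordEl_inv_word, mul_assoc]

section Main

variable {X Γ' : Type} [Group X] [Finite X] [Group Γ'] [Finite Γ'] {el : ℕ → X} {c : TC} {D : ℕ}

/-- **Injectivity.**  If the kernel of all stem extensions is generated by one element `e` with `e ^ p = 1`, and
the commutator of two words has value `e ^ K`, with `K` prime to `p`, then a stem extension with commuting lifts is an
isomorphism. -/
theorem inj_of_pair (hf : TC.Sound.{0} c) (hSB : SubBound.{0} c D)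
    (hrel : ∀ k < c.nrel, wordEl (ltr el) (c.W.getD k []) = 1)
    (hgen : ∀ x : X, x ∈ Subgroup.closure (el '' Set.Iio c.n)) (hcard : Nat.card X = c.N * D)
    (hsec : HasSec c el)
    (u : UP) (hn : u.n = c.n) (hN : u.N = c.N) (ht : u.t = c.t) (hpar : u.par = c.par) (hlt : u.lt = c.lt)
    (hrelU : ∀ k < u.W.length, wordEl (ltr el) (u.W.getD k []) = 1)
    (hnorm : normB u.n u.W = true)
    (he : u.e = u.n) (hM : u.M = c.N)
    (hu : u.check = true) (d : UP.Tail) (hd : UP.tailCheck u d = true) {g0 : List ℕ} {p : ℕ}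
    (hg0 : d.gens = [g0]) (hp : d.ords = [p])
    {w1 w2 : List ℕ} (hw1 : ∀ x ∈ w1, x < 2 * u.n) (hw2 : ∀ x ∈ w2, x < 2 * u.n)
    (hq : wordEl (ltr el) w1 * wordEl (ltr el) w2 = wordEl (ltr el) w2 * wordEl (ltr el) w1)
    (hK : Nat.gcd (walkSum u.t (Nat.mul 2 u.n) (ccE u d) 0 (commW w1 w2)) p = 1)
    {σ : Γ' →* X} (hstem : IsStemExtension σ)
    (hlift : ∀ a b : Γ', σ a = wordEl (ltr el) w1 → σ b = wordEl (ltr el) w2 → a * b = b * a) :
    Function.Injective σ := by
  classical
  obtain ⟨s, hs⟩ := hsec Γ' σ hstem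
  let _ : CommGroup σ.ker := kerComm hstem.2.1
  obtain ⟨tab, hLc⟩ := TC.tab_of_check hf hrel (fun _ hk => subL_mem hk) hgen hcard (subL_card_le hSB hrel)
  have huf := UP.Facts.of_check hu
  set ω : ℕ → X ⧸ subL c el := fun i => ((repOf el c.par c.lt i : X) : X ⧸ subL c el) with hω
  have h0 : ω 0 = ((1 : X) : X ⧸ subL c el) := by
    simp only [hω]
    rw [repOf_zero]
  have hstab : MulAction.stabilizer X (ω 0) = subL c el := by
    rw [h0]
    exact MulAction.stabilizer_quotient (subL c el)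
  let s' : MulAction.stabilizer X (ω 0) →* Γ' :=
    s.comp (Subgroup.inclusion (le_of_eq hstab))
  have hs' : ∀ l, σ (s' l) = l := by
    intro l
    exact hs _
  have tab' : Tab el ω u.n u.N u.t u.par u.lt := by
    rw [hn, hN, ht, hpar, hlt]
    exact tab
  have hgen' : ∀ h : X, h ∈ Subgroup.closure (el '' Set.Iio u.n) := by
    rw [hn]
    exact hgen
  have hletW : ∀ k, ∀ x ∈ u.W.getD k [], x < 2 * u.n := huf.hW
  have hrelW : ∀ k, wordEl (ltr el) (u.W.getD k []) = 1 := by
    intro k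
    by_cases hk : k < u.W.length
    · exact hrelU k hk
    · rw [List.getD_eq_default _ _ (by omega)]
      rfl
  have hexact : ∀ k < u.n, ∃ C : List ℕ, u.W.getD k [] = C ++ [2 * k + 1] := by
    intro k hk
    obtain ⟨C, h1, _⟩ := normB_spec hnorm hk
    exact ⟨C, h1⟩
  have hexp : ∀ k < u.n, ∀ j < u.n, expV ((u.W.getD k []).dropLast) j = 0 := by
    intro k hk j hj
    obtain ⟨C, h1, h2⟩ := normB_spec hnorm hk
    rw [h1, List.dropLast_concat]
    exact h2 j hj
  obtain ⟨Y, z, rr, hY, hc, hw⟩ := exists_cocy_lifts hstem tab' hgen' hletW hrelW hexact hexp s' hs'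
  have hidx : ((subL c el).comap σ).index = u.N := by
    rw [Subgroup.index_comap_of_surjective (subL c el) hstem.1, hN]
    have h1 := (subL c el).card_eq_card_quotient_mul_card_subgroup
    rw [hcard, hLc] at h1
    have hD : 0 < D := by
      rcases Nat.eq_zero_or_pos D with h | h
      · have := Nat.card_pos (α := X)
        rw [hcard, h, mul_zero] at this
        omega
      · exact h
    have h2 := Nat.eq_of_mul_eq_mul_right hD h1
    rw [Subgroup.index_eq_card]
    exact h2.symm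
  have hm : ∀ a : σ.ker, a ^ u.M = 1 := by
    intro a
    have := pow_index_of_retr σ hstem.2.1 hstem.2.2 (subL c el) s hs a
    rw [hidx, hN, ← hM] at this
    exact this
  have hc2 : Cocy u.t u.par u.lt u.n u.N u.W u.e z rr := by
    rw [he]
    exact hc
  set e : σ.ker := vval u z rr g0 with he_def
  -- the order of the generator
  have hep : e ^ p = 1 := by
    have hd' := hd
    simp only [tailCheck, Bool.and_eq_true, allB_iff] at hd'
    obtain ⟨⟨h1, h2⟩, -⟩ := hd'
    have hR := rels_one hc2 hm huf h1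
    have h3 := ords_pow (c := u) (z := z) (rr := rr) hm hR h2
    rw [hg0, hp] at h3
    cases h3 with
    | cons h4 _ => exact h4
  -- the value of the commutator
  have hwL : ∀ x ∈ commW w1 w2, x < 2 * u.n := by
    intro x hx
    simp only [commW, invW, List.mem_append, List.mem_reverse, List.mem_map] at hx
    rcases hx with ((hx | hx) | ⟨y, hy, rfl⟩) | ⟨y, hy, rfl⟩
    · exact hw1 x hx
    · exact hw2 x hx
    · exact flp_lt (hw1 y hy)
    · exact flp_lt (hw2 y hy)
  have hN0 : 0 < u.N := tab'.hN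
  have hval : wordEl (ltr el) (commW w1 w2) = 1 := by
    rw [wordEl_commW, mul_assoc, ← hq]
    group
  obtain ⟨_, h2⟩ := tab_walk_end tab' hwL hN0
  rw [hval, one_smul] at h2
  have h3 : walkEnd u.t 0 (commW w1 w2) = 0 := tab'.hinj _ (tab_walk_end tab' hwL hN0).1 h2.symm
  have hYm : ∀ w : List ℕ, σ (wordEl (ltr Y) w) = wordEl (ltr el) w := by
    intro w
    rw [map_wordEl_ltr]
    have : (fun j => σ (Y j)) = el := funext hY
    rw [this]
  have hY1 : wordEl (ltr Y) (commW w1 w2) = 1 := by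
    rw [wordEl_commW, mul_assoc]
    rw [← hlift _ _ (hYm w1) (hYm w2)]
    group
  have hmemk : wordEl (ltr Y) (commW w1 w2) ∈ σ.ker := by
    rw [hY1]
    exact one_mem _
  have h4 := hw _ hwL 0 hN0 h3 hmemk
  have h5 : (⟨wordEl (ltr Y) (commW w1 w2), hmemk⟩ : σ.ker) = 1 := Subtype.ext hY1
  rw [h5, walkProd_gen hc2 hm huf hd hg0 hwL hN0] at h4
  -- the generator vanishes
  have he1 : e = 1 := by
    have h6 : orderOf e ∣ Nat.gcd (walkSum u.t (Nat.mul 2 u.n) (ccE u d) 0 (commW w1 w2)) p :=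
      Nat.dvd_gcd (orderOf_dvd_of_pow_eq_one h4) (orderOf_dvd_of_pow_eq_one hep)
    rw [hK, Nat.dvd_one] at h6
    exact orderOf_eq_one_iff.mp h6
  have hzz : ∀ i < u.N, ∀ x < 2 * u.n, z i x = 1 := by
    intro i hi x hx
    rw [z_gen hc2 hm huf hd hg0 hi hx, ← he_def, he1, one_pow]
  have htop := hc2.hgen ⊥ (fun i hi x hx => by
    rw [hzz i hi x hx]
    exact one_mem _)
  rw [injective_iff_map_eq_one]
  intro a ha
  have h7 : (⟨a, ha⟩ : σ.ker) ∈ (⊥ : Subgroup σ.ker) := by
    rw [htop]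
    trivial
  exact congrArg Subtype.val (Subgroup.mem_bot.mp h7)

end Main

/-! ### Presentations with the property -/

/-- The groups with the presentation of a table are perfect, and their stem extensions with commuting lifts of a pair
of words are isomorphisms. -/
def CoverProp (c : TC) (D : ℕ) (w1 w2 : List ℕ) : Prop :=
  ∀ (X : Type) [Group X] [Finite X] (el : ℕ → X),
    (∀ k < c.nrel, wordEl (ltr el) (c.W.getD k []) = 1) →
    (∀ x : X, x ∈ Subgroup.closure (el '' Set.Iio c.n)) → Nat.card X = D →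
    wordEl (ltr el) w1 * wordEl (ltr el) w2 = wordEl (ltr el) w2 * wordEl (ltr el) w1 →
    commutator X = ⊤ ∧ ∀ (Γ : Type) [Group Γ] [Finite Γ] (σ : Γ →* X), IsStemExtension σ →
      (∀ a b : Γ, σ a = wordEl (ltr el) w1 → σ b = wordEl (ltr el) w2 → a * b = b * a) → Function.Injective σ

/-- The property, from a table. -/
theorem coverProp_of_table {c : TC} {D : ℕ} (hf : TC.Sound.{0} c) (hSB : SubBound.{0} c D)
    (hnn : c.n ≤ c.nrel) (hnormc : normB c.n c.W = true)
    (hsec : ∀ (X : Type) [Group X] [Finite X] (el : ℕ → X),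
      (∀ k < c.nrel, wordEl (ltr el) (c.W.getD k []) = 1) →
      (∀ x : X, x ∈ Subgroup.closure (el '' Set.Iio c.n)) → Nat.card X = c.N * D → HasSec c el)
    (u : UP) (hn : u.n = c.n) (hN : u.N = c.N) (ht : u.t = c.t) (hpar : u.par = c.par) (hlt : u.lt = c.lt)
    {m : ℕ} (hWu : u.W = c.W.take m) (hm : m ≤ c.nrel)
    (hnorm : normB u.n u.W = true)
    (he : u.e = u.n) (hM : u.M = c.N)
    (hu : u.check = true) (d : UP.Tail) (hd : UP.tailCheck u d = true) {g0 : List ℕ} {p : ℕ}
    (hg0 : d.gens = [g0]) (hp : d.ords = [p])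
    {w1 w2 : List ℕ} (hw1 : ∀ x ∈ w1, x < 2 * u.n) (hw2 : ∀ x ∈ w2, x < 2 * u.n)
    (hK : Nat.gcd (walkSum u.t (Nat.mul 2 u.n) (ccE u d) 0 (commW w1 w2)) p = 1) :
    CoverProp c (c.N * D) w1 w2 := by
  intro X _ _ el hrel hgen hcard hq
  refine ⟨perfect_of_norm hnormc hf.hW hrel hnn hgen, ?_⟩
  intro Γ _ _ σ hstem hlift
  have hrelU : ∀ k < u.W.length, wordEl (ltr el) (u.W.getD k []) = 1 := by
    intro k hk
    rw [hWu] at hk ⊢
    have hk1 : k < m := by
      rw [List.length_take] at hk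
      omega
    have : (c.W.take m).getD k [] = c.W.getD k [] := by
      simp only [List.getD_eq_getElem?_getD, List.getElem?_take, if_pos hk1]
    rw [this]
    exact hrel k (lt_of_lt_of_le hk1 hm)
  exact inj_of_pair hf hSB hrel hgen hcard (hsec X el hrel hgen hcard) u hn hN ht hpar hlt hrelU hnorm he hM hu d hd
    hg0 hp hw1 hw2 hq hK hstem hlift

section Nest

variable {X : Type} [Group X] [Finite X] {el : ℕ → X} {c : TC} {D : ℕ}

/-- **Sections over a subgroup**, with the property, from the relators of a reflection. -/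
theorem hasSec_of_cover {c' : TC} {mp : ℕ → ℕ} {w1 w2 T : List ℕ} {k3 kc kt1 kt2 : ℕ}
    (hf : TC.Sound.{0} c) (hSB : SubBound.{0} c D) (hT : CoverProp c' D w1 w2)
    (hnest : nestB c c' mp = true)
    (hk : (k3 < c.nrel ∧ kc < c.nrel ∧ kt1 < c.nrel ∧ kt2 < c.nrel) ∧
      c.W.getD k3 [] = powW (substW (c.W.drop c.nrel) w1) 3 ∧
      c.W.getD kc [] = commW (substW (c.W.drop c.nrel) w1) (substW (c.W.drop c.nrel) w2) ∧
      c.W.getD kt1 [] = T ++ substW (c.W.drop c.nrel) w1 ++ invW T ++ substW (c.W.drop c.nrel) w1 ∧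
      c.W.getD kt2 [] = T ++ substW (c.W.drop c.nrel) w2 ++ invW T ++ invW (substW (c.W.drop c.nrel) w2))
    (hrel : ∀ k < c.nrel, wordEl (ltr el) (c.W.getD k []) = 1)
    (hgen : ∀ x : X, x ∈ Subgroup.closure (el '' Set.Iio c.n)) (hcard : Nat.card X = c.N * D) :
    HasSec c el := by
  classical
  simp only [nestB, Bool.and_eq_true, beq_iff_eq, allB_iff, decide_eq_true_eq] at hnest
  obtain ⟨h1, h2⟩ := hnest
  obtain ⟨⟨hk3, hkc, hkt1, hkt2⟩, e3, ec, et1, et2⟩ := hk
  set sub := c.W.drop c.nrel with hsub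
  have hget : ∀ j, sub.getD j [] = c.W.getD (c.nrel + j) [] := by
    intro j
    rw [hsub]
    simp only [List.getD_eq_getElem?_getD, List.getElem?_drop]
  have hmem : ∀ j, subV el sub j ∈ subL c el := by
    intro j
    unfold subV
    rw [hget]
    exact subL_mem (by omega)
  let el' : ℕ → subL c el := fun j => ⟨subV el sub j, hmem j⟩
  have hcoe : ∀ w : List ℕ, ((wordEl (ltr el') w : subL c el) : X) = wordEl (ltr (subV el sub)) w := by
    intro w
    exact map_wordEl_ltr (subL c el).subtype el' w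
  have hrel' : ∀ k < c'.nrel, wordEl (ltr el') (c'.W.getD k []) = 1 := by
    intro k hk
    apply Subtype.ext
    rw [hcoe, ← wordEl_substW, ← (h2 k hk).2]
    exact hrel _ (h2 k hk).1
  have hclo : subL c el = Subgroup.closure (subV el sub '' Set.Iio c'.n) := by
    apply le_antisymm
    · rw [subL, Subgroup.closure_le]
      rintro _ ⟨k, hk, rfl⟩
      rcases Nat.lt_or_ge (k - c.nrel) c'.n with hk2 | hk2
      · have : c.W.getD k [] = sub.getD (k - c.nrel) [] := by
          rw [hget]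
          congr 1
          omega
        rw [this]
        exact Subgroup.subset_closure ⟨_, hk2, rfl⟩
      · have h3 : c.W.getD k [] = [] := by
          have : sub.getD (k - c.nrel) [] = [] := List.getD_eq_default _ _ (by omega)
          rw [hget] at this
          have h4 : c.nrel + (k - c.nrel) = k := by omega
          rwa [h4] at this
        rw [h3]
        exact one_mem _
    · rw [Subgroup.closure_le]
      rintro _ ⟨j, _, rfl⟩
      exact hmem j
  have hgen' : ∀ q : subL c el, q ∈ Subgroup.closure (el' '' Set.Iio c'.n) := by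
    intro q
    have h3 : (Subgroup.closure (el' '' Set.Iio c'.n)).map (subL c el).subtype = subL c el := by
      rw [MonoidHom.map_closure, ← Set.image_comp]
      exact hclo.symm
    have h4 : (q : X) ∈ (Subgroup.closure (el' '' Set.Iio c'.n)).map (subL c el).subtype := by
      rw [h3]
      exact q.2
    obtain ⟨y, hy, hyq⟩ := h4
    have : y = q := Subtype.ext hyq
    rwa [this] at hy
  -- the values of the words
  set q₁ : X := wordEl (ltr el) (substW sub w1) with hq1
  set q₂ : X := wordEl (ltr el) (substW sub w2) with hq2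
  set t : X := wordEl (ltr el) T with ht
  have hc1 : ((wordEl (ltr el') w1 : subL c el) : X) = q₁ := by
    rw [hcoe, hq1, wordEl_substW]
  have hc2 : ((wordEl (ltr el') w2 : subL c el) : X) = q₂ := by
    rw [hcoe, hq2, wordEl_substW]
  have hq3 : q₁ ^ 3 = 1 := by
    have := hrel k3 hk3
    rwa [e3, wordEl_powW] at this
  have hqc : q₁ * q₂ = q₂ * q₁ := by
    have := hrel kc hkc
    rw [ec, wordEl_commW] at this
    have h5 : q₂⁻¹ * q₁⁻¹ * q₂ * q₁ = 1 := this
    calc q₁ * q₂ = q₁ * q₂ * (q₂⁻¹ * q₁⁻¹ * q₂ * q₁) := by rw [h5, mul_one]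
      _ = q₂ * q₁ := by group
  have ht1 : t⁻¹ * q₁ * t = q₁⁻¹ := by
    have := hrel kt1 hkt1
    rw [et1] at this
    simp only [invW, wordEl_append, wordEl_inv_word] at this
    have h5 : q₁ * (t⁻¹ * (q₁ * t)) = 1 := this
    rw [mul_assoc]
    exact (eq_inv_of_mul_eq_one_right h5)
  have ht2 : t⁻¹ * q₂ * t = q₂ := by
    have := hrel kt2 hkt2
    rw [et2] at this
    simp only [invW, wordEl_append, wordEl_inv_word] at this
    have h5 : q₂⁻¹ * (t⁻¹ * (q₂ * t)) = 1 := this
    rw [mul_assoc]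
    exact (inv_mul_eq_one.mp h5).symm
  have hq' : wordEl (ltr el') w1 * wordEl (ltr el') w2 = wordEl (ltr el') w2 * wordEl (ltr el') w1 := by
    apply Subtype.ext
    show ((wordEl (ltr el') w1 : subL c el) : X) * ((wordEl (ltr el') w2 : subL c el) : X) =
      ((wordEl (ltr el') w2 : subL c el) : X) * ((wordEl (ltr el') w1 : subL c el) : X)
    rw [hc1, hc2, hqc]
  obtain ⟨hP, hTM⟩ := hT (subL c el) el' hrel' hgen' (subL_card_eq hf hSB hrel hgen hcard) hq'
  intro Γ _ _ σ hstem
  refine exists_section_of_pair σ hstem.1 hstem.2.1 _ hP (wordEl (ltr el') w1) (wordEl (ltr el') w2) ?_ ?_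
  · intro Δ _ _ τ hτ hlift
    exact hTM Δ τ hτ hlift
  · intro a b ha hb
    exact comm_of_reflection σ hstem.1 hstem.2.1 hq3 hqc ht1 ht2 (ha.trans hc1) (hb.trans hc2)

end Nest

end Cfsg.Agent.Lib.Compute.Schur2.Cover
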