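import Mathlib
import Cfsg.Agent.Lib.Compute.Schur2.FastUp

/-!
# The fast check of a cascade, in parts
-/

set_option autoImplicit false

namespace Cfsg.Agent.Lib.Compute.Schur2.UP

open Cfsg Cfsg.Agent.Lib.Compute.SchurLin
open Cfsg.Agent.Lib.Compute.PermCert (allB allB_iff)

/-- The edges at a point. -/
def fedgeAll (c : UP) (B b : ℕ) (P : ℕ → ℕ) (i : ℕ) : Bool := allB (c.fedgeCheck B b P i) (Nat.mul 2 c.n)

/-- The small part of the fast check. -/
def fcheck0 (c : UP) (B b : ℕ) (P : ℕ → ℕ) : Bool :=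
  Nat.blt 0 c.M &&
    c.W.all (fun w => w.all (fun x => Nat.blt x (Nat.mul 2 c.n)) && Nat.blt (Nat.mul w.length (Nat.pow 2 b)) (Nat.pow 2 B)) &&
    allB (c.frelCheck B P) c.W.length

/-- The fast check from its parts. -/
theorem fcheck_of_parts {c : UP} {B b : ℕ} {P : ℕ → ℕ} (h0 : c.fcheck0 B b P = true)
    (h1 : ∀ k, 0 ≤ k → k < c.N → c.fedgeAll B b P k = true) : c.fcheck B b P = true := by
  unfold UP.fcheck
  unfold UP.fcheck0 at h0
  rw [h0, Bool.true_and, allB_iff]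
  intro i hi
  exact h1 i (Nat.zero_le i) hi

end Cfsg.Agent.Lib.Compute.Schur2.UP
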