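import Mathlib
import Cfsg.Agent.Lib.Compute.Schur2.Pres
import Cfsg.Agent.Lib.Compute.Schur2.FastUp

/-!
# Checks with one read per letter

For big tables: the target of an edge and its labels of order two are the bits of one entry of a table, and the rank and
the numbers of an edge on the seeds are the digits of one entry of a second table. A walk is one recursion over the
letters, with all its states evaluated.
-/

set_option autoImplicit false
set_option linter.unusedSectionVars false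
set_option linter.unusedVariables false

namespace Cfsg.Agent.Lib.Compute.Schur2.FastW

open Cfsg Cfsg.Agent.Lib.Compute.SchurLin Cfsg.Agent.Lib.Compute.Schur2
open Cfsg.Agent.Lib.Compute.ToddCoxeterCore (frc frc_eq)
open Cfsg.Agent.Lib.Compute.PermCert (allB allB_iff)

/-! ### Labels of order two -/

section Labels

/-- The walk of a state `point * 2 ^ rb + bits`. -/
noncomputable def lcW (E : ℕ → ℕ) (L rb mask : ℕ) (w : List ℕ) : ℕ → ℕ :=
  List.rec (motive := fun _ => ℕ → ℕ) (fun s => s)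
    (fun x _ ih s =>
      frc (Nat.xor (E (Nat.add (Nat.mul (Nat.shiftRight s rb) L) x)) (Nat.land s mask)) ih) w

variable {l : LC} {E : ℕ → ℕ} {rb mask : ℕ}

theorem land_mask_shift {s : ℕ} (hmask : mask = 2 ^ rb - 1) : (s &&& mask) >>> rb = 0 := by
  subst hmask
  rw [Nat.and_two_pow_sub_one_eq_mod, Nat.shiftRight_eq_div_pow]
  exact Nat.div_eq_of_lt (Nat.mod_lt _ (by positivity))

theorem land_mask_bit {s j : ℕ} (hmask : mask = 2 ^ rb - 1) (hj : j < rb) : (s &&& mask).testBit j = s.testBit j := by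
  subst hmask
  rw [Nat.testBit_and, Nat.testBit_two_pow_sub_one]
  simp [hj]

theorem land_one_eq (a j : ℕ) : Nat.land (Nat.shiftRight a j) 1 = (a.testBit j).toNat := by
  show (a >>> j) &&& 1 = _
  rw [Nat.and_one_is_mod]
  rw [Nat.testBit_eq_decide_div_mod_eq, Nat.shiftRight_eq_div_pow]
  rcases Nat.mod_two_eq_zero_or_one (a / 2 ^ j) with h | h <;> simp [h]

theorem lcW_end (ht : ∀ i x, l.t i x = Nat.shiftRight (E (Nat.add (Nat.mul i (Nat.mul 2 l.n)) x)) rb)
    (hmask : mask = 2 ^ rb - 1) (w : List ℕ) (s : ℕ) :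
    (lcW E (Nat.mul 2 l.n) rb mask w s) >>> rb = walkEnd l.t (s >>> rb) w := by
  induction w generalizing s with
  | nil => rfl
  | cons x w ih =>
    have e1 : lcW E (Nat.mul 2 l.n) rb mask (x :: w) s =
        lcW E (Nat.mul 2 l.n) rb mask w
          (Nat.xor (E (Nat.add (Nat.mul (Nat.shiftRight s rb) (Nat.mul 2 l.n)) x)) (Nat.land s mask)) := by
      show frc _ _ = _
      rw [frc_eq]
      rfl
    rw [e1, ih]
    have e2 : (Nat.xor (E (Nat.add (Nat.mul (Nat.shiftRight s rb) (Nat.mul 2 l.n)) x)) (Nat.land s mask)) >>> rb =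
        l.t (s >>> rb) x := by
      rw [ht]
      show ((E _) ^^^ (s &&& mask)) >>> rb = (E _) >>> rb
      rw [Nat.shiftRight_xor_distrib, land_mask_shift hmask, Nat.xor_zero]
      rfl
    rw [e2]
    rfl

theorem lcW_bit (hnum : ∀ j k, l.num j k = Nat.land (Nat.shiftRight (E k) j) 1)
    (ht : ∀ i x, l.t i x = Nat.shiftRight (E (Nat.add (Nat.mul i (Nat.mul 2 l.n)) x)) rb)
    (hmask : mask = 2 ^ rb - 1) {j : ℕ} (hj : j < rb) (w : List ℕ) (s : ℕ) :
    (lcW E (Nat.mul 2 l.n) rb mask w s).testBit j =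
      xor (s.testBit j) (decide (walkSum l.t (Nat.mul 2 l.n) (l.num j) (s >>> rb) w % 2 = 1)) := by
  induction w generalizing s with
  | nil => simp [lcW, walkSum]
  | cons x w ih =>
    have e1 : lcW E (Nat.mul 2 l.n) rb mask (x :: w) s =
        lcW E (Nat.mul 2 l.n) rb mask w
          (Nat.xor (E (Nat.add (Nat.mul (Nat.shiftRight s rb) (Nat.mul 2 l.n)) x)) (Nat.land s mask)) := by
      show frc _ _ = _
      rw [frc_eq]
      rfl
    rw [e1, ih]
    have e2 : (Nat.xor (E (Nat.add (Nat.mul (Nat.shiftRight s rb) (Nat.mul 2 l.n)) x)) (Nat.land s mask)) >>> rb =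
        l.t (s >>> rb) x := by
      rw [ht]
      show ((E _) ^^^ (s &&& mask)) >>> rb = (E _) >>> rb
      rw [Nat.shiftRight_xor_distrib, land_mask_shift hmask, Nat.xor_zero]
      rfl
    rw [e2]
    have e3 : (Nat.xor (E (Nat.add (Nat.mul (Nat.shiftRight s rb) (Nat.mul 2 l.n)) x)) (Nat.land s mask)).testBit j =
        xor ((E (Nat.add (Nat.mul (Nat.shiftRight s rb) (Nat.mul 2 l.n)) x)).testBit j) (s.testBit j) := by
      show ((E _) ^^^ (s &&& mask)).testBit j = _
      rw [Nat.testBit_xor, land_mask_bit hmask hj]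
    rw [e3]
    have e4 : walkSum l.t (Nat.mul 2 l.n) (l.num j) (s >>> rb) (x :: w) =
        l.num j (Nat.add (Nat.mul (s >>> rb) (Nat.mul 2 l.n)) x) +
          walkSum l.t (Nat.mul 2 l.n) (l.num j) (l.t (s >>> rb) x) w := rfl
    rw [e4, hnum, land_one_eq]
    generalize walkSum l.t (Nat.mul 2 l.n) (l.num j) (l.t (s >>> rb) x) w = S
    have e5 : Nat.shiftRight s rb = s >>> rb := rfl
    rw [e5]
    generalize (E (Nat.add (Nat.mul (s >>> rb) (Nat.mul 2 l.n)) x)).testBit j = a
    generalize s.testBit j = b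
    rcases Nat.mod_two_eq_zero_or_one S with h | h <;> cases a <;> cases b <;> simp [Bool.toNat, Nat.add_mod, h]

/-- All the relators at one point. -/
noncomputable def ptW (l : LC) (E : ℕ → ℕ) (R rb mask : ℕ) (code : ℕ → ℕ) (i : ℕ) : Bool :=
  frc (Nat.mul i R) fun s =>
    allB (fun k => Nat.beq (lcW E (Nat.mul 2 l.n) rb mask (l.W.getD k []) s) (Nat.add s (code k))) l.nrel

theorem relCheck_of_ptW (hnum : ∀ j k, l.num j k = Nat.land (Nat.shiftRight (E k) j) 1)
    (ht : ∀ i x, l.t i x = Nat.shiftRight (E (Nat.add (Nat.mul i (Nat.mul 2 l.n)) x)) rb)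
    {R : ℕ} (hR : R = 2 ^ rb) (hmask : mask = 2 ^ rb - 1) (hr : l.r = rb) (hm : ∀ j < l.r, l.m j = 2)
    {code : ℕ → ℕ} (hcode : ∀ k < l.nrel, code k < R ∧ ∀ j < rb, (code k).testBit j = decide (l.en j k % 2 = 1))
    (h : allB (ptW l E R rb mask code) l.N = true) : allB l.relCheck l.nrel = true := by
  rw [allB_iff]
  intro k hk
  simp only [LC.relCheck, allB_iff, Bool.and_eq_true, Nat.beq_eq]
  intro i hi
  have h1 := (allB_iff _ _).1 h i hi
  simp only [ptW, frc_eq, allB_iff, Nat.beq_eq] at h1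
  have h2 := h1 k hk
  obtain ⟨hc1, hc2⟩ := hcode k hk
  have hRpos : 0 < 2 ^ rb := by positivity
  have hs : (Nat.mul i R) >>> rb = i := by
    subst hR
    show (i * 2 ^ rb) >>> rb = i
    rw [Nat.shiftRight_eq_div_pow, Nat.mul_div_cancel _ hRpos]
  have hsum : (Nat.add (Nat.mul i R) (code k)) >>> rb = i := by
    subst hR
    show (i * 2 ^ rb + code k) >>> rb = i
    rw [Nat.shiftRight_eq_div_pow, Nat.mul_comm, Nat.mul_add_div hRpos, Nat.div_eq_of_lt hc1, Nat.add_zero]
  constructor
  · have h3 := lcW_end ht hmask (l.W.getD k []) (Nat.mul i R)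
    rw [h2, hsum, hs] at h3
    exact h3.symm
  · intro j hj
    have hj' : j < rb := hr ▸ hj
    have h3 := lcW_bit hnum ht hmask hj' (l.W.getD k []) (Nat.mul i R)
    rw [h2, hs] at h3
    have e6 : (Nat.mul i R).testBit j = false := by
      subst hR
      show (i * 2 ^ rb).testBit j = false
      rw [Nat.mul_comm, Nat.testBit_two_pow_mul]
      simp [hj']
    have e7 : (Nat.add (Nat.mul i R) (code k)).testBit j = (code k).testBit j := by
      subst hR
      show (i * 2 ^ rb + code k).testBit j = _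
      rw [Nat.mul_comm, Nat.testBit_two_pow_mul_add _ hc1]
      simp [hj']
    rw [e6, e7, hc2 j hj'] at h3
    simp only [Bool.false_bne, decide_eq_decide] at h3
    show Nat.beq _ _ = true
    rw [Nat.beq_eq]
    show walkSum l.t (Nat.mul 2 l.n) (l.num j) i (l.W.getD k []) % l.m j = l.en j k % l.m j
    rw [hm j hj]
    have h4 := h3
    rcases Nat.mod_two_eq_zero_or_one (l.en j k) with a | a <;>
      rcases Nat.mod_two_eq_zero_or_one (walkSum l.t (Nat.mul 2 l.n) (l.num j) i (l.W.getD k [])) with b | b <;>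
      simp_all

/-- The labels of an edge and of its flip agree. -/
noncomputable def flipW (E : ℕ → ℕ) (L rb mask i x : ℕ) : Bool :=
  frc (E (Nat.add (Nat.mul i L) x)) fun e =>
    frc (E (Nat.add (Nat.mul (Nat.shiftRight e rb) L) (flpB x))) fun e' => Nat.beq (Nat.land (Nat.xor e e') mask) 0

theorem flipCheck_of_W (hnum : ∀ j k, l.num j k = Nat.land (Nat.shiftRight (E k) j) 1)
    (ht : ∀ i x, l.t i x = Nat.shiftRight (E (Nat.add (Nat.mul i (Nat.mul 2 l.n)) x)) rb)
    (hmask : mask = 2 ^ rb - 1) (hr : l.r = rb) (hm : ∀ j < l.r, l.m j = 2) {i x : ℕ}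
    (h : flipW E (Nat.mul 2 l.n) rb mask i x = true) : l.flipCheck i x = true := by
  simp only [flipW, frc_eq, Nat.beq_eq] at h
  simp only [LC.flipCheck, allB_iff]
  intro j hj
  have hj' : j < rb := hr ▸ hj
  have h1 : ((E (Nat.add (Nat.mul i (Nat.mul 2 l.n)) x)) ^^^
      (E (Nat.add (Nat.mul (Nat.shiftRight (E (Nat.add (Nat.mul i (Nat.mul 2 l.n)) x)) rb) (Nat.mul 2 l.n)) (flpB x)))) &&&
      mask = 0 := h
  have h2 := congrArg (fun n => n.testBit j) h1
  simp only [Nat.testBit_and, Nat.testBit_xor, Nat.zero_testBit] at h2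
  subst hmask
  rw [Nat.testBit_two_pow_sub_one] at h2
  simp only [hj', decide_true, Bool.and_true] at h2
  show Nat.beq _ _ = true
  rw [Nat.beq_eq]
  show (l.num j (l.key i x) + l.num j (l.key (l.t i x) (flpB x))) % l.m j = 0 % l.m j
  rw [hm j hj, hnum, hnum, land_one_eq, land_one_eq, ht]
  have e1 : l.key i x = Nat.add (Nat.mul i (Nat.mul 2 l.n)) x := rfl
  have e2 : ∀ a b, l.key a b = Nat.add (Nat.mul a (Nat.mul 2 l.n)) b := fun _ _ => rfl
  rw [e2, e2]
  revert h2
  generalize (E (Nat.add (Nat.mul i (Nat.mul 2 l.n)) x)).testBit j = a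
  generalize (E (Nat.add (Nat.mul (Nat.shiftRight (E (Nat.add (Nat.mul i (Nat.mul 2 l.n)) x)) rb) (Nat.mul 2 l.n)) (flpB x))).testBit j = b
  cases a <;> cases b <;> simp

/-- **The check of the labels, from checks with one read per letter.** -/
theorem check_of_W (hnum : ∀ j k, l.num j k = Nat.land (Nat.shiftRight (E k) j) 1)
    (ht : ∀ i x, l.t i x = Nat.shiftRight (E (Nat.add (Nat.mul i (Nat.mul 2 l.n)) x)) rb)
    {R : ℕ} (hR : R = 2 ^ rb) (hmask : mask = 2 ^ rb - 1) (hr : l.r = rb) (hm : ∀ j < l.r, l.m j = 2)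
    {code : ℕ → ℕ} (hcode : ∀ k < l.nrel, code k < R ∧ ∀ j < rb, (code k).testBit j = decide (l.en j k % 2 = 1))
    (h1 : allB (fun i => allB (flipW E (Nat.mul 2 l.n) rb mask i) (Nat.mul 2 l.n)) l.N = true)
    (h2 : allB (ptW l E R rb mask code) l.N = true)
    (h3 : allB (fun k => allB (fun j => l.eqm j (l.en j k) 0) l.r) l.n = true)
    (h4 : allB (fun j => (l.unit j).all (fun p => Nat.blt p.1 l.nrel) &&
      allB (fun a => l.eqm a (l.comb a (l.unit j)) (bif Nat.beq a j then 1 else 0)) l.r) l.r = true) :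
    l.check = true := by
  have h5 : allB (fun i => allB (l.flipCheck i) (Nat.mul 2 l.n)) l.N = true := by
    rw [allB_iff]
    intro i hi
    rw [allB_iff]
    intro x hx
    exact flipCheck_of_W hnum ht hmask hr hm ((allB_iff _ _).1 ((allB_iff _ _).1 h1 i hi) x hx)
  rw [LC.check, h5, relCheck_of_ptW hnum ht hR hmask hr hm hcode h2, h3, h4]
  rfl

end Labels

/-! ### The cascade -/

section Cascade

/-- One walk for the justification of an edge: the end, the ranks and the sum of the numbers. -/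
noncomputable def upW (t : ℕ → ℕ → ℕ) (L : ℕ) (Pr : ℕ → ℕ) (r i₁ x₁ i₂ x₂ : ℕ) (fin : ℕ → ℕ → Bool) (w : List ℕ) :
    ℕ → ℕ → Bool → Bool :=
  List.rec (motive := fun _ => ℕ → ℕ → Bool → Bool)
    (fun i acc hit => Bool.rec (motive := fun _ => Bool) false (fin i acc) hit)
    (fun x _ ih i acc hit =>
      frc (Pr (Nat.add (Nat.mul i L) x)) fun p =>
        frc (Nat.add acc (Nat.shiftRight p 8)) fun acc' =>
          frc (t i x) fun j =>
            Bool.rec (motive := fun _ => Bool)
              (Bool.rec (motive := fun _ => Bool)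
                (Bool.rec (motive := fun _ => Bool) false (ih j acc' false) (Nat.blt (Nat.land p 255) r))
                (ih j acc' true)
                ((Nat.beq i i₁ && Nat.beq x x₁) || (Nat.beq i i₂ && Nat.beq x x₂)))
              (Bool.rec (motive := fun _ => Bool) false (ih j acc' true) (Nat.blt (Nat.land p 255) r))
              hit) w

variable {t : ℕ → ℕ → ℕ} {L : ℕ} {Pr : ℕ → ℕ} {r i₁ x₁ i₂ x₂ : ℕ} {fin : ℕ → ℕ → Bool}

theorem upW_cons_true (x : ℕ) (w : List ℕ) (i acc : ℕ) :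
    upW t L Pr r i₁ x₁ i₂ x₂ fin (x :: w) i acc true =
      (Nat.blt (Nat.land (Pr (Nat.add (Nat.mul i L) x)) 255) r &&
        upW t L Pr r i₁ x₁ i₂ x₂ fin w (t i x) (Nat.add acc (Nat.shiftRight (Pr (Nat.add (Nat.mul i L) x)) 8)) true) := by
  have e : upW t L Pr r i₁ x₁ i₂ x₂ fin (x :: w) i acc true =
      frc (Pr (Nat.add (Nat.mul i L) x)) fun p =>
        frc (Nat.add acc (Nat.shiftRight p 8)) fun acc' =>
          frc (t i x) fun j =>
            (Bool.rec (motive := fun _ => Bool) false (upW t L Pr r i₁ x₁ i₂ x₂ fin w j acc' true)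
              (Nat.blt (Nat.land p 255) r) : Bool) := rfl
  rw [e]
  simp only [frc_eq]
  cases Nat.blt (Nat.land (Pr (Nat.add (Nat.mul i L) x)) 255) r <;> rfl

theorem upW_cons_false (x : ℕ) (w : List ℕ) (i acc : ℕ) :
    upW t L Pr r i₁ x₁ i₂ x₂ fin (x :: w) i acc false =
      (bif (Nat.beq i i₁ && Nat.beq x x₁) || (Nat.beq i i₂ && Nat.beq x x₂) then
        upW t L Pr r i₁ x₁ i₂ x₂ fin w (t i x) (Nat.add acc (Nat.shiftRight (Pr (Nat.add (Nat.mul i L) x)) 8)) true
      else
        (Nat.blt (Nat.land (Pr (Nat.add (Nat.mul i L) x)) 255) r &&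
          upW t L Pr r i₁ x₁ i₂ x₂ fin w (t i x) (Nat.add acc (Nat.shiftRight (Pr (Nat.add (Nat.mul i L) x)) 8)) false)) := by
  have e : upW t L Pr r i₁ x₁ i₂ x₂ fin (x :: w) i acc false =
      frc (Pr (Nat.add (Nat.mul i L) x)) fun p =>
        frc (Nat.add acc (Nat.shiftRight p 8)) fun acc' =>
          frc (t i x) fun j =>
            (Bool.rec (motive := fun _ => Bool)
              (Bool.rec (motive := fun _ => Bool) false (upW t L Pr r i₁ x₁ i₂ x₂ fin w j acc' false)
                (Nat.blt (Nat.land p 255) r))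
              (upW t L Pr r i₁ x₁ i₂ x₂ fin w j acc' true)
              ((Nat.beq i i₁ && Nat.beq x x₁) || (Nat.beq i i₂ && Nat.beq x x₂)) : Bool) := rfl
  rw [e]
  simp only [frc_eq]
  cases (Nat.beq i i₁ && Nat.beq x x₁) || (Nat.beq i i₂ && Nat.beq x x₂) <;>
    cases Nat.blt (Nat.land (Pr (Nat.add (Nat.mul i L) x)) 255) r <;> rfl

theorem upW_true (w : List ℕ) (i acc : ℕ) :
    upW t L Pr r i₁ x₁ i₂ x₂ fin w i acc true =
      (allLow t L (fun u => Nat.land (Pr u) 255) r i w &&
        fin (walkEnd t i w) (acc + walkSum t L (fun u => Nat.shiftRight (Pr u) 8) i w)) := by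
  induction w generalizing i acc with
  | nil => simp [upW, allLow, walkEnd, walkSum]
  | cons x w ih =>
    rw [upW_cons_true, ih]
    have e1 : acc + walkSum t L (fun u => Nat.shiftRight (Pr u) 8) i (x :: w) =
        Nat.add acc (Nat.shiftRight (Pr (Nat.add (Nat.mul i L) x)) 8) +
          walkSum t L (fun u => Nat.shiftRight (Pr u) 8) (t i x) w := by
      show acc + (Nat.shiftRight (Pr (Nat.add (Nat.mul i L) x)) 8 + walkSum t L (fun u => Nat.shiftRight (Pr u) 8) (t i x) w) = _
      show _ = (acc + Nat.shiftRight (Pr (Nat.add (Nat.mul i L) x)) 8) + _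
      omega
    rw [e1]
    show _ = ((Nat.blt (Nat.land (Pr (Nat.add (Nat.mul i L) x)) 255) r &&
        allLow t L (fun u => Nat.land (Pr u) 255) r (t i x) w) && fin (walkEnd t (t i x) w) _)
    cases Nat.blt (Nat.land (Pr (Nat.add (Nat.mul i L) x)) 255) r <;> simp

theorem upW_false (w : List ℕ) (i acc : ℕ) :
    upW t L Pr r i₁ x₁ i₂ x₂ fin w i acc false =
      (oneHit t L (fun u => Nat.land (Pr u) 255) r i₁ x₁ i₂ x₂ i w &&
        fin (walkEnd t i w) (acc + walkSum t L (fun u => Nat.shiftRight (Pr u) 8) i w)) := by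
  induction w generalizing i acc with
  | nil => simp [upW, oneHit]
  | cons x w ih =>
    rw [upW_cons_false, ih, upW_true]
    have e1 : acc + walkSum t L (fun u => Nat.shiftRight (Pr u) 8) i (x :: w) =
        Nat.add acc (Nat.shiftRight (Pr (Nat.add (Nat.mul i L) x)) 8) +
          walkSum t L (fun u => Nat.shiftRight (Pr u) 8) (t i x) w := by
      show acc + (Nat.shiftRight (Pr (Nat.add (Nat.mul i L) x)) 8 + walkSum t L (fun u => Nat.shiftRight (Pr u) 8) (t i x) w) = _
      show _ = (acc + Nat.shiftRight (Pr (Nat.add (Nat.mul i L) x)) 8) + _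
      omega
    rw [e1]
    show _ = ((bif (Nat.beq i i₁ && Nat.beq x x₁) || (Nat.beq i i₂ && Nat.beq x x₂) then
          allLow t L (fun u => Nat.land (Pr u) 255) r (t i x) w
        else Nat.blt (Nat.land (Pr (Nat.add (Nat.mul i L) x)) 255) r &&
          oneHit t L (fun u => Nat.land (Pr u) 255) r i₁ x₁ i₂ x₂ (t i x) w) &&
        fin (walkEnd t (t i x) w) _)
    cases (Nat.beq i i₁ && Nat.beq x x₁) || (Nat.beq i i₂ && Nat.beq x x₂) <;>
      cases Nat.blt (Nat.land (Pr (Nat.add (Nat.mul i L) x)) 255) r <;> simp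

end Cascade

namespace UPW

open UP

variable (c : UP) (B b : ℕ) (Pr : ℕ → ℕ)

/-- The numbers of an edge, as digits. -/
def PP (k : ℕ) : ℕ := Nat.shiftRight (Pr k) 8

/-- The justification of an edge of positive rank, one walk. -/
noncomputable def fscanW (i x j y u r : ℕ) : Bool :=
  frc (c.jk u) fun k => frc (c.ji u) fun i0 =>
    Nat.blt k c.W.length && Nat.blt i0 c.N && Nat.blt (c.rkR k) r &&
      upW c.t (Nat.mul 2 c.n) Pr r i x j y
        (fun e acc => Nat.beq e i0 && allB (fun a => c.eqM (dig B a acc) (c.rv a k)) c.s)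
        (c.W.getD k []) i0 0 false

/-- The check of an edge. -/
noncomputable def edgeW (i x : ℕ) : Bool :=
  frc (c.t i x) fun j => frc (flpB x) fun y =>
    frc (Nat.add (Nat.mul i (Nat.mul 2 c.n)) x) fun u => frc (Nat.add (Nat.mul j (Nat.mul 2 c.n)) y) fun v =>
      frc (Pr u) fun pu => frc (Pr v) fun pv =>
        frc (Nat.shiftRight pu 8) fun qu => frc (Nat.shiftRight pv 8) fun qv =>
          frc (Nat.land pu 255) fun ru =>
            Nat.blt j c.N && Nat.beq (c.t j y) i && Nat.beq (Nat.land pv 255) ru &&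
              (Nat.blt qu (Nat.pow (Nat.pow 2 B) c.s) && allB (fun a => Nat.blt (dig B a qu) (Nat.pow 2 b)) c.s) &&
              (bif Nat.ble u v then
                allB (fun a => c.eqM (Nat.add (dig B a qu) (dig B a qv)) 0) c.s &&
                (bif Nat.beq ru 0 then (c.treeEdge i x j y && c.zeroLab u) || c.seedEdge i x u
                 else fscanW c B Pr i x j y u ru)
               else true)

variable {c B b Pr}

theorem fscan_of_W (hrk : ∀ u, c.rk u = Nat.land (Pr u) 255) {i x j y u : ℕ}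
    (h : fscanW c B Pr i x j y u (Nat.land (Pr u) 255) = true) : c.fscan B (PP Pr) i x j y u = true := by
  have ht : c.rk = fun u => Nat.land (Pr u) 255 := funext hrk
  simp only [fscanW, frc_eq, Bool.and_eq_true, Nat.blt_eq] at h
  obtain ⟨⟨⟨a1, a2⟩, a3⟩, a4⟩ := h
  rw [upW_false] at a4
  simp only [Bool.and_eq_true, Nat.beq_eq, Nat.zero_add] at a4
  obtain ⟨a5, a6, a7⟩ := a4
  simp only [fscan, Bool.and_eq_true, Nat.blt_eq, Nat.beq_eq]
  refine ⟨⟨⟨⟨⟨a1, a2⟩, a6⟩, ?_⟩, ?_⟩, ?_⟩
  · rw [hrk]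
    exact a3
  · rw [ht]
    exact a5
  · simp only [fsumOK]
    exact a7

theorem edge_of_W (hlab : ∀ j k, c.lab j k = dig B j (PP Pr k)) (hrk : ∀ u, c.rk u = Nat.land (Pr u) 255) {i x : ℕ}
    (h : edgeW c B b Pr i x = true) : c.fedgeCheck B b (PP Pr) i x = true := by
  simp only [edgeW, frc_eq, Bool.and_eq_true, Nat.blt_eq, Nat.beq_eq] at h
  obtain ⟨⟨⟨⟨a1, a2⟩, a3⟩, a4, a5⟩, a6⟩ := h
  simp only [fedgeCheck, Bool.and_eq_true, Nat.blt_eq, Nat.beq_eq]
  refine ⟨⟨⟨⟨a1, a2⟩, ?_⟩, ?_⟩, ?_⟩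
  · rw [hrk, hrk]
    exact a3
  · simp only [keyOK, Bool.and_eq_true, Nat.blt_eq]
    exact ⟨a4, a5⟩
  · have e1 : c.key i x = Nat.add (Nat.mul i (Nat.mul 2 c.n)) x := rfl
    have e2 : c.key (c.t i x) (flpB x) = Nat.add (Nat.mul (c.t i x) (Nat.mul 2 c.n)) (flpB x) := rfl
    rw [e1, e2]
    cases hle : Nat.ble (Nat.add (Nat.mul i (Nat.mul 2 c.n)) x) (Nat.add (Nat.mul (c.t i x) (Nat.mul 2 c.n)) (flpB x)) with
    | false => rfl
    | true =>
      rw [hle, cond_true, Bool.and_eq_true] at a6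
      rw [cond_true, Bool.and_eq_true]
      obtain ⟨b1, b2⟩ := a6
      constructor
      · simp only [allB_iff] at b1 ⊢
        intro a ha
        rw [hlab, hlab]
        exact b1 a ha
      · rw [hrk]
        cases hr : Nat.beq (Nat.land (Pr (Nat.add (Nat.mul i (Nat.mul 2 c.n)) x)) 255) 0 with
        | true =>
          rw [hr, cond_true] at b2
          rw [cond_true]
          exact b2
        | false =>
          rw [hr, cond_false] at b2
          rw [cond_false]
          exact fscan_of_W hrk b2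

/-- **The check of a cascade, from checks of the edges.** -/
theorem check_of_W (hlab : ∀ j k, c.lab j k = dig B j (PP Pr k)) (hrk : ∀ u, c.rk u = Nat.land (Pr u) 255)
    (h0 : Nat.blt 0 c.M = true)
    (h1 : c.W.all (fun w => w.all (fun x => Nat.blt x (Nat.mul 2 c.n)) &&
      Nat.blt (Nat.mul w.length (Nat.pow 2 b)) (Nat.pow 2 B)) = true)
    (h2 : allB (c.frelCheck B (PP Pr)) c.W.length = true)
    (h3 : allB (fun i => allB (edgeW c B b Pr i) (Nat.mul 2 c.n)) c.N = true) : c.check = true := by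
  apply check_of_fcheck hlab
  have h4 : allB (fun i => allB (c.fedgeCheck B b (PP Pr) i) (Nat.mul 2 c.n)) c.N = true := by
    rw [allB_iff]
    intro i hi
    rw [allB_iff]
    intro x hx
    exact edge_of_W hlab hrk ((allB_iff _ _).1 ((allB_iff _ _).1 h3 i hi) x hx)
  rw [fcheck, h0, h1, h2, h4]
  rfl

end UPW

end Cfsg.Agent.Lib.Compute.Schur2.FastW
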