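import Mathlib
import Cfsg.Agent.Lib.Compute.G23Main
import Cfsg.Agent.Lib.Compute.Schur2.PermG

/-!
# Generators of `G₂(3)` given by words in the root elements
-/

set_option autoImplicit false
set_option maxRecDepth 100000

namespace Cfsg.Agent.Lib.Compute.Schur2.G23G

open Cfsg Cfsg.Lie Matrix
open Cfsg.Agent.Lib.Compute.SchurLin
open Cfsg.Agent.Lib.Compute.G23
open Cfsg.Agent.Lib.Compute.ToddCoxeterCore (wordEl wordEl_nil wordEl_cons)

/-- The words are admissible. -/
theorem wOK_getD {ws : List (List (ℕ × ℕ))} (hw : ws.all wOK = true) (j : ℕ) :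
    wOK (ws.getD j []) = true := by
  rw [List.all_eq_true] at hw
  by_cases hj : j < ws.length
  · rw [List.getD_eq_getElem _ _ hj]
    exact hw _ (List.getElem_mem hj)
  · rw [List.getD_eq_default _ _ (by omega)]
    rfl

/-- The generators. -/
noncomputable def gW (ws : List (List (ℕ × ℕ))) (hw : ws.all wOK = true) (j : ℕ) : GR :=
  ⟨wordG (ws.getD j []), wordG_mem (wOK_getD hw j)⟩

theorem gW_ge {ws : List (List (ℕ × ℕ))} (hw : ws.all wOK = true) {j : ℕ} (hj : ws.length ≤ j) :
    gW ws hw j = 1 := by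
  apply Subtype.ext
  simp only [gW]
  rw [List.getD_eq_default _ _ hj]
  rfl

/-- The image of a vector by a word in letters given by matrices: the first letter acts first. -/
def wVec (As : List (List (List ℕ))) : List ℕ → List ℕ → List ℕ
  | [], v => v
  | x :: u, v => wVec As u (mv (As.getD x []) v)

/-- The matrices of the letters are correct. -/
def lettersOK (ws : List (List (ℕ × ℕ))) (As : List (List (List ℕ))) : Bool :=
  (List.range ws.length).all fun j =>
    ok14 (As.getD (2 * j) []) && ok14 (As.getD (2 * j + 1) []) &&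
      r14.all fun n =>
        eq3 (mv (As.getD (2 * j) []) (unit n)) (wordL (ws.getD j []) (unit n)) &&
          eq3 (mv (As.getD (2 * j + 1) []) (mv (As.getD (2 * j) []) (unit n))) (unit n)

section

variable {ws : List (List (ℕ × ℕ))} {As : List (List (List ℕ))}
  (hw : ws.all wOK = true) (hA : lettersOK ws As = true)

include hA

theorem letters_parts {j : ℕ} (hj : j < ws.length) :
    Ok14 (As.getD (2 * j) []) ∧ Ok14 (As.getD (2 * j + 1) []) ∧
      ∀ n, n < 14 →
        eq3 (mv (As.getD (2 * j) []) (unit n)) (wordL (ws.getD j []) (unit n)) = true ∧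
          eq3 (mv (As.getD (2 * j + 1) []) (mv (As.getD (2 * j) []) (unit n))) (unit n) = true := by
  unfold lettersOK at hA
  rw [List.all_eq_true] at hA
  have h := hA j (List.mem_range.mpr hj)
  simp only [Bool.and_eq_true, List.all_eq_true] at h
  refine ⟨ok14_sound h.1.1, ok14_sound h.1.2, ?_⟩
  intro n hn
  have hm : n ∈ r14 := by
    rw [r14_eq]
    exact List.mem_range.mpr hn
  exact h.2 n hm

include hw

theorem gW_mat {j : ℕ} (hj : j < ws.length) :
    ((gW ws hw j : GR) : GL Ix R).1 = matL (As.getD (2 * j) []) := by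
  obtain ⟨h1, _, h3⟩ := letters_parts hA hj
  apply mat_ext
  intro n hn
  rw [← vecL_unit hn]
  have hu := unit_length n
  show (wordG (ws.getD j [])).1 *ᵥ vecL (unit n) = _
  rw [(wordG_mulVec (wOK_getD hw j) hu).1, matL_mulVec h1 hu]
  exact (vecL_eq_of_eq3 (h3 n hn).1).symm

theorem gW_inv_mat {j : ℕ} (hj : j < ws.length) :
    (((gW ws hw j : GR)⁻¹ : GR) : GL Ix R).1 = matL (As.getD (2 * j + 1) []) := by
  obtain ⟨h1, h2, h3⟩ := letters_parts hA hj
  have hmul : matL (As.getD (2 * j + 1) []) * matL (As.getD (2 * j) []) = 1 := by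
    apply mat_ext
    intro n hn
    rw [← vecL_unit hn]
    have hu := unit_length n
    rw [← Matrix.mulVec_mulVec, matL_mulVec h1 hu, matL_mulVec h2 (by rw [mv_length, h1.1]), Matrix.one_mulVec]
    exact vecL_eq_of_eq3 (h3 n hn).2
  have h4 : ((gW ws hw j : GR) : GL Ix R).1 = matL (As.getD (2 * j) []) := gW_mat hw hA hj
  have h5 : ((gW ws hw j : GR) : GL Ix R).1 * (((gW ws hw j : GR) : GL Ix R)⁻¹ : GL Ix R).1 = 1 := by
    rw [← Units.val_mul, mul_inv_cancel]
    rfl
  show (((gW ws hw j : GR) : GL Ix R)⁻¹ : GL Ix R).1 = _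
  calc (((gW ws hw j : GR) : GL Ix R)⁻¹ : GL Ix R).1
      = (matL (As.getD (2 * j + 1) []) * matL (As.getD (2 * j) [])) * (((gW ws hw j : GR) : GL Ix R)⁻¹ : GL Ix R).1 := by
        rw [hmul, Matrix.one_mul]
    _ = matL (As.getD (2 * j + 1) []) := by
        rw [Matrix.mul_assoc, ← h4, h5, Matrix.mul_one]

theorem ltr_mat {x : ℕ} (hx : x < 2 * ws.length) :
    ((ltr (gW ws hw) x : GR) : GL Ix R).1 = matL (As.getD x []) := by
  unfold ltr
  by_cases h : x % 2 = 0
  · rw [if_pos h]
    have h1 : 2 * (x / 2) = x := by omega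
    have := gW_mat (j := x / 2) hw hA (by omega)
    rwa [h1] at this
  · rw [if_neg h]
    have h1 : 2 * (x / 2) + 1 = x := by omega
    have := gW_inv_mat (j := x / 2) hw hA (by omega)
    rwa [h1] at this

theorem ok14_letter {x : ℕ} (hx : x < 2 * ws.length) : Ok14 (As.getD x []) := by
  by_cases h : x % 2 = 0
  · have h1 : 2 * (x / 2) = x := by omega
    have := (letters_parts (j := x / 2) hA (by omega)).1
    rwa [h1] at this
  · have h1 : 2 * (x / 2) + 1 = x := by omega
    have := (letters_parts (j := x / 2) hA (by omega)).2.1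
    rwa [h1] at this

theorem wordEl_mulVec : ∀ (u : List ℕ), (∀ x ∈ u, x < 2 * ws.length) → ∀ (v : List ℕ), v.length = 14 →
    ((wordEl (ltr (gW ws hw)) u : GR) : GL Ix R).1 *ᵥ vecL v = vecL (wVec As u v) ∧ (wVec As u v).length = 14
  | [], _, v, hv => ⟨by simp [wVec], hv⟩
  | x :: u, hu, v, hv => by
    have hx := hu x (by simp)
    have hA' := ok14_letter hw hA hx
    have hv' : (mv (As.getD x []) v).length = 14 := by rw [mv_length, hA'.1]
    obtain ⟨h1, h2⟩ := wordEl_mulVec u (fun y hy => hu y (by simp [hy])) _ hv'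
    refine ⟨?_, h2⟩
    rw [wordEl_cons]
    show (((wordEl (ltr (gW ws hw)) u : GR) : GL Ix R).1 * ((ltr (gW ws hw) x : GR) : GL Ix R).1) *ᵥ vecL v = _
    rw [← Matrix.mulVec_mulVec, ltr_mat hw hA hx, matL_mulVec hA' hv, h1]
    rfl

end

/-- The check of a relator. -/
def relOK (k : ℕ) (As : List (List (List ℕ))) (u : List ℕ) : Bool :=
  u.all (fun x => Nat.blt x (2 * k)) && r14.all fun n => eq3 (wVec As u (unit n)) (unit n)

theorem rel_of_relOK {ws : List (List (ℕ × ℕ))} {As : List (List (List ℕ))}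
    (hw : ws.all wOK = true) (hA : lettersOK ws As = true) {u : List ℕ}
    (h : relOK ws.length As u = true) : wordEl (ltr (gW ws hw)) u = 1 := by
  simp only [relOK, Bool.and_eq_true, List.all_eq_true, Nat.blt_eq] at h
  apply Subtype.ext
  apply Units.ext
  apply mat_ext
  intro n hn
  have hm : n ∈ r14 := by
    rw [r14_eq]
    exact List.mem_range.mpr hn
  rw [← vecL_unit hn, (wordEl_mulVec hw hA u h.1 _ (unit_length n)).1, vecL_eq_of_eq3 (h.2 n hm)]
  simp

/-- The check that the root elements are given by words. -/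
def gensOK (k : ℕ) (As : List (List (List ℕ))) (us : List (List ℕ)) : Bool :=
  (List.range 12).all fun r => (List.range 3).all fun t =>
    (us.getD (r * 3 + t) []).all (fun x => Nat.blt x (2 * k)) &&
      r14.all fun n => eq3 (wVec As (us.getD (r * 3 + t) []) (unit n)) (mv (xT r t) (unit n))

theorem gen_of_gensOK {ws : List (List (ℕ × ℕ))} {As : List (List (List ℕ))} {us : List (List ℕ)}
    (hw : ws.all wOK = true) (hA : lettersOK ws As = true)
    (h : gensOK ws.length As us = true) (x : GR) :
    x ∈ Subgroup.closure (gW ws hw '' Set.Iio ws.length) := by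
  set S := Subgroup.closure (gW ws hw '' Set.Iio ws.length) with hS
  have key : chevG2.group R ≤ S.map (chevG2.group R).subtype := by
    unfold ChevalleyDatum.group
    rw [Subgroup.closure_le]
    rintro g ⟨r, t, hg⟩
    have hr : r.val < 12 := r.2
    have ht : t.val < 3 := t.val_lt
    simp only [gensOK, List.all_eq_true, List.mem_range, Bool.and_eq_true, Nat.blt_eq] at h
    obtain ⟨h1, h2⟩ := h r.val hr t.val ht
    set u := us.getD (r.val * 3 + t.val) [] with hu
    refine ⟨wordEl (ltr (gW ws hw)) u, ?_, ?_⟩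
    · exact wordEl_mem_closure' _ h1
    · apply Units.ext
      show ((wordEl (ltr (gW ws hw)) u : GR) : GL Ix R).1 = g.1
      rw [hg, xMat_eq]
      have hlen := xT_len r.val t.val hr ht
      apply mat_ext
      intro n hn
      have hm : n ∈ r14 := by
        rw [r14_eq]
        exact List.mem_range.mpr hn
      rw [← vecL_unit hn, (wordEl_mulVec hw hA u h1 _ (unit_length n)).1, vecL_eq_of_eq3 (h2 n hm),
        matL_mulVec hlen (unit_length n)]
  obtain ⟨y, hy, hxy⟩ := key x.2
  have : y = x := Subtype.ext hxy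
  rwa [← this]

end Cfsg.Agent.Lib.Compute.Schur2.G23G
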