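import Cfsg.Agent.Lib.Compute.Schur2.G24sData
import Cfsg.Agent.Lib.Compute.Schur2.Chunks


set_option autoImplicit false
set_option maxRecDepth 1000000

namespace Cfsg.Agent.Lib.Compute.Schur2.G24s

open Cfsg Cfsg.Agent.Lib.Compute.SchurLin Cfsg.Agent.Lib.Compute.ToddCoxeterCore
open Cfsg.Agent.Lib.Compute.ToddCoxeterPresented (allFrom_all allFrom_chain)

universe u

theorem chkC0 : certB0 c eE 68705 9815 eP rT 55 = true := by decide +kernel

theorem chkK0 : allFrom (mkC c eE 68705 9815 eP rT).chkKey 20000 0 = true := by decide +kernel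

theorem chkK1 : allFrom (mkC c eE 68705 9815 eP rT).chkKey 20000 20000 = true := by decide +kernel

theorem chkK2 : allFrom (mkC c eE 68705 9815 eP rT).chkKey 20000 40000 = true := by decide +kernel

theorem chkK3 : allFrom (mkC c eE 68705 9815 eP rT).chkKey 8705 60000 = true := by decide +kernel

theorem chkL0 : allFrom (mkC c eE 68705 9815 eP rT).chkLbl 9814 1 = true := by decide +kernel

theorem chkF0 : allFrom ((mkC c eE 68705 9815 eP rT).chkFin (List.range (mkC c eE 68705 9815 eP rT).L)) 1000 0 = true := by decide +kernel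

theorem chkF1 : allFrom ((mkC c eE 68705 9815 eP rT).chkFin (List.range (mkC c eE 68705 9815 eP rT).L)) 1000 1000 = true := by decide +kernel

theorem chkF2 : allFrom ((mkC c eE 68705 9815 eP rT).chkFin (List.range (mkC c eE 68705 9815 eP rT).L)) 1000 2000 = true := by decide +kernel

theorem chkF3 : allFrom ((mkC c eE 68705 9815 eP rT).chkFin (List.range (mkC c eE 68705 9815 eP rT).L)) 1000 3000 = true := by decide +kernel

theorem chkF4 : allFrom ((mkC c eE 68705 9815 eP rT).chkFin (List.range (mkC c eE 68705 9815 eP rT).L)) 32 4000 = true := by decide +kernel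

theorem chkT0 : allFrom (certT c eE 68705 9815 eP rT) 2000 0 = true := by decide +kernel

theorem chkT1 : allFrom (certT c eE 68705 9815 eP rT) 2000 2000 = true := by decide +kernel

theorem chkT2 : allFrom (certT c eE 68705 9815 eP rT) 32 4000 = true := by decide +kernel

end Cfsg.Agent.Lib.Compute.Schur2.G24s
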