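import Cfsg.Agent.Lib.Compute.Schur2.G24sData
import Cfsg.Agent.Lib.Compute.Schur2.Chunks


set_option autoImplicit false
set_option maxRecDepth 1000000

namespace Cfsg.Agent.Lib.Compute.Schur2.G24s

open Cfsg Cfsg.Agent.Lib.Compute.SchurLin Cfsg.Agent.Lib.Compute.ToddCoxeterCore
open Cfsg.Agent.Lib.Compute.ToddCoxeterPresented (allFrom_all allFrom_chain)

universe u

theorem chkR3 : allFrom l.relAll 4 12 = true := by decide +kernel

theorem chkR4 : allFrom l.relAll 4 16 = true := by decide +kernel

theorem chkR5 : allFrom l.relAll 4 20 = true := by decide +kernel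

end Cfsg.Agent.Lib.Compute.Schur2.G24s
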