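import Cfsg.Agent.Lib.Compute.Schur2.HSMCert
import Cfsg.Agent.Lib.Compute.Schur2.HSMUp
import Cfsg.Agent.Lib.Compute.Schur2.M11In
import Cfsg.Agent.Lib.Compute.Schur2.Fast

/-! Checks for the multiplier of `HS`. -/

set_option autoImplicit false
set_option maxRecDepth 1000000
set_option Elab.async false

namespace Cfsg.Agent.Lib.Compute.Schur2.HSM

open Cfsg Cfsg.Agent.Lib.Compute.SchurLin Cfsg.Agent.Lib.Compute.PermCert Cfsg.Agent.Lib.Compute.Schur2

universe u

theorem certChk : certB c eE 55825 7975 eP rT 14 = true := by decide +kernel

theorem sound : TC.Sound.{u} c := sound_of_check certChk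

/-- The correspondence of relators with the inner relators. -/
def mp (k : ℕ) : ℕ := bif Nat.blt k 2 then k else Nat.succ k

theorem nestChk : nestB c M11In.c mp = true := by decide +kernel

theorem hSB : SubBound.{u} c (M11In.c.N * 11) := subBound_nest M11In.sound M11In.hSB nestChk

theorem hnormC : normB c.n c.W = true := by decide +kernel

theorem hnormU : normB u.n u.W = true := by decide +kernel

theorem tailChk : UP.tailCheck u d = true := by decide +kernel

theorem up0 : Nat.blt 0 u.M = true := by decide +kernel

theorem up1 : u.W.all (fun w => w.all (fun x => Nat.blt x (Nat.mul 2 u.n)) &&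
    Nat.blt (Nat.mul w.length (Nat.pow 2 13)) (Nat.pow 2 19)) = true := by decide +kernel

theorem up2 : allB (u.frelCheck 19 (FastW.UPW.PP Pr)) u.W.length = true := by decide +kernel

end Cfsg.Agent.Lib.Compute.Schur2.HSM
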