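import Mathlib
import Cfsg.Agent.Lib.Compute.Schur2.Pres

/-!
# Multipliers prime by prime

A perfect group whose kernels of order prime to `3` are images of `Z₂`, and whose kernels of odd order are images of
`Z₃`, with stem extensions with kernels `Z₂` and `Z₃`, has multiplier `Z₆`.  The bounds come from tables over subgroups
whose multipliers have no part at the prime considered.
-/

set_option autoImplicit false

namespace Cfsg.Agent.Lib.Compute.Schur2

open Cfsg Cfsg.Agent.Lib.Compute.SchurLin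
open Cfsg.Agent.Lib.Compute.ToddCoxeterCore (wordEl wordEl_nil wordEl_cons wordEl_append)
open Cfsg.Agent.Lib.Compute.PermCert (allB allB_iff)

universe u

/-! ### Multipliers away from a number -/

/-- The stem extensions with kernels of order prime to `q` are isomorphisms. -/
def TrivMultC (L : Type) [Group L] (q : ℕ) : Prop :=
  ∀ (Γ : Type) [Group Γ] [Finite Γ] (σ : Γ →* L), IsStemExtension σ → Nat.Coprime (Nat.card σ.ker) q →
    Function.Injective σ

section Sec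

variable {Γ G : Type} [Group Γ] [Group G]

/-- Over a perfect subgroup with trivial multiplier away from `q`, a central extension with kernel prime to `q` has a
section. -/
theorem exists_section_of_perfectC [Finite Γ] {q : ℕ} (σ : Γ →* G) (hs : Function.Surjective σ)
    (hc : σ.ker ≤ Subgroup.center Γ) (L : Subgroup G) (hL : commutator L = ⊤) (hT : TrivMultC L q)
    (hq : Nat.Coprime (Nat.card σ.ker) q) :
    ∃ s : L →* Γ, ∀ l, σ (s l) = l := by
  set E : Subgroup Γ := L.comap σ with hE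
  set D : Subgroup Γ := ⁅E, E⁆ with hD
  have hLL : ⁅L, L⁆ = L := by
    have h1 := Subgroup.map_subtype_commutator L
    rw [hL] at h1
    rw [← h1]
    ext x
    simp
  have hEmap : E.map σ = L := Subgroup.map_comap_eq_self_of_surjective hs L
  have hDmap : D.map σ = L := by
    rw [hD, Subgroup.map_commutator, hEmap, hLL]
  -- `D` is perfect
  have hdec : ∀ e ∈ E, ∃ d ∈ D, ∃ z ∈ σ.ker, e = d * z := by
    intro e he
    have h1 : σ e ∈ D.map σ := by rw [hDmap]; exact he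
    obtain ⟨d, hd, hde⟩ := h1
    refine ⟨d, hd, d⁻¹ * e, ?_, by group⟩
    rw [MonoidHom.mem_ker, map_mul, map_inv, hde, inv_mul_cancel]
  have hDD : D ≤ ⁅D, D⁆ := by
    show ⁅E, E⁆ ≤ ⁅D, D⁆
    rw [Subgroup.commutator_le]
    intro a ha b hb
    obtain ⟨d, hd, z, hz, rfl⟩ := hdec a ha
    obtain ⟨f, hf, y, hy, rfl⟩ := hdec b hb
    rw [commutatorElement_def, comm_central_mul d f z y (hc hz) (hc hy)]
    have h5 := Subgroup.commutator_mem_commutator hd hf
    rwa [commutatorElement_def] at h5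
  let τ : D →* L := (σ.comp D.subtype).codRestrict L (fun x => by
    have : σ x ∈ D.map σ := ⟨x, x.2, rfl⟩
    rw [hDmap] at this
    exact this)
  have hτ : ∀ x, ((τ x : L) : G) = σ x := fun _ => rfl
  have hτs : Function.Surjective τ := by
    rintro ⟨l, hl⟩
    rw [← hDmap] at hl
    obtain ⟨d, hd, rfl⟩ := hl
    exact ⟨⟨d, hd⟩, Subtype.ext rfl⟩
  have hstem : IsStemExtension τ := by
    refine ⟨hτs, ?_, ?_⟩
    · intro x hx
      have h1 : σ (x : Γ) = 1 := congrArg Subtype.val (MonoidHom.mem_ker.mp hx)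
      have h2 := Subgroup.mem_center_iff.mp (hc (MonoidHom.mem_ker.mpr h1))
      rw [Subgroup.mem_center_iff]
      intro y
      apply Subtype.ext
      exact h2 y
    · have h1 : commutator D = ⊤ := by
        apply Subgroup.map_injective D.subtype_injective
        rw [Subgroup.map_subtype_commutator]
        ext x
        simp only [Subgroup.mem_map, Subgroup.mem_top, true_and, Subgroup.subtype_apply]
        constructor
        · intro hx
          exact ⟨⟨x, comm_le_self D hx⟩, rfl⟩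
        · rintro ⟨y, rfl⟩
          exact hDD y.2
      rw [h1]
      exact le_top
  have hcop : Nat.Coprime (Nat.card τ.ker) q := by
    let f : τ.ker →* σ.ker :=
      { toFun := fun x => ⟨x.1.1, by
          have h1 : σ (x.1 : Γ) = 1 := congrArg Subtype.val (MonoidHom.mem_ker.mp x.2)
          exact MonoidHom.mem_ker.mpr h1⟩
        map_one' := rfl
        map_mul' := fun _ _ => rfl }
    have hinj : Function.Injective f := by
      intro a b hab
      have h : ((f a : σ.ker) : Γ) = ((f b : σ.ker) : Γ) := congrArg Subtype.val hab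
      exact Subtype.ext (Subtype.ext h)
    have hdvd : Nat.card τ.ker ∣ Nat.card σ.ker := Subgroup.card_dvd_of_injective f hinj
    exact Nat.Coprime.coprime_dvd_left hdvd hq
  have hinj := hT D τ hstem hcop
  let e : D ≃* L := MulEquiv.ofBijective τ ⟨hinj, hτs⟩
  refine ⟨D.subtype.comp e.symm.toMonoidHom, fun l => ?_⟩
  have : τ (e.symm l) = l := e.apply_symm_apply l
  have h2 := congrArg Subtype.val this
  exact h2

end Sec

section Nest

variable {X : Type} [Group X] [Finite X] {el : ℕ → X} {c : TC} {D : ℕ}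

/-- Sections over the subgroup of a table, for kernels prime to `q`. -/
def HasSecC (c : TC) (el : ℕ → X) (q : ℕ) : Prop :=
  ∀ (Γ : Type) [Group Γ] [Finite Γ] (σ : Γ →* X), IsStemExtension σ → Nat.Coprime (Nat.card σ.ker) q →
    ∃ s : subL c el →* Γ, ∀ l, σ (s l) = l

/-- Groups with the presentation of a table have trivial multiplier away from `q` and are perfect. -/
def PresTrivC (c : TC) (D q : ℕ) : Prop :=
  ∀ (X : Type) [Group X] [Finite X] (el : ℕ → X),
    (∀ k < c.nrel, wordEl (ltr el) (c.W.getD k []) = 1) →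
    (∀ x : X, x ∈ Subgroup.closure (el '' Set.Iio c.n)) → Nat.card X = D →
    TrivMultC X q ∧ commutator X = ⊤

/-- Sections over a nested presentation with trivial multiplier away from `q`. -/
theorem hasSecC_of_nest {c' : TC} {mp : ℕ → ℕ} {q : ℕ} (hf : TC.Sound.{0} c) (hSB : SubBound.{0} c D)
    (hT : PresTrivC c' D q) (hnest : nestB c c' mp = true)
    (hrel : ∀ k < c.nrel, wordEl (ltr el) (c.W.getD k []) = 1)
    (hgen : ∀ x : X, x ∈ Subgroup.closure (el '' Set.Iio c.n)) (hcard : Nat.card X = c.N * D) :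
    HasSecC c el q := by
  classical
  simp only [nestB, Bool.and_eq_true, beq_iff_eq, allB_iff, decide_eq_true_eq] at hnest
  obtain ⟨h1, h2⟩ := hnest
  set sub := c.W.drop c.nrel with hsub
  have hget : ∀ j, sub.getD j [] = c.W.getD (c.nrel + j) [] := by
    intro j
    rw [hsub]
    simp only [List.getD_eq_getElem?_getD, List.getElem?_drop]
  have hmem : ∀ j, subV el sub j ∈ subL c el := by
    intro j
    unfold subV
    rw [hget]
    exact subL_mem (by omega)
  let el' : ℕ → subL c el := fun j => ⟨subV el sub j, hmem j⟩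
  have hcoe : ∀ w : List ℕ, ((wordEl (ltr el') w : subL c el) : X) = wordEl (ltr (subV el sub)) w := by
    intro w
    exact map_wordEl_ltr (subL c el).subtype el' w
  have hrel' : ∀ k < c'.nrel, wordEl (ltr el') (c'.W.getD k []) = 1 := by
    intro k hk
    apply Subtype.ext
    rw [hcoe, ← wordEl_substW, ← (h2 k hk).2]
    exact hrel _ (h2 k hk).1
  have hclo : subL c el = Subgroup.closure (subV el sub '' Set.Iio c'.n) := by
    apply le_antisymm
    · rw [subL, Subgroup.closure_le]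
      rintro _ ⟨k, hk, rfl⟩
      rcases Nat.lt_or_ge (k - c.nrel) c'.n with hk2 | hk2
      · have : c.W.getD k [] = sub.getD (k - c.nrel) [] := by
          rw [hget]
          congr 1
          omega
        rw [this]
        exact Subgroup.subset_closure ⟨_, hk2, rfl⟩
      · have h3 : c.W.getD k [] = [] := by
          have : sub.getD (k - c.nrel) [] = [] := List.getD_eq_default _ _ (by omega)
          rw [hget] at this
          have h4 : c.nrel + (k - c.nrel) = k := by omega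
          rwa [h4] at this
        rw [h3]
        exact one_mem _
    · rw [Subgroup.closure_le]
      rintro _ ⟨j, _, rfl⟩
      exact hmem j
  have hgen' : ∀ q : subL c el, q ∈ Subgroup.closure (el' '' Set.Iio c'.n) := by
    intro q
    have h3 : (Subgroup.closure (el' '' Set.Iio c'.n)).map (subL c el).subtype = subL c el := by
      rw [MonoidHom.map_closure, ← Set.image_comp]
      exact hclo.symm
    have h4 : (q : X) ∈ (Subgroup.closure (el' '' Set.Iio c'.n)).map (subL c el).subtype := by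
      rw [h3]
      exact q.2
    obtain ⟨y, hy, hyq⟩ := h4
    have : y = q := Subtype.ext hyq
    rwa [this] at hy
  obtain ⟨hTM, hP⟩ := hT (subL c el) el' hrel' hgen' (subL_card_eq hf hSB hrel hgen hcard)
  intro Γ _ _ σ hstem hq
  exact exists_section_of_perfectC σ hstem.1 hstem.2.1 _ hP hTM hq

/-- A table with labels giving kernels of order dividing `q`: trivial multiplier away from `q`. -/
theorem presTrivC_of_table {q : ℕ} (hq0 : 0 < q) {c : TC} {D : ℕ} (hf : TC.Sound.{0} c) (hSB : SubBound.{0} c D)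
    (hnn : c.n ≤ c.nrel) (hnormc : normB c.n c.W = true)
    (hsec : ∀ (X : Type) [Group X] [Finite X] (el : ℕ → X),
      (∀ k < c.nrel, wordEl (ltr el) (c.W.getD k []) = 1) →
      (∀ x : X, x ∈ Subgroup.closure (el '' Set.Iio c.n)) → Nat.card X = c.N * D → HasSec c el)
    (u : UP) (hn : u.n = c.n) (hN : u.N = c.N) (ht : u.t = c.t) (hpar : u.par = c.par) (hlt : u.lt = c.lt)
    {m : ℕ} (hWu : u.W = c.W.take m) (hm : m ≤ c.nrel)
    (hnorm : normB u.n u.W = true)
    (he : u.e = u.n) (hM : u.M = c.N)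
    (hu : u.check = true) (d : UP.Tail) (hords : d.ords = [q]) (hd : UP.tailCheck u d = true) :
    PresTrivC c (c.N * D) q := by
  intro X _ _ el hrel hgen hcard
  have hperf := perfect_of_norm hnormc hf.hW hrel hnn hgen
  refine ⟨?_, hperf⟩
  intro Γ _ _ σ hstem hcop
  have hrelU : ∀ k < u.W.length, wordEl (ltr el) (u.W.getD k []) = 1 := by
    intro k hk
    rw [hWu] at hk ⊢
    have hk1 : k < m := by
      rw [List.length_take] at hk
      omega
    have : (c.W.take m).getD k [] = c.W.getD k [] := by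
      simp only [List.getD_eq_getElem?_getD, List.getElem?_take, if_pos hk1]
    rw [this]
    exact hrel k (lt_of_lt_of_le hk1 hm)
  have h1 := gen_of_table hf hSB hrel hgen hcard (hsec X el hrel hgen hcard) u hn hN ht hpar hlt hrelU hnorm he hM hu d hd
    hstem
  rw [hords] at h1
  let _ : CommGroup σ.ker := kerComm hstem.2.1
  obtain ⟨π, hπ⟩ := UP.Gen.hom1 h1
  rw [injective_iff_map_eq_one]
  intro a ha
  -- every element of the kernel has order dividing `q`
  have hexp : ∀ y : σ.ker, y ^ q = 1 := by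
    intro y
    obtain ⟨b, rfl⟩ := hπ y
    rw [← map_pow]
    have : b ^ q = 1 := by
      apply Multiplicative.toAdd.injective
      rw [toAdd_pow, toAdd_one]
      simp
    rw [this, map_one]
  have hord := orderOf_dvd_of_pow_eq_one (hexp ⟨a, ha⟩)
  have hdvd : orderOf (⟨a, ha⟩ : σ.ker) ∣ Nat.card σ.ker := orderOf_dvd_natCard _
  have hone : orderOf (⟨a, ha⟩ : σ.ker) = 1 := by
    have h2 := Nat.Coprime.coprime_dvd_left hdvd hcop
    have h3 := Nat.Coprime.coprime_dvd_right hord h2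
    exact Nat.coprime_self _ |>.mp h3
  have h4 := orderOf_eq_one_iff.mp hone
  exact congrArg Subtype.val h4

end Nest

/-! ### Parts of the multiplier -/

/-- A part of the multiplier: a stem extension with kernel `Z_m`, and kernels prime to `q` are images of `Z_m`. -/
structure PartMult (G : Type) [Group G] (q m : ℕ) : Prop where
  low : ∃ (Γ : Type) (_ : Group Γ) (_ : Finite Γ) (σ : Γ →* G), IsStemExtension σ ∧
    Nonempty (σ.ker ≃* Multiplicative (ZMod m))
  up : ∀ (Γ : Type) [Group Γ] [Finite Γ] (σ : Γ →* G), IsStemExtension σ → Nat.Coprime (Nat.card σ.ker) q →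
    ∃ π : Multiplicative (ZMod m) →* σ.ker, Function.Surjective π

theorem ker_comp_equiv {Γ G G' : Type} [Group Γ] [Group G] [Group G'] (f : G ≃* G') (σ : Γ →* G) :
    (f.toMonoidHom.comp σ).ker = σ.ker := by
  ext x
  simp [MonoidHom.mem_ker]

theorem stem_comp_equiv {Γ G G' : Type} [Group Γ] [Group G] [Group G'] (f : G ≃* G') {σ : Γ →* G}
    (h : IsStemExtension σ) : IsStemExtension (f.toMonoidHom.comp σ) := by
  rw [IsStemExtension, ker_comp_equiv]
  exact ⟨f.surjective.comp h.1, h.2⟩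

/-- The parts along isomorphisms. -/
theorem PartMult.of_equiv {G G' : Type} [Group G] [Group G'] {q m : ℕ} (f : G ≃* G') (h : PartMult G q m) :
    PartMult G' q m := by
  refine ⟨?_, ?_⟩
  · obtain ⟨Γ, i1, i2, σ, hσ, ⟨k⟩⟩ := h.low
    exact ⟨Γ, i1, i2, f.toMonoidHom.comp σ, stem_comp_equiv f hσ,
      ⟨(MulEquiv.subgroupCongr (ker_comp_equiv f σ)).trans k⟩⟩
  · intro Γ _ _ σ hσ hq
    have hk : (f.symm.toMonoidHom.comp σ).ker = σ.ker := ker_comp_equiv f.symm σ
    have h1 : Nat.Coprime (Nat.card (f.symm.toMonoidHom.comp σ).ker) q := by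
      rw [hk]
      exact hq
    obtain ⟨π, hπ⟩ := h.up Γ _ (stem_comp_equiv f.symm hσ) h1
    refine ⟨(MulEquiv.subgroupCongr hk).toMonoidHom.comp π, ?_⟩
    exact (MulEquiv.subgroupCongr hk).surjective.comp hπ

/-- **The part of the multiplier from a table.** -/
theorem partMult_main {G : Type} [Group G] [Finite G] {g : ℕ → G} {c : TC} {D q m : ℕ} [NeZero m]
    (hf : TC.Sound.{0} c) (hSB : SubBound.{0} c D)
    (hg1 : ∀ j, c.n ≤ j → g j = 1)
    (hrel : ∀ k < c.nrel, wordEl (ltr g) (c.W.getD k []) = 1)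
    (hgen : ∀ x : G, x ∈ Subgroup.closure (g '' Set.Iio c.n)) (hcard : Nat.card G = c.N * D)
    (hnn : c.n ≤ c.nrel) (hnormc : normB c.n c.W = true)
    (hsec : HasSecC c g q)
    (u : UP) (hn : u.n = c.n) (hN : u.N = c.N) (ht : u.t = c.t) (hpar : u.par = c.par) (hlt : u.lt = c.lt)
    {k₀ : ℕ} (hWu : u.W = c.W.take k₀) (hm : k₀ ≤ c.nrel)
    (hnorm : normB u.n u.W = true)
    (he : u.e = u.n) (hM : u.M = c.N)
    (hu : u.check = true) (d : UP.Tail) (hords : d.ords = [m]) (hd : UP.tailCheck u d = true)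
    (l : LC) (hln : l.n = c.n) (hlN : l.N = c.N) (hlt' : l.t = c.t) (hlW : l.W = c.W) (hlr : l.nrel = c.nrel)
    (hlc : l.check = true)
    (ha : ∀ j < l.r, a1 m j ^ l.m j = 1) (hlr1 : l.r = 1) :
    PartMult G q m := by
  refine ⟨?_, ?_⟩
  · exact lower_of_labels c hf l hln hlN hlt' hlW hlr hlc ha
      (fun S hS => a1_gen S (fun j hj => hS j (by rw [hlr1]; exact hj))) hg1 hrel hgen hcard hSB hnormc hnn
  · intro Γ _ _ σ hstem hcop
    have hrelU : ∀ k < u.W.length, wordEl (ltr g) (u.W.getD k []) = 1 := by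
      intro k hk
      rw [hWu] at hk ⊢
      have hk1 : k < k₀ := by
        rw [List.length_take] at hk
        omega
      have : (c.W.take k₀).getD k [] = c.W.getD k [] := by
        simp only [List.getD_eq_getElem?_getD, List.getElem?_take, if_pos hk1]
      rw [this]
      exact hrel k (lt_of_lt_of_le hk1 hm)
    obtain ⟨s, hs⟩ := hsec Γ σ hstem hcop
    have h1 := upper_main c hf hrel (fun _ hk => subL_mem hk) hgen hcard (subL_card_le hSB hrel) u hn hN ht hpar hlt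
      hrelU hnorm he hM hu d hd hstem s hs
    rw [hords] at h1
    let _ : CommGroup σ.ker := kerComm hstem.2.1
    exact UP.Gen.hom1 h1

/-! ### Quotients of stem extensions -/

section Quot

variable {Γ G : Type} [Group Γ] [Group G]

/-- The elements of the kernel of orders powers of `q`. -/
def torsK (σ : Γ →* G) (hc : σ.ker ≤ Subgroup.center Γ) (q : ℕ) : Subgroup Γ where
  carrier := {x | x ∈ σ.ker ∧ ∃ k, x ^ (q ^ k) = 1}
  mul_mem' := by
    rintro a b ⟨ha, i, hi⟩ ⟨hb, j, hj⟩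
    refine ⟨mul_mem ha hb, i + j, ?_⟩
    have hcomm : Commute a b := Subgroup.mem_center_iff.mp (hc ha) b |>.symm
    rw [hcomm.mul_pow, pow_add, pow_mul, hi, one_pow, one_mul, mul_comm (q ^ i), pow_mul, hj, one_pow]
  one_mem' := ⟨one_mem _, 0, by simp⟩
  inv_mem' := by
    rintro a ⟨ha, i, hi⟩
    exact ⟨inv_mem ha, i, by rw [inv_pow, hi, inv_one]⟩

theorem torsK_le (σ : Γ →* G) (hc : σ.ker ≤ Subgroup.center Γ) (q : ℕ) : torsK σ hc q ≤ σ.ker := fun _ h => h.1

instance torsK_normal (σ : Γ →* G) (hc : σ.ker ≤ Subgroup.center Γ) (q : ℕ) : (torsK σ hc q).Normal where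
  conj_mem := by
    intro a ha g
    have h1 : Commute g a := Subgroup.mem_center_iff.mp (hc ha.1) g
    rw [h1.eq, mul_inv_cancel_right]
    exact ha

/-- The map on the quotient. -/
def quotK (σ : Γ →* G) (hc : σ.ker ≤ Subgroup.center Γ) (q : ℕ) : Γ ⧸ torsK σ hc q →* G :=
  QuotientGroup.lift _ σ (fun x hx => hx.1)

theorem quotK_mk (σ : Γ →* G) (hc : σ.ker ≤ Subgroup.center Γ) (q : ℕ) (x : Γ) :
    quotK σ hc q (x : Γ ⧸ torsK σ hc q) = σ x := rfl

theorem map_commutator_le {A B : Type} [Group A] [Group B] (f : A →* B) : (commutator A).map f ≤ commutator B := by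
  rw [commutator_def, Subgroup.map_commutator, commutator_def]
  exact Subgroup.commutator_mono le_top le_top

theorem quotK_stem {σ : Γ →* G} (hstem : IsStemExtension σ) (q : ℕ) :
    IsStemExtension (quotK σ hstem.2.1 q) := by
  refine ⟨?_, ?_, ?_⟩
  · intro y
    obtain ⟨x, rfl⟩ := hstem.1 y
    exact ⟨x, rfl⟩
  · intro y hy
    obtain ⟨x, rfl⟩ := QuotientGroup.mk_surjective y
    have h1 : σ x = 1 := hy
    have h2 := Subgroup.mem_center_iff.mp (hstem.2.1 (MonoidHom.mem_ker.mpr h1))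
    rw [Subgroup.mem_center_iff]
    intro z
    obtain ⟨w, rfl⟩ := QuotientGroup.mk_surjective z
    rw [← QuotientGroup.mk_mul, ← QuotientGroup.mk_mul, h2 w]
  · intro y hy
    obtain ⟨x, rfl⟩ := QuotientGroup.mk_surjective y
    have h1 : σ x = 1 := hy
    have h2 := hstem.2.2 (MonoidHom.mem_ker.mpr h1)
    exact map_commutator_le (QuotientGroup.mk' (torsK σ hstem.2.1 q)) ⟨x, h2, rfl⟩

theorem quotK_coprime [Finite Γ] {σ : Γ →* G} (hstem : IsStemExtension σ) {q : ℕ} (hq : q.Prime) :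
    Nat.Coprime (Nat.card (quotK σ hstem.2.1 q).ker) q := by
  haveI : Fact q.Prime := ⟨hq⟩
  apply Nat.Coprime.symm
  rw [Nat.Prime.coprime_iff_not_dvd hq]
  intro hdvd
  obtain ⟨y, hy⟩ := exists_prime_orderOf_dvd_card' (G := (quotK σ hstem.2.1 q).ker) q hdvd
  obtain ⟨x, hx⟩ := QuotientGroup.mk_surjective (y : Γ ⧸ torsK σ hstem.2.1 q)
  have h1 : σ x = 1 := by
    have : quotK σ hstem.2.1 q (x : Γ ⧸ torsK σ hstem.2.1 q) = 1 := by
      rw [hx]
      exact y.2
    exact this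
  have h2 : (y : Γ ⧸ torsK σ hstem.2.1 q) ^ q = 1 := by
    have := pow_orderOf_eq_one y
    rw [hy] at this
    exact congrArg Subtype.val this
  rw [← hx, ← QuotientGroup.mk_pow, QuotientGroup.eq_one_iff] at h2
  obtain ⟨h3, k, hk⟩ := h2
  have h4 : x ∈ torsK σ hstem.2.1 q := by
    refine ⟨MonoidHom.mem_ker.mpr h1, k + 1, ?_⟩
    rw [pow_succ', pow_mul]
    exact hk
  have h5 : y = 1 := by
    apply Subtype.ext
    rw [← hx]
    exact (QuotientGroup.eq_one_iff _).2 h4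
  rw [h5, orderOf_one] at hy
  exact hq.one_lt.ne hy

end Quot

/-! ### Two primes -/

/-- The abelian part of the upper bound. -/
theorem six_abelian {A : Type} [CommGroup A] (T2 T3 : Subgroup A)
    (h1 : ∀ x : A, x ^ 2 ∈ T3) (h2 : ∀ x : A, x ^ 3 ∈ T2) (h23 : ∀ x : A, x ∈ T2 → x ∈ T3 → x = 1)
    (h6 : ∀ x : A, x ^ 6 = 1) (c d : A)
    (hc : ∀ x : A, ∃ k : ℕ, x * (c ^ k)⁻¹ ∈ T3) (hd : ∀ x : A, ∃ k : ℕ, x * (d ^ k)⁻¹ ∈ T2) :
    ∃ π : Multiplicative (ZMod 6) →* A, Function.Surjective π := by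
  have hG : UP.Gen [6] A := by
    refine ⟨[c ^ 3 * d ^ 4], ?_, ?_⟩
    · simp [h6]
    · intro S hS
      have hy : c ^ 3 * d ^ 4 ∈ S := hS _ (by simp)
      rw [eq_top_iff]
      intro x _
      obtain ⟨k, hk⟩ := hc x
      obtain ⟨l, hl⟩ := hd x
      have hK : x * ((c ^ 3 * d ^ 4) ^ (3 * k + 4 * l))⁻¹ = 1 := by
        apply h23
        · have e1 : c ^ 3 = c ^ 3 := rfl
          have e : x * ((c ^ 3 * d ^ 4) ^ (3 * k + 4 * l))⁻¹ =
              (x * (d ^ l)⁻¹) * (((d ^ (4 * k + 5 * l)) ^ 3)⁻¹ * ((c ^ (3 * k + 4 * l)) ^ 3)⁻¹) := by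
            rw [mul_pow, ← pow_mul, ← pow_mul, ← pow_mul, ← pow_mul]
            have e2 : 4 * (3 * k + 4 * l) = l + (4 * k + 5 * l) * 3 := by ring
            have e3 : 3 * (3 * k + 4 * l) = (3 * k + 4 * l) * 3 := by ring
            rw [e2, e3, pow_add]
            simp only [mul_inv, mul_assoc, mul_left_comm, mul_comm]
          rw [e]
          exact mul_mem hl (mul_mem (inv_mem (h2 _)) (inv_mem (h2 _)))
        · have e : x * ((c ^ 3 * d ^ 4) ^ (3 * k + 4 * l))⁻¹ =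
              (x * (c ^ k)⁻¹) * (((c ^ (4 * k + 6 * l)) ^ 2)⁻¹ * ((d ^ (2 * (3 * k + 4 * l))) ^ 2)⁻¹) := by
            rw [mul_pow, ← pow_mul, ← pow_mul, ← pow_mul, ← pow_mul]
            have e2 : 3 * (3 * k + 4 * l) = k + (4 * k + 6 * l) * 2 := by ring
            have e3 : 4 * (3 * k + 4 * l) = 2 * (3 * k + 4 * l) * 2 := by ring
            rw [e2, e3, pow_add]
            simp only [mul_inv, mul_assoc, mul_left_comm, mul_comm]
          rw [e]
          exact mul_mem hk (mul_mem (inv_mem (h1 _)) (inv_mem (h1 _)))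
      have : x = (c ^ 3 * d ^ 4) ^ (3 * k + 4 * l) := by
        rw [mul_inv_eq_one] at hK
        exact hK
      rw [this]
      exact S.pow_mem hy _
  exact UP.Gen.hom1 hG

section Six

variable {Γ G : Type} [Group Γ] [Group G]

/-- The data of a quotient: the generator. -/
theorem part_data [Finite Γ] {σ : Γ →* G} (hstem : IsStemExtension σ) {q m : ℕ} [NeZero m] (hq : q.Prime)
    (h : PartMult G q m) :
    ∃ c : Γ, c ∈ σ.ker ∧ (∀ x ∈ σ.ker, x ^ m ∈ torsK σ hstem.2.1 q) ∧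
      ∀ x ∈ σ.ker, ∃ k : ℕ, x * (c ^ k)⁻¹ ∈ torsK σ hstem.2.1 q := by
  obtain ⟨π, hπ⟩ := h.up (Γ ⧸ torsK σ hstem.2.1 q) (quotK σ hstem.2.1 q) (quotK_stem hstem q) (quotK_coprime hstem hq)
  set g0 : Multiplicative (ZMod m) := Multiplicative.ofAdd 1 with hg0
  obtain ⟨c, hc⟩ := QuotientGroup.mk_surjective ((π g0 : (quotK σ hstem.2.1 q).ker) : Γ ⧸ torsK σ hstem.2.1 q)
  have hck : c ∈ σ.ker := by
    have h1 : quotK σ hstem.2.1 q (c : Γ ⧸ torsK σ hstem.2.1 q) = 1 := by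
      rw [hc]
      exact (π g0).2
    exact MonoidHom.mem_ker.mpr h1
  have hmemq : ∀ x ∈ σ.ker, ((x : Γ ⧸ torsK σ hstem.2.1 q)) ∈ (quotK σ hstem.2.1 q).ker := by
    intro x hx
    exact hx
  refine ⟨c, hck, ?_, ?_⟩
  · intro x hx
    obtain ⟨b, hb⟩ := hπ ⟨_, hmemq x hx⟩
    have h1 : (π b) ^ m = 1 := by
      rw [← map_pow]
      have : b ^ m = 1 := by
        apply Multiplicative.toAdd.injective
        rw [toAdd_pow, toAdd_one]
        simp
      rw [this, map_one]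
    rw [hb] at h1
    have h2 := congrArg Subtype.val h1
    have h3 : ((x ^ m : Γ) : Γ ⧸ torsK σ hstem.2.1 q) = 1 := by
      rw [QuotientGroup.mk_pow]
      exact h2
    exact (QuotientGroup.eq_one_iff _).1 h3
  · intro x hx
    obtain ⟨b, hb⟩ := hπ ⟨_, hmemq x hx⟩
    set n : ℕ := (Multiplicative.toAdd b).val with hn
    refine ⟨n, ?_⟩
    have h1 : b = g0 ^ n := by
      apply Multiplicative.toAdd.injective
      rw [toAdd_pow, hg0, toAdd_ofAdd, hn]
      simp
    rw [h1, map_pow] at hb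
    have h2 := congrArg Subtype.val hb
    have h3 : ((x * (c ^ n)⁻¹ : Γ) : Γ ⧸ torsK σ hstem.2.1 q) = 1 := by
      rw [QuotientGroup.mk_mul, QuotientGroup.mk_inv, QuotientGroup.mk_pow, hc]
      have h2' : ((π g0 : (quotK σ hstem.2.1 q).ker) : Γ ⧸ torsK σ hstem.2.1 q) ^ n = (x : Γ ⧸ torsK σ hstem.2.1 q) := h2
      rw [h2', mul_inv_cancel]
    exact (QuotientGroup.eq_one_iff _).1 h3

theorem ker_pow_six {σ : Γ →* G} (hstem : IsStemExtension σ) {x : Γ} (h2 : x ^ 2 ∈ torsK σ hstem.2.1 3)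
    (h3 : x ^ 3 ∈ torsK σ hstem.2.1 2) : x ^ 6 = 1 := by
  obtain ⟨-, a, ha⟩ := h2
  obtain ⟨-, b, hb⟩ := h3
  have h4 : (x ^ 6) ^ (3 ^ a) = 1 := by
    have e : 6 * 3 ^ a = 2 * 3 ^ a * 3 := by ring
    rw [← pow_mul, e, pow_mul, pow_mul, ha, one_pow]
  have h5 : (x ^ 6) ^ (2 ^ b) = 1 := by
    have e : 6 * 2 ^ b = 3 * 2 ^ b * 2 := by ring
    rw [← pow_mul, e, pow_mul, pow_mul, hb, one_pow]
  have h6 := orderOf_dvd_of_pow_eq_one h4
  have h7 := orderOf_dvd_of_pow_eq_one h5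
  have h8 : Nat.Coprime (3 ^ a) (2 ^ b) := Nat.Coprime.pow _ _ (by norm_num)
  have h9 : orderOf (x ^ 6) = 1 := Nat.eq_one_of_dvd_coprimes h8 h6 h7
  exact orderOf_eq_one_iff.mp h9

/-- **The upper bound, from the two parts.** -/
theorem six_upper [Finite Γ] {σ : Γ →* G} (hstem : IsStemExtension σ) (h2 : PartMult G 3 2) (h3 : PartMult G 2 3) :
    ∃ π : Multiplicative (ZMod 6) →* σ.ker, Function.Surjective π := by
  obtain ⟨c, hc, hc1, hc2⟩ := part_data hstem (q := 3) (m := 2) (by norm_num) h2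
  obtain ⟨d, hd, hd1, hd2⟩ := part_data hstem (q := 2) (m := 3) (by norm_num) h3
  let _ : CommGroup σ.ker := kerComm hstem.2.1
  have hT : ∀ q : ℕ, (torsK σ hstem.2.1 q).subgroupOf σ.ker = (torsK σ hstem.2.1 q).subgroupOf σ.ker := fun _ => rfl
  refine six_abelian ((torsK σ hstem.2.1 2).subgroupOf σ.ker) ((torsK σ hstem.2.1 3).subgroupOf σ.ker)
    (fun x => ?_) (fun x => ?_) (fun x h4 h5 => ?_) (fun x => ?_) ⟨c, hc⟩ ⟨d, hd⟩ (fun x => ?_) (fun x => ?_)
  · rw [Subgroup.mem_subgroupOf]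
    exact hc1 x x.2
  · rw [Subgroup.mem_subgroupOf]
    exact hd1 x x.2
  · rw [Subgroup.mem_subgroupOf] at h4 h5
    obtain ⟨-, a, ha⟩ := h4
    obtain ⟨-, b, hb⟩ := h5
    have h6 := orderOf_dvd_of_pow_eq_one ha
    have h7 := orderOf_dvd_of_pow_eq_one hb
    have h8 : Nat.Coprime (2 ^ a) (3 ^ b) := Nat.Coprime.pow _ _ (by norm_num)
    have h9 := Nat.eq_one_of_dvd_coprimes h8 h6 h7
    apply Subtype.ext
    exact orderOf_eq_one_iff.mp h9
  · apply Subtype.ext
    exact ker_pow_six hstem (hc1 x x.2) (hd1 x x.2)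
  · obtain ⟨k, hk⟩ := hc2 x x.2
    refine ⟨k, ?_⟩
    rw [Subgroup.mem_subgroupOf]
    exact hk
  · obtain ⟨k, hk⟩ := hd2 x x.2
    refine ⟨k, ?_⟩
    rw [Subgroup.mem_subgroupOf]
    exact hk

end Six

/-! ### The fibre product -/

section Fibre

variable {Γ₁ Γ₂ G : Type} [Group Γ₁] [Group Γ₂] [Group G]

/-- The fibre product. -/
def fibreP (σ₁ : Γ₁ →* G) (σ₂ : Γ₂ →* G) : Subgroup (Γ₁ × Γ₂) :=
  MonoidHom.eqLocus (σ₁.comp (MonoidHom.fst Γ₁ Γ₂)) (σ₂.comp (MonoidHom.snd Γ₁ Γ₂))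

theorem mem_fibreP {σ₁ : Γ₁ →* G} {σ₂ : Γ₂ →* G} {x : Γ₁ × Γ₂} : x ∈ fibreP σ₁ σ₂ ↔ σ₁ x.1 = σ₂ x.2 := Iff.rfl

/-- The map of the fibre product. -/
def fibreM (σ₁ : Γ₁ →* G) (σ₂ : Γ₂ →* G) : fibreP σ₁ σ₂ →* G :=
  (σ₁.comp (MonoidHom.fst Γ₁ Γ₂)).comp (fibreP σ₁ σ₂).subtype

theorem mem_ker_fibreM {σ₁ : Γ₁ →* G} {σ₂ : Γ₂ →* G} {x : fibreP σ₁ σ₂} :
    x ∈ (fibreM σ₁ σ₂).ker ↔ (x : Γ₁ × Γ₂).1 ∈ σ₁.ker ∧ (x : Γ₁ × Γ₂).2 ∈ σ₂.ker := by
  rw [MonoidHom.mem_ker, MonoidHom.mem_ker, MonoidHom.mem_ker]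
  have h : σ₁ (x : Γ₁ × Γ₂).1 = σ₂ (x : Γ₁ × Γ₂).2 := x.2
  show σ₁ (x : Γ₁ × Γ₂).1 = 1 ↔ _
  rw [← h]
  simp

/-- The kernel of the fibre product. -/
noncomputable def kerFibre (σ₁ : Γ₁ →* G) (σ₂ : Γ₂ →* G) : (fibreM σ₁ σ₂).ker ≃* σ₁.ker × σ₂.ker where
  toFun x := (⟨(x.1 : Γ₁ × Γ₂).1, (mem_ker_fibreM.1 x.2).1⟩, ⟨(x.1 : Γ₁ × Γ₂).2, (mem_ker_fibreM.1 x.2).2⟩)
  invFun y := ⟨⟨((y.1 : Γ₁), (y.2 : Γ₂)), by
      rw [mem_fibreP]
      show σ₁ y.1 = σ₂ y.2
      rw [MonoidHom.mem_ker.mp y.1.2, MonoidHom.mem_ker.mp y.2.2]⟩,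
    mem_ker_fibreM.2 ⟨y.1.2, y.2.2⟩⟩
  left_inv x := by
    apply Subtype.ext
    apply Subtype.ext
    rfl
  right_inv y := by
    apply Prod.ext
    · apply Subtype.ext
      rfl
    · apply Subtype.ext
      rfl
  map_mul' x y := rfl

theorem surj_fst_fibre {σ₁ : Γ₁ →* G} {σ₂ : Γ₂ →* G} (h₂ : Function.Surjective σ₂) (a : Γ₁) :
    ∃ x : fibreP σ₁ σ₂, (x : Γ₁ × Γ₂).1 = a := by
  obtain ⟨b, hb⟩ := h₂ (σ₁ a)
  exact ⟨⟨(a, b), hb.symm⟩, rfl⟩

theorem surj_snd_fibre {σ₁ : Γ₁ →* G} {σ₂ : Γ₂ →* G} (h₁ : Function.Surjective σ₁) (b : Γ₂) :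
    ∃ x : fibreP σ₁ σ₂, (x : Γ₁ × Γ₂).2 = b := by
  obtain ⟨a, ha⟩ := h₁ (σ₂ b)
  exact ⟨⟨(a, b), ha⟩, rfl⟩

/-- The fibre product of stem extensions with kernels of coprime orders is a stem extension. -/
theorem fibre_stem [Finite Γ₁] [Finite Γ₂] {σ₁ : Γ₁ →* G} {σ₂ : Γ₂ →* G} (hG : commutator G = ⊤)
    (h₁ : IsStemExtension σ₁) (h₂ : IsStemExtension σ₂)
    (hcop : Nat.Coprime (Nat.card σ₁.ker) (Nat.card σ₂.ker)) : IsStemExtension (fibreM σ₁ σ₂) := by
  have hP₁ := stem_commutator h₁ hG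
  have hP₂ := stem_commutator h₂ hG
  set P := fibreP σ₁ σ₂ with hP
  -- the projections of the commutator subgroup are onto
  have hf₁ : ∀ a : Γ₁, ∃ x ∈ commutator P, (x : Γ₁ × Γ₂).1 = a := by
    intro a
    let f : P →* Γ₁ := (MonoidHom.fst Γ₁ Γ₂).comp P.subtype
    have hf : Function.Surjective f := fun a => by
      obtain ⟨x, hx⟩ := surj_fst_fibre (σ₁ := σ₁) h₂.1 a
      exact ⟨x, hx⟩
    have h1 : a ∈ (commutator P).map f := by
      rw [commutator_def, Subgroup.map_commutator, Subgroup.map_top_of_surjective f hf, ← commutator_def, hP₁]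
      trivial
    obtain ⟨x, hx, hxa⟩ := h1
    exact ⟨x, hx, hxa⟩
  have hf₂ : ∀ b : Γ₂, ∃ x ∈ commutator P, (x : Γ₁ × Γ₂).2 = b := by
    intro b
    let f : P →* Γ₂ := (MonoidHom.snd Γ₁ Γ₂).comp P.subtype
    have hf : Function.Surjective f := fun b => by
      obtain ⟨x, hx⟩ := surj_snd_fibre (σ₂ := σ₂) h₁.1 b
      exact ⟨x, hx⟩
    have h1 : b ∈ (commutator P).map f := by
      rw [commutator_def, Subgroup.map_commutator, Subgroup.map_top_of_surjective f hf, ← commutator_def, hP₂]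
      trivial
    obtain ⟨x, hx, hxb⟩ := h1
    exact ⟨x, hx, hxb⟩
  have key₁ : ∀ a ∈ σ₁.ker, ∃ y ∈ commutator P, (y : Γ₁ × Γ₂) = (a, 1) := by
    intro a ha
    obtain ⟨c, hc⟩ := (powCoprime (n := Nat.card σ₂.ker) hcop).surjective (⟨a, ha⟩ : σ₁.ker)
    obtain ⟨x, hx, hxc⟩ := hf₁ (c : Γ₁)
    refine ⟨x ^ Nat.card σ₂.ker, pow_mem hx _, ?_⟩
    have hb : (x : Γ₁ × Γ₂).2 ∈ σ₂.ker := by
      rw [MonoidHom.mem_ker]
      have h : σ₁ (x : Γ₁ × Γ₂).1 = σ₂ (x : Γ₁ × Γ₂).2 := x.2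
      rw [← h, hxc]
      exact c.2
    have h1 : (x : Γ₁ × Γ₂).2 ^ Nat.card σ₂.ker = 1 := by
      have h2 := pow_card_eq_one' (x := (⟨(x : Γ₁ × Γ₂).2, hb⟩ : σ₂.ker))
      exact congrArg Subtype.val h2
    have h3 : (c : Γ₁) ^ Nat.card σ₂.ker = a := by
      have := congrArg Subtype.val hc
      simpa [powCoprime_apply] using this
    apply Prod.ext
    · show (x : Γ₁ × Γ₂).1 ^ Nat.card σ₂.ker = a
      rw [hxc, h3]
    · exact h1
  have key₂ : ∀ b ∈ σ₂.ker, ∃ y ∈ commutator P, (y : Γ₁ × Γ₂) = (1, b) := by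
    intro b hb
    obtain ⟨c, hc⟩ := (powCoprime (n := Nat.card σ₁.ker) hcop.symm).surjective (⟨b, hb⟩ : σ₂.ker)
    obtain ⟨x, hx, hxc⟩ := hf₂ (c : Γ₂)
    refine ⟨x ^ Nat.card σ₁.ker, pow_mem hx _, ?_⟩
    have ha : (x : Γ₁ × Γ₂).1 ∈ σ₁.ker := by
      rw [MonoidHom.mem_ker]
      have h : σ₁ (x : Γ₁ × Γ₂).1 = σ₂ (x : Γ₁ × Γ₂).2 := x.2
      rw [h, hxc]
      exact c.2
    have h1 : (x : Γ₁ × Γ₂).1 ^ Nat.card σ₁.ker = 1 := by
      have h2 := pow_card_eq_one' (x := (⟨(x : Γ₁ × Γ₂).1, ha⟩ : σ₁.ker))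
      exact congrArg Subtype.val h2
    have h3 : (c : Γ₂) ^ Nat.card σ₁.ker = b := by
      have := congrArg Subtype.val hc
      simpa [powCoprime_apply] using this
    apply Prod.ext
    · exact h1
    · show (x : Γ₁ × Γ₂).2 ^ Nat.card σ₁.ker = b
      rw [hxc, h3]
  refine ⟨?_, ?_, ?_⟩
  · intro g
    obtain ⟨a, rfl⟩ := h₁.1 g
    obtain ⟨x, hx⟩ := surj_fst_fibre (σ₁ := σ₁) h₂.1 a
    exact ⟨x, by
      show σ₁ (x : Γ₁ × Γ₂).1 = σ₁ a
      rw [hx]⟩
  · intro x hx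
    obtain ⟨h3, h4⟩ := mem_ker_fibreM.1 hx
    rw [Subgroup.mem_center_iff]
    intro y
    apply Subtype.ext
    apply Prod.ext
    · exact Subgroup.mem_center_iff.mp (h₁.2.1 h3) _
    · exact Subgroup.mem_center_iff.mp (h₂.2.1 h4) _
  · intro x hx
    obtain ⟨h3, h4⟩ := mem_ker_fibreM.1 hx
    obtain ⟨y₁, hy₁, e₁⟩ := key₁ _ h3
    obtain ⟨y₂, hy₂, e₂⟩ := key₂ _ h4
    have : x = y₁ * y₂ := by
      apply Subtype.ext
      show (x : Γ₁ × Γ₂) = (y₁ : Γ₁ × Γ₂) * (y₂ : Γ₁ × Γ₂)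
      rw [e₁, e₂]
      simp
    rw [this]
    exact mul_mem hy₁ hy₂

end Fibre

/-- The multiplication of the kernels. -/
noncomputable def zmodSix : Multiplicative (ZMod 2) × Multiplicative (ZMod 3) ≃* Multiplicative (ZMod 6) :=
  (MulEquiv.prodMultiplicative (ZMod 2) (ZMod 3)).trans
    (AddEquiv.toMultiplicative (ZMod.chineseRemainder (m := 2) (n := 3) (by norm_num)).symm.toAddEquiv)

/-- **Parts of orders two and three: the multiplier `Z₆`.** -/
theorem hasSchur_six {G : Type} [Group G] (hG : commutator G = ⊤) (h2 : PartMult G 3 2) (h3 : PartMult G 2 3) :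
    HasSchurMultiplier G (Multiplicative (ZMod 6)) := by
  refine ⟨?_, ?_⟩
  · obtain ⟨Γ₁, i1, i2, σ₁, h₁, ⟨k₁⟩⟩ := h2.low
    obtain ⟨Γ₂, i3, i4, σ₂, h₂, ⟨k₂⟩⟩ := h3.low
    have hc : Nat.Coprime (Nat.card σ₁.ker) (Nat.card σ₂.ker) := by
      rw [Nat.card_congr k₁.toEquiv, Nat.card_congr k₂.toEquiv]
      simp only [Nat.card_eq_fintype_card, Fintype.card_multiplicative, ZMod.card]
      norm_num
    refine ⟨Γ₁ × Γ₂ |> fun _ => fibreP σ₁ σ₂, inferInstance, inferInstance, fibreM σ₁ σ₂, fibre_stem hG h₁ h₂ hc, ⟨?_⟩⟩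
    exact ((kerFibre σ₁ σ₂).trans (k₁.prodCongr k₂)).trans zmodSix
  · intro Γ _ _ σ hσ
    exact six_upper hσ h2 h3

end Cfsg.Agent.Lib.Compute.Schur2
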