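import Mathlib
import Cfsg.Agent.Lib.Compute.FMat
import Cfsg.Agent.Lib.Compute.Schur2.Parts
import Cfsg.Agent.Lib.Compute.O73.Main

/-!
# The group `Ω₇(3)` as a group generated by letters of matrices

The letters are lists of rows; words in the letters are evaluated on codes of vectors.  A group generated by four matrices,
with the order bounded by a table, containing the eight reflections of the presentation on eight generators, is
`PΩ₇(3)`.
-/

set_option autoImplicit false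
set_option maxRecDepth 1000000

namespace Cfsg.Agent.Lib.Compute.Schur2.O73M

open Cfsg Matrix
open Cfsg.Agent.Lib.Compute.SchurLin Cfsg.Agent.Lib.Compute.PermCert Cfsg.Agent.Lib.Compute.Schur2
open Cfsg.Agent.Lib.Compute.GFModel Cfsg.Agent.Lib.Compute.FMat
open Cfsg.Agent.Lib.Compute.ToddCoxeterCore (wordEl wordEl_nil wordEl_cons wordEl_append)
open Cfsg.Agent.Lib.Compute.O73 (I7 TM elU GLI GU GU_card pos)

/-- The general linear group. -/
abbrev GL7 : Type := GL (Fin 7) (ZMod 3)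

/-- The field. -/
abbrev z3 : FieldModel (ZMod 3) := zmodModel 3

theorem hz : z3.enc 0 = 0 := rfl

theorem hq : z3.q ≤ 16 := by decide

theorem hb : ∀ j : Fin 7, decV z3 0 7 (16 ^ j.val) = Pi.single j 1 := by decide +kernel

theorem hok : ∀ j : Fin 7, okN z3 7 (16 ^ j.val) := by
  unfold okN
  decide +kernel

/-- The rows of a letter. -/
def ltrL (mats : List (List (List ℕ))) (x : ℕ) : List (List ℕ) := mats.getD x []

/-- The matrix of a letter. -/
def Mm (mats : List (List (List ℕ))) (x : ℕ) : Matrix (Fin 7) (Fin 7) (ZMod 3) := decM z3 0 7 (ltrL mats x)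

/-- The rows of the eight reflections. -/
def elR : List (List (List ℕ)) :=
  [[[2,0,0,0,0,0,0],[0,1,2,0,2,2,0],[0,2,1,0,2,2,0],[0,0,0,2,0,0,0],[0,2,2,0,1,2,0],[0,2,2,0,2,1,0],[0,0,0,0,0,0,2]],
   [[2,0,0,0,0,0,0],[0,2,0,0,0,0,0],[0,0,2,0,0,0,0],[0,0,2,0,0,0,2],[0,0,0,0,2,0,0],[0,0,2,1,0,2,2],[0,0,1,2,0,0,0]],
   [[2,0,0,0,0,0,0],[0,2,0,0,0,0,0],[0,0,2,0,0,0,0],[0,0,0,0,0,0,2],[0,0,0,0,2,0,0],[0,0,0,0,0,2,0],[0,0,0,2,0,0,0]],
   [[2,0,0,0,0,0,0],[0,2,0,0,0,0,0],[0,0,0,1,0,2,0],[0,0,0,2,0,0,0],[0,0,0,0,2,0,0],[0,0,2,2,0,0,0],[0,0,2,2,0,1,2]],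
   [[0,2,1,2,0,0,2],[0,2,0,0,0,0,0],[0,0,2,0,0,0,0],[1,2,1,1,0,0,2],[1,2,1,2,2,0,2],[2,1,2,1,0,2,1],[1,2,1,2,0,0,1]],
   [[2,0,0,0,0,0,0],[0,0,0,0,2,0,0],[0,0,2,0,0,0,0],[0,0,0,2,0,0,0],[0,2,0,0,0,0,0],[0,0,0,0,0,2,0],[0,0,0,0,0,0,2]],
   [[2,0,0,0,0,0,0],[0,2,0,0,0,0,0],[0,0,0,0,0,2,2],[0,0,1,2,0,2,2],[0,0,0,0,2,0,0],[0,0,2,0,0,0,1],[0,0,0,0,0,0,2]],
   [[2,0,0,0,0,0,0],[0,1,2,2,2,0,2],[0,0,2,0,0,0,0],[0,2,2,1,2,0,2],[0,2,2,2,1,0,2],[0,2,2,2,2,2,2],[0,2,2,2,2,0,1]]]

/-- The coordinates. -/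
def posF (i : I7) : Fin 7 := ⟨pos i, by rcases i with _ | i | i <;> simp [pos] <;> omega⟩

theorem posF_bij : Function.Bijective posF := by decide

/-- The coordinates. -/
noncomputable def posE : I7 ≃ Fin 7 := Equiv.ofBijective posF posF_bij

/-- The general linear groups for the two sets of coordinates. -/
noncomputable def phi : GL7 ≃* GLI :=
  Units.mapEquiv (Matrix.reindexAlgEquiv (ZMod 3) (ZMod 3) posE.symm).toMulEquiv

theorem phi_val (g : GL7) (i j : I7) :
    ((phi g : GLI) : Matrix I7 I7 (ZMod 3)) i j = (g : Matrix (Fin 7) (Fin 7) (ZMod 3)) (posF i) (posF j) := rfl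

theorem elR_eqM : ∀ j : Fin 8, (decM z3 0 7 (elR.getD j [])).submatrix posF posF = TM j := by
  decide +kernel

theorem elR_eq : ∀ j : Fin 8, ∀ i k : I7, decM z3 0 7 (elR.getD j []) (posF i) (posF k) = TM j i k := by
  intro j i k
  exact congrFun (congrFun (elR_eqM j) i) k

section Letters

variable (mats : List (List (List ℕ)))
  (inv1 : ∀ j < 4, Mm mats (2 * j) * Mm mats (2 * j + 1) = 1)
  (inv2 : ∀ j < 4, Mm mats (2 * j + 1) * Mm mats (2 * j) = 1)

/-- The generators in the general linear group. -/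
noncomputable def gU (j : ℕ) : GL7 :=
  if h : j < 4 then ⟨Mm mats (2 * j), Mm mats (2 * j + 1), inv1 j h, inv2 j h⟩ else 1

/-- The group generated by the generators. -/
noncomputable abbrev K : Subgroup GL7 := Subgroup.closure (gU mats inv1 inv2 '' Set.Iio 4)

theorem gU_mem (j : ℕ) : gU mats inv1 inv2 j ∈ K mats inv1 inv2 := by
  by_cases h : j < 4
  · exact Subgroup.subset_closure ⟨j, h, rfl⟩
  · have : gU mats inv1 inv2 j = 1 := dif_neg h
    rw [this]
    exact one_mem _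

/-- The generators. -/
noncomputable def g (j : ℕ) : K mats inv1 inv2 := ⟨gU mats inv1 inv2 j, gU_mem mats inv1 inv2 j⟩

theorem g_ge {j : ℕ} (hj : 4 ≤ j) : g mats inv1 inv2 j = 1 := by
  apply Subtype.ext
  exact dif_neg (by omega)

theorem val_ltr (x : ℕ) (hx : x < 8) :
    (((ltr (g mats inv1 inv2) x : K mats inv1 inv2) : GL7) : Matrix (Fin 7) (Fin 7) (ZMod 3)) = Mm mats x := by
  have h3 : x / 2 < 4 := by omega
  unfold ltr
  split_ifs with h
  · have : gU mats inv1 inv2 (x / 2) = ⟨Mm mats (2 * (x / 2)), Mm mats (2 * (x / 2) + 1), inv1 _ h3, inv2 _ h3⟩ :=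
      dif_pos h3
    show ((gU mats inv1 inv2 (x / 2) : GL7) : Matrix (Fin 7) (Fin 7) (ZMod 3)) = Mm mats x
    rw [this]
    show Mm mats (2 * (x / 2)) = Mm mats x
    congr 1
    omega
  · have : gU mats inv1 inv2 (x / 2) = ⟨Mm mats (2 * (x / 2)), Mm mats (2 * (x / 2) + 1), inv1 _ h3, inv2 _ h3⟩ :=
      dif_pos h3
    show (((gU mats inv1 inv2 (x / 2))⁻¹ : GL7) : Matrix (Fin 7) (Fin 7) (ZMod 3)) = Mm mats x
    rw [this]
    show Mm mats (2 * (x / 2) + 1) = Mm mats x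
    congr 1
    omega

theorem val_word (w : List ℕ) (hw : ∀ x ∈ w, x < 8) :
    (((wordEl (ltr (g mats inv1 inv2)) w : K mats inv1 inv2) : GL7) : Matrix (Fin 7) (Fin 7) (ZMod 3)) =
      evM z3 0 7 (ltrL mats) w := by
  induction w with
  | nil => rfl
  | cons x u ih =>
    rw [wordEl_cons, Subgroup.coe_mul, Units.val_mul, val_ltr mats inv1 inv2 x (hw x (by simp)),
      ih (fun y hy => hw y (by simp [hy]))]
    rfl

/-- The check of a relator. -/
noncomputable def relB (w : List ℕ) : Bool :=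
  w.all (fun x => Nat.blt x 8) &&
    allB (fun j => Nat.beq (evC z3 0 7 (ltrL mats) w (16 ^ j)) (16 ^ j)) 7

theorem rel_of_relB (okL : ∀ x < 8, okA z3 7 (ltrL mats x) = true) {w : List ℕ} (h : relB mats w = true) :
    wordEl (ltr (g mats inv1 inv2)) w = 1 := by
  simp only [relB, Bool.and_eq_true, List.all_eq_true, Nat.blt_eq] at h
  obtain ⟨h2, h3⟩ := h
  have h4 := evM_eq_one hz hq okL hb hok _ h2 (fun j => by
    have := (allB_iff _ _).mp h3 j j.2
    exact Nat.eq_of_beq_eq_true this)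
  apply Subtype.ext
  apply Units.ext
  rw [val_word mats inv1 inv2 _ h2, h4]
  rfl

theorem hgen_K (x : K mats inv1 inv2) : x ∈ Subgroup.closure (g mats inv1 inv2 '' Set.Iio 4) := by
  have h3 : (Subgroup.closure (g mats inv1 inv2 '' Set.Iio 4)).map (K mats inv1 inv2).subtype = K mats inv1 inv2 := by
    rw [MonoidHom.map_closure, ← Set.image_comp]
    rfl
  have h4 : (x : GL7) ∈ (Subgroup.closure (g mats inv1 inv2 '' Set.Iio 4)).map (K mats inv1 inv2).subtype := by
    rw [h3]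
    exact x.2
  obtain ⟨y, hy, hyq⟩ := h4
  have : y = x := Subtype.ext hyq
  rwa [this] at hy

/-- The check of the words of the reflections. -/
noncomputable def wordsB (wsE : List (List ℕ)) : Bool :=
  allB (fun j => (wsE.getD j []).all (fun x => Nat.blt x 8) && okA z3 7 (elR.getD j []) &&
    allB (fun b => Nat.beq (evC z3 0 7 (ltrL mats) (wsE.getD j []) (16 ^ b)) (appC z3 0 7 (elR.getD j []) (16 ^ b))) 7) 8

theorem elU_mem_map (okL : ∀ x < 8, okA z3 7 (ltrL mats x) = true) {wsE : List (List ℕ)}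
    (h : wordsB mats wsE = true) (j : ℕ) : elU j ∈ (K mats inv1 inv2).map phi.toMonoidHom := by
  by_cases hj : j < 8
  · have h1 := (allB_iff _ _).mp h j hj
    simp only [Bool.and_eq_true, List.all_eq_true, Nat.blt_eq] at h1
    obtain ⟨⟨h2, h3⟩, h4⟩ := h1
    have h5 := evM_eq hz hq okL hb hok _ h2 h3 (fun b => by
      have := (allB_iff _ _).mp h4 b b.2
      exact Nat.eq_of_beq_eq_true this)
    refine ⟨(wordEl (ltr (g mats inv1 inv2)) (wsE.getD j []) : K mats inv1 inv2), Subtype.property _, ?_⟩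
    apply Units.ext
    ext a b
    show ((phi _ : GLI) : Matrix I7 I7 (ZMod 3)) a b = _
    rw [phi_val, val_word mats inv1 inv2 _ h2, h5]
    have h6 := elR_eq ⟨j, hj⟩ a b
    rw [show ((elU j : GLI) : Matrix I7 I7 (ZMod 3)) = TM j from Cfsg.Agent.Lib.Compute.O73.elU_val hj]
    exact h6
  · rw [Cfsg.Agent.Lib.Compute.O73.elU_ge hj]
    exact one_mem _

theorem GU_le (okL : ∀ x < 8, okA z3 7 (ltrL mats x) = true) {wsE : List (List ℕ)}
    (h : wordsB mats wsE = true) : GU ≤ (K mats inv1 inv2).map phi.toMonoidHom := by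
  rw [Subgroup.closure_le]
  rintro _ ⟨j, rfl⟩
  exact elU_mem_map mats inv1 inv2 okL h j

theorem card_map : Nat.card ((K mats inv1 inv2).map phi.toMonoidHom) = Nat.card (K mats inv1 inv2) :=
  Nat.card_congr (phi.subgroupMap (K mats inv1 inv2)).symm.toEquiv

theorem card_ge (okL : ∀ x < 8, okA z3 7 (ltrL mats x) = true) {wsE : List (List ℕ)}
    (h : wordsB mats wsE = true) : 4585351680 ≤ Nat.card (K mats inv1 inv2) := by
  rw [← card_map mats inv1 inv2]
  exact GU_card.trans (Subgroup.card_le_of_le (GU_le mats inv1 inv2 okL h))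

theorem map_eq (okL : ∀ x < 8, okA z3 7 (ltrL mats x) = true) {wsE : List (List ℕ)}
    (h : wordsB mats wsE = true) (hle : Nat.card (K mats inv1 inv2) ≤ 4585351680) :
    (K mats inv1 inv2).map phi.toMonoidHom = GU := by
  symm
  refine Subgroup.eq_of_le_of_card_ge (GU_le mats inv1 inv2 okL h) ?_
  rw [card_map]
  exact hle.trans GU_card

/-- The group of the letters is the group of the eight reflections. -/
theorem exists_iso (okL : ∀ x < 8, okA z3 7 (ltrL mats x) = true) {wsE : List (List ℕ)}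
    (h : wordsB mats wsE = true) (hle : Nat.card (K mats inv1 inv2) ≤ 4585351680) :
    Nonempty (K mats inv1 inv2 ≃* GU) :=
  ⟨(phi.subgroupMap (K mats inv1 inv2)).trans (MulEquiv.subgroupCongr (map_eq mats inv1 inv2 okL h hle))⟩

end Letters

end Cfsg.Agent.Lib.Compute.Schur2.O73M
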