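import Mathlib
import Cfsg.Agent.S0292
import Cfsg.Agent.Lib.Compute.O73.Main
import Cfsg.Agent.Lib.Classical.Orth.Center
import Cfsg.Agent.Lib.Classical.Orth.Models

/-!
# The eight reflections generate the commutator subgroup of the isometry group of `x₁² + …` on `𝔽₃⁷`

The argument of `S1686`, without the order bound of the presentation: the reflections lie in the commutator subgroup (one relator of
odd length), and the chain gives the order.
-/

set_option autoImplicit false
open Cfsg

namespace Cfsg.Agent.Lib.Compute.Schur2.O73P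

open Cfsg.Agent.Lib.Compute.ToddCoxeterCore Cfsg.Agent.Lib.Compute.ToddCoxeterPresented
  Cfsg.Agent.Lib.Compute.TCChain Cfsg.Agent.Lib.Compute.LinOrbit Cfsg.Agent.Lib.Compute.O73
open Cfsg.Agent.Lib.Compute.TC

/-- The generators as elements of the isometry group. -/
noncomputable def el (j : ℕ) : ↥OG := ⟨elU j, elU_mem j⟩

/-- The images of the generators in the abelianization of the isometry group. -/
noncomputable def cc (j : ℕ) : Abelianization ↥OG := Abelianization.of (el j)

theorem cc_sq (j : ℕ) : cc j * cc j = 1 := by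
  have h : el j * el j = 1 := Subtype.ext (elU_mul_self j)
  rw [cc, ← map_mul, h, map_one]

theorem word_mem (a : List ℕ) : wordEl elU a ∈ OG := by
  induction a with
  | nil => exact one_mem _
  | cons x u ih =>
    rw [wordEl_cons]
    exact mul_mem ih (elU_mem x)

theorem cc_word (a : List ℕ) :
    (Abelianization.of (⟨wordEl elU a, word_mem a⟩ : ↥OG) : Abelianization ↥OG) = (a.map cc).prod := by
  induction a with
  | nil => exact map_one _
  | cons x u ih =>
    rw [List.map_cons, List.prod_cons, mul_comm, ← ih, cc, ← map_mul]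
    congr 1

theorem cc_rel (a : List ℕ) (ha : a ∈ Fi22U1.relsL) : (a.map cc).prod = 1 := by
  rw [← cc_word a]
  have h : (⟨wordEl elU a, word_mem a⟩ : ↥OG) = 1 := Subtype.ext (rel_one a ha)
  rw [h, map_one]

theorem cc_edge {x y : ℕ} (h : [y, x, y, x, y, x] ∈ Fi22U1.relsL) : cc y = cc x := by
  have h1 := cc_rel _ h
  simp only [List.map_cons, List.map_nil, List.prod_cons, List.prod_nil, mul_one] at h1
  have hx := cc_sq x
  have hy := cc_sq y
  have h2 : (cc y * cc y) * (cc x * cc x) * (cc y * cc x) = 1 := by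
    rw [← h1]
    ac_rfl
  rw [hx, hy, one_mul, one_mul] at h2
  calc cc y = cc y * (cc x * cc x) := by rw [hx, mul_one]
    _ = (cc y * cc x) * cc x := by ac_rfl
    _ = cc x := by rw [h2, one_mul]

theorem cc_all : ∀ j, j < 8 → cc j = cc 0 := by
  have h10 : cc 1 = cc 0 := cc_edge (by decide +kernel)
  have h21 : cc 2 = cc 1 := cc_edge (by decide +kernel)
  have h32 : cc 3 = cc 2 := cc_edge (by decide +kernel)
  have h43 : cc 4 = cc 3 := cc_edge (by decide +kernel)
  have h54 : cc 5 = cc 4 := cc_edge (by decide +kernel)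
  have h62 : cc 6 = cc 2 := cc_edge (by decide +kernel)
  have h76 : cc 7 = cc 6 := cc_edge (by decide +kernel)
  intro j hj
  interval_cases j
  · rfl
  · exact h10
  · rw [h21, h10]
  · rw [h32, h21, h10]
  · rw [h43, h32, h21, h10]
  · rw [h54, h43, h32, h21, h10]
  · rw [h62, h21, h10]
  · rw [h76, h62, h21, h10]

theorem cc_zero : cc 0 = 1 := by
  have hm : (Fi22U1.relsL.getD 29 []) ∈ Fi22U1.relsL := by decide +kernel
  have h1 := cc_rel _ hm
  have hlt := rels_lt _ hm
  have hlen : (Fi22U1.relsL.getD 29 []).length = 63 := by decide +kernel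
  have h2 : ∀ a : List ℕ, (∀ x ∈ a, x < 8) → (a.map cc).prod = cc 0 ^ a.length := by
    intro a
    induction a with
    | nil => intro _; simp
    | cons x u ih =>
      intro hu
      rw [List.map_cons, List.prod_cons, ih (fun z hz => hu z (by simp [hz])),
        cc_all x (hu x (by simp)), List.length_cons, pow_succ']
  rw [h2 _ hlt, hlen] at h1
  have h3 : cc 0 ^ 2 = 1 := by rw [pow_two, cc_sq]
  have h4 : cc 0 ^ 63 = (cc 0 ^ 2) ^ 31 * cc 0 := by rw [← pow_mul, ← pow_succ]
  rw [h4, h3, one_pow, one_mul] at h1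
  exact h1

theorem el_mem (j : ℕ) : el j ∈ Cfsg.Omega (ZMod 3) QF := by
  by_cases hj : j < 8
  · show el j ∈ commutator ↥OG
    rw [← Abelianization.ker_of, MonoidHom.mem_ker]
    show cc j = 1
    rw [cc_all j hj, cc_zero]
  · have h : el j = 1 := Subtype.ext (elU_ge hj)
    rw [h]
    exact one_mem _


theorem center_bot : Subgroup.center ↥(Cfsg.Omega (ZMod 3) QF) = ⊥ := by
  have h2 : (2 : ZMod 3) ≠ 0 := by decide
  show Subgroup.center ↥(Cfsg.Omega (ZMod 3) (Cfsg.quadFormOdd 3 (ZMod 3))) = ⊥
  rw [← Cfsg.Agent.Lib.Classical.Orth.Models.coe_oddForm 3 (ZMod 3)]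
  have hcard : Fintype.card (Unit ⊕ (Fin 3 ⊕ Fin 3)) = 2 * 3 + 1 := by simp
  refine Cfsg.Agent.Lib.Classical.Orth.Center.center_eq_bot
    (Cfsg.Agent.Lib.Classical.Orth.Models.oddForm_nondegenerate h2 3) (by rw [hcard]; norm_num) ?_
  intro g hg hm
  exact absurd ⟨g, hg, hm⟩ (Cfsg.Agent.Lib.Classical.Orth.Center.neg_one_not_mem_of_odd h2
    (by rw [hcard]; exact ⟨3, rfl⟩))

/-- The quotient by the centre is the commutator subgroup. -/
noncomputable def poEquiv : Cfsg.POmega (ZMod 3) (Cfsg.quadFormOdd 3 (ZMod 3)) ≃* ↥(Cfsg.Omega (ZMod 3) QF) :=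
  (QuotientGroup.quotientMulEquivOfEq center_bot).trans QuotientGroup.quotientBot

theorem card_Omega : Nat.card ↥(Cfsg.Omega (ZMod 3) QF) = 4585351680 := by
  have hodd : Odd (Fintype.card (ZMod 3)) := by decide
  have h0 := Cfsg.Agent.S0292.result (F := ZMod 3) rfl hodd 3 le_rfl
  have h1 := Nat.card_congr poEquiv.toEquiv
  rw [← h1]
  rw [Finset.prod_range_succ, Finset.prod_range_succ, Finset.prod_range_succ, Finset.prod_range_zero] at h0
  norm_num at h0
  omega


/-- The map from the commutator subgroup to the general linear group. -/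
noncomputable def incl : ↥(Cfsg.Omega (ZMod 3) QF) →* GLI := OG.subtype.comp (Cfsg.Omega (ZMod 3) QF).subtype

theorem incl_inj : Function.Injective incl := by
  intro x y h
  exact Subtype.ext (Subtype.ext h)

theorem GU_le_range : GU ≤ incl.range := by
  rw [Subgroup.closure_le]
  rintro _ ⟨j, rfl⟩
  exact ⟨⟨el j, el_mem j⟩, rfl⟩

theorem range_card : Nat.card incl.range = 4585351680 := by
  rw [← card_Omega]
  exact (Nat.card_congr (Equiv.ofInjective _ incl_inj)).symm

theorem GU_eq_range : GU = incl.range := by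
  refine Subgroup.eq_of_le_of_card_ge GU_le_range ?_
  rw [range_card]
  exact GU_card

/-- The group of the eight reflections is `PΩ₇(3)`. -/
noncomputable def equivPO : GU ≃* Cfsg.POmega (ZMod 3) (Cfsg.quadFormOdd 3 (ZMod 3)) :=
  ((MulEquiv.subgroupCongr GU_eq_range).trans (MonoidHom.ofInjective incl_inj).symm).trans poEquiv.symm

end Cfsg.Agent.Lib.Compute.Schur2.O73P
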