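import Cfsg.Agent.Lib.Compute.Schur2.O73aData
import Cfsg.Agent.Lib.Compute.Schur2.Chunks
import Cfsg.Agent.Lib.Compute.Schur2.FastParts

set_option autoImplicit false
set_option maxRecDepth 1000000

namespace Cfsg.Agent.Lib.Compute.Schur2.O73a

open Cfsg Cfsg.Agent.Lib.Compute.SchurLin Cfsg.Agent.Lib.Compute.ToddCoxeterCore
open Cfsg.Agent.Lib.Compute.ToddCoxeterPresented (allFrom_all allFrom_chain)

universe u

theorem chkL0 : allFrom (mkC c eE 18261 2029 eP rT).chkLbl 2028 1 = true := by decide +kernel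

theorem chkF0 : allFrom ((mkC c eE 18261 2029 eP rT).chkFin (List.range (mkC c eE 18261 2029 eP rT).L)) 1080 0 = true := by decide +kernel

theorem chkT0 : allFrom (certT c eE 18261 2029 eP rT) 1080 0 = true := by decide +kernel

end Cfsg.Agent.Lib.Compute.Schur2.O73a
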