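import Cfsg.Agent.Lib.Compute.Schur2.O73aData
import Cfsg.Agent.Lib.Compute.Schur2.Chunks
import Cfsg.Agent.Lib.Compute.Schur2.FastParts
import Cfsg.Agent.Lib.Compute.Schur2.O73aChk0
import Cfsg.Agent.Lib.Compute.Schur2.O73aChk1
import Cfsg.Agent.Lib.Compute.Schur2.O73aChk2
import Cfsg.Agent.Lib.Compute.Schur2.O73aChk3
import Cfsg.Agent.Lib.Compute.Schur2.O73aChk4
import Cfsg.Agent.Lib.Compute.Schur2.O73aChk5
import Cfsg.Agent.Lib.Compute.Schur2.O73aChk6
import Cfsg.Agent.Lib.Compute.Schur2.O73aChk7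
import Cfsg.Agent.Lib.Compute.Schur2.O73aChk8
import Cfsg.Agent.Lib.Compute.Schur2.O73aChk9
set_option autoImplicit false
set_option maxRecDepth 1000000

namespace Cfsg.Agent.Lib.Compute.Schur2.O73a

open Cfsg Cfsg.Agent.Lib.Compute.SchurLin Cfsg.Agent.Lib.Compute.ToddCoxeterCore
open Cfsg.Agent.Lib.Compute.ToddCoxeterPresented (allFrom_all allFrom_chain)

universe u

/-- The table. -/
theorem sound : TC.Sound.{u} c :=
  sound_of_parts chkC0
    (allFrom_all (N := 18261) chkK0 rfl)
    (allFrom_all (N := 2029) chkL0 rfl)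
    (allFrom_all (N := 1080) chkF0 rfl)
    (allFrom_all (N := 1080) chkT0 rfl)

/-- The cascade. -/
theorem upFast : UP.fcheck u 20 12 pk = true :=
  UP.fcheck_of_parts chkU0
    (allFrom_chain (c := 1080) (allFrom_chain (c := 800) (allFrom_all (N := 400) chkE0 rfl) chkE1 rfl) chkE2 rfl)

theorem upChk : u.check = true := UP.check_of_fcheck (B := 20) (b := 12) (P := pk) (fun _ _ => rfl) upFast

/-- The tail. -/
theorem tailChk : UP.tailCheck u d = true := by decide +kernel

/-- The labels. -/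
theorem lcChk : l.check = true :=
  LC.check_of_parts chkD0
    (allFrom_all (N := 1080) chkG0 rfl)
    (allFrom_chain (c := 28) (allFrom_chain (c := 20) (allFrom_all (N := 10) chkR0 rfl) chkR1 rfl) chkR2 rfl)

end Cfsg.Agent.Lib.Compute.Schur2.O73a
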