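import Mathlib
import Cfsg.Agent.Lib.Compute.Schur2.O73aChk
import Cfsg.Agent.Lib.Compute.Schur2.O73Mat
import Cfsg.Agent.S2101

/-!
# The table of `Ω₇(3)` over `G₂(3)`: the part at `2` of the multiplier
-/

set_option autoImplicit false
set_option maxRecDepth 1000000

namespace Cfsg.Agent.Lib.Compute.Schur2.O73a

open Cfsg Cfsg.Agent.Lib.Compute.SchurLin Cfsg.Agent.Lib.Compute.PermCert Cfsg.Agent.Lib.Compute.Schur2
open Cfsg.Agent.Lib.Compute.Schur2.O73M
open Cfsg.Agent.Lib.Compute.ToddCoxeterCore (wordEl wordEl_nil wordEl_cons wordEl_append)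

universe u


/-- The correspondence of relators with the inner relators. -/
def mp (k : ℕ) : ℕ := bif Nat.blt k 3 then k else Nat.succ k

theorem nestChk : nestB c G23S.c mp = true := by decide +kernel

/-- The order of the subgroup. -/
abbrev D : ℕ := G23S.c.N * (U33.c.N * 7)

theorem hSB : SubBound.{u} c D := subBound_nest Cfsg.Agent.S2101.sound Cfsg.Agent.S2101.hSB nestChk

theorem hnormC : normB c.n c.W = true := by decide +kernel

theorem hnormU : normB u.n u.W = true := by decide +kernel

theorem inv1 : ∀ j < 4, Mm mats (2 * j) * Mm mats (2 * j + 1) = 1 := by decide +kernel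

theorem inv2 : ∀ j < 4, Mm mats (2 * j + 1) * Mm mats (2 * j) = 1 := by decide +kernel

theorem okL : ∀ x < 8, Cfsg.Agent.Lib.Compute.FMat.okA z3 7 (ltrL mats x) = true := by decide +kernel

theorem relChk : allB (fun k => relB mats (c.W.getD k [])) c.nrel = true := by decide +kernel

theorem wordsChk : O73M.wordsB mats wsE = true := by decide +kernel

/-- The group. -/
noncomputable abbrev KK : Subgroup GL7 := K mats inv1 inv2

/-- The generators. -/
noncomputable abbrev gg : ℕ → KK := g mats inv1 inv2

theorem hrel : ∀ k < c.nrel, wordEl (ltr gg) (c.W.getD k []) = 1 := fun k hk =>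
  rel_of_relB mats inv1 inv2 okL ((allB_iff _ _).mp relChk k hk)

theorem hgen (x : KK) : x ∈ Subgroup.closure (gg '' Set.Iio c.n) := hgen_K mats inv1 inv2 x

theorem hcard : Nat.card KK = c.N * D := by
  apply le_antisymm
  · exact closure_card_le sound hSB hrel hgen
  · exact (show c.N * D ≤ 4585351680 by decide +kernel).trans (card_ge mats inv1 inv2 okL wordsChk)

/-- The group is `PΩ₇(3)`. -/
theorem iso : Nonempty (KK ≃* Cfsg.Agent.Lib.Compute.O73.GU) :=
  exists_iso mats inv1 inv2 okL wordsChk (by
    rw [hcard]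
    exact show c.N * D ≤ 4585351680 by decide +kernel)

/-- Groups with the presentation of `G₂(3)` have trivial multiplier away from `3`. -/
theorem presG : PresTrivC G23S.c D 3 := by
  refine presTrivC_of_table (by norm_num) Cfsg.Agent.S2101.sound Cfsg.Agent.S2101.hSB (by decide)
    Cfsg.Agent.S2101.hnormC ?_ G23S.u rfl rfl rfl rfl rfl rfl (m := 24) (by decide) Cfsg.Agent.S2101.hnormU rfl rfl
    Cfsg.Agent.S2101.upChk G23S.d rfl Cfsg.Agent.S2101.tailChk
  intro X _ _ el hrel hgen hcard
  exact hasSec_of_nest Cfsg.Agent.S2101.sound Cfsg.Agent.S2101.hSB U33.presTriv Cfsg.Agent.S2101.nestChk hrel hgen hcard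

theorem hsec : HasSecC c gg 3 := hasSecC_of_nest sound hSB presG nestChk hrel hgen hcard

theorem perf : commutator KK = ⊤ :=
  perfect_of_norm hnormC (TC.Sound.hW sound.{0}) hrel (by decide) hgen

/-- **The part at `2` of the multiplier of `Ω₇(3)`.** -/
theorem part : PartMult KK 3 2 :=
  partMult_main (g := gg) sound hSB (fun _ hj => g_ge mats inv1 inv2 hj) hrel hgen hcard (by decide) hnormC hsec
    u rfl rfl rfl rfl rfl rfl (k₀ := 28) (by decide) hnormU rfl rfl upChk d rfl tailChk
    l rfl rfl rfl rfl rfl lcChk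
    (fun j hj => by
      obtain rfl : j = 0 := by
        have : j < 1 := hj
        omega
      exact a1_pow) rfl

end Cfsg.Agent.Lib.Compute.Schur2.O73a
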