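import Cfsg.Agent.Lib.Compute.Schur2.O73bData
import Cfsg.Agent.Lib.Compute.Schur2.Chunks
import Cfsg.Agent.Lib.Compute.Schur2.FastParts
import Cfsg.Agent.Lib.Compute.Schur2.O73bChk0
import Cfsg.Agent.Lib.Compute.Schur2.O73bChk1
import Cfsg.Agent.Lib.Compute.Schur2.O73bChk2
import Cfsg.Agent.Lib.Compute.Schur2.O73bChk3
import Cfsg.Agent.Lib.Compute.Schur2.O73bChk4
import Cfsg.Agent.Lib.Compute.Schur2.O73bChk5
import Cfsg.Agent.Lib.Compute.Schur2.O73bChk6
import Cfsg.Agent.Lib.Compute.Schur2.O73bChk7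
import Cfsg.Agent.Lib.Compute.Schur2.O73bChk8
import Cfsg.Agent.Lib.Compute.Schur2.O73bChk9
import Cfsg.Agent.Lib.Compute.Schur2.O73bChk10
import Cfsg.Agent.Lib.Compute.Schur2.O73bChk11
import Cfsg.Agent.Lib.Compute.Schur2.O73bChk12
import Cfsg.Agent.Lib.Compute.Schur2.O73bChk13
import Cfsg.Agent.Lib.Compute.Schur2.O73bChk14
import Cfsg.Agent.Lib.Compute.Schur2.O73bChk15
import Cfsg.Agent.Lib.Compute.Schur2.O73bChk16
import Cfsg.Agent.Lib.Compute.Schur2.O73bChk17
set_option autoImplicit false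
set_option maxRecDepth 1000000

namespace Cfsg.Agent.Lib.Compute.Schur2.O73b

open Cfsg Cfsg.Agent.Lib.Compute.SchurLin Cfsg.Agent.Lib.Compute.ToddCoxeterCore
open Cfsg.Agent.Lib.Compute.ToddCoxeterPresented (allFrom_all allFrom_chain)

universe u

/-- The table. -/
theorem sound : TC.Sound.{u} c :=
  sound_of_parts chkC0
    (allFrom_chain (c := 58392) (allFrom_all (N := 30000) chkK0 rfl) chkK1 rfl)
    (allFrom_all (N := 6488) chkL0 rfl)
    (allFrom_chain (c := 3159) (allFrom_all (N := 1600) chkF0 rfl) chkF1 rfl)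
    (allFrom_chain (c := 3159) (allFrom_all (N := 1600) chkT0 rfl) chkT1 rfl)

/-- The cascade. -/
theorem upFast : UP.fcheck u 20 12 pk = true :=
  UP.fcheck_of_parts chkU0
    (allFrom_chain (c := 3159) (allFrom_chain (c := 3150) (allFrom_chain (c := 2700) (allFrom_chain (c := 2250) (allFrom_chain (c := 1800) (allFrom_chain (c := 1350) (allFrom_chain (c := 900) (allFrom_all (N := 450) chkE0 rfl) chkE1 rfl) chkE2 rfl) chkE3 rfl) chkE4 rfl) chkE5 rfl) chkE6 rfl) chkE7 rfl)

theorem upChk : u.check = true := UP.check_of_fcheck (B := 20) (b := 12) (P := pk) (fun _ _ => rfl) upFast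

/-- The tail. -/
theorem tailChk : UP.tailCheck u d = true := by decide +kernel

/-- The labels. -/
theorem lcChk : l.check = true :=
  LC.check_of_parts chkD0
    (allFrom_all (N := 3159) chkG0 rfl)
    (allFrom_chain (c := 31) (allFrom_chain (c := 30) (allFrom_chain (c := 24) (allFrom_chain (c := 18) (allFrom_chain (c := 12) (allFrom_all (N := 6) chkR0 rfl) chkR1 rfl) chkR2 rfl) chkR3 rfl) chkR4 rfl) chkR5 rfl)

end Cfsg.Agent.Lib.Compute.Schur2.O73b
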