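import Mathlib
import Cfsg.Agent.Lib.Compute.PermCert
import Cfsg.Agent.Lib.Classical.Symp.Count
import Cfsg.Agent.Lib.Classical.Symp.SimpleMatrix

/-!
# The group `Sp(6, 2)` as a group of permutations of 64 vectors
-/

set_option autoImplicit false
set_option maxRecDepth 1000000

namespace Cfsg.Agent.Lib.Compute.Schur2.SpTwo

open Cfsg.Agent.Lib.Compute.PermCert

/-- The coordinates. -/
abbrev I6 : Type := Fin 3 ⊕ Fin 3
/-- The vectors. -/
abbrev V6 : Type := I6 → ZMod 2
/-- The group. -/
abbrev Sp6 : Type := Matrix.symplecticGroup (Fin 3) (ZMod 2)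

/-- The bit number of a coordinate. -/
def idx : I6 → ℕ
  | .inl i => i
  | .inr i => i + 3

/-- A bit. -/
def bitZ (c k : ℕ) : ZMod 2 := ((Nat.land (Nat.shiftRight c k) 1 : ℕ) : ZMod 2)

/-- The vector of a code. -/
def dec (c : ℕ) : V6 := fun i => bitZ c (idx i)

/-- The code of a vector. -/
def enc (v : V6) : ℕ :=
  (v (.inl 0)).val + 2 * (v (.inl 1)).val + 4 * (v (.inl 2)).val + 8 * (v (.inr 0)).val + 16 * (v (.inr 1)).val +
    32 * (v (.inr 2)).val

theorem enc_lt : ∀ v : V6, enc v < 64 := by decide +kernel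

theorem dec_enc : ∀ v : V6, dec (enc v) = v := by decide +kernel

theorem enc_dec : ∀ c : Fin 64, enc (dec c) = c := by decide +kernel

/-- The codes. -/
def codeE : V6 ≃ Fin 64 where
  toFun v := ⟨enc v, enc_lt v⟩
  invFun c := dec c
  left_inv v := dec_enc v
  right_inv c := Fin.ext (enc_dec c)

/-- The action on vectors. -/
def spPerm : Sp6 →* Equiv.Perm V6 where
  toFun A :=
    { toFun := fun v => Matrix.mulVec A.1 v
      invFun := fun v => Matrix.mulVec (A⁻¹).1 v
      left_inv := fun v => by
        show Matrix.mulVec (A⁻¹).1 (Matrix.mulVec A.1 v) = v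
        rw [Matrix.mulVec_mulVec]
        have : (A⁻¹).1 * A.1 = 1 := congrArg Subtype.val (inv_mul_cancel A)
        rw [this, Matrix.one_mulVec]
      right_inv := fun v => by
        show Matrix.mulVec A.1 (Matrix.mulVec (A⁻¹).1 v) = v
        rw [Matrix.mulVec_mulVec]
        have : A.1 * (A⁻¹).1 = 1 := congrArg Subtype.val (mul_inv_cancel A)
        rw [this, Matrix.one_mulVec] }
  map_one' := Equiv.ext fun v => by
    show Matrix.mulVec (1 : Sp6).1 v = v
    exact Matrix.one_mulVec v
  map_mul' A B := Equiv.ext fun v => by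
    show Matrix.mulVec (A * B).1 v = Matrix.mulVec A.1 (Matrix.mulVec B.1 v)
    rw [Matrix.mulVec_mulVec]
    rfl

/-- The action on codes. -/
def φ : Sp6 →* Equiv.Perm (Fin 64) := (codeE.permCongrHom.toMonoidHom).comp spPerm

theorem φ_apply (A : Sp6) (y : Fin 64) : ((φ A y : Fin 64) : ℕ) = enc (Matrix.mulVec A.1 (dec y)) := rfl

theorem φ_injective : Function.Injective φ := by
  intro A B h
  have h1 : spPerm A = spPerm B := codeE.permCongrHom.injective h
  apply Subtype.ext
  apply Matrix.ext_of_mulVec_single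
  intro i
  exact congrArg (fun f : Equiv.Perm V6 => f (Pi.single i 1)) h1

/-- The matrix of a table. -/
def matE (e : Elt) : Matrix I6 I6 (ZMod 2) := fun r s => bitZ (get 7 127 e.f (2 ^ idx s)) (idx r)

/-- The check of a table. -/
def eltOK (e : Elt) : Bool :=
  validB 7 127 64 e && decide (matE e * Matrix.J (Fin 3) (ZMod 2) * (matE e).transpose = Matrix.J (Fin 3) (ZMod 2)) &&
    decide (∀ y : Fin 64, enc (Matrix.mulVec (matE e) (dec y)) = get 7 127 e.f y)

theorem permOf_mem_range {e : Elt} (h : eltOK e = true) : permOf 7 127 64 e ∈ φ.range := by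
  simp only [eltOK, Bool.and_eq_true, decide_eq_true_eq] at h
  obtain ⟨⟨h1, h2⟩, h3⟩ := h
  refine ⟨⟨matE e, SymplecticGroup.mem_iff.2 h2⟩, ?_⟩
  ext y
  rw [φ_apply, permOf_apply h1]
  exact h3 y

theorem card_Sp6 : Nat.card Sp6 = 1451520 := by
  have h : Nat.card (ZMod 2) = 2 := by simp
  rw [Cfsg.Agent.Lib.Classical.Symp.Count.card_symplecticGroup h 3]
  decide

/-- The isomorphism with a group of permutations. -/
theorem nonempty_iso {gens : List Elt} (hall : gens.all eltOK = true)
    (hcard : Nat.card (genGroup 7 127 64 gens) = 1451520) : Nonempty (genGroup 7 127 64 gens ≃* Sp6) := by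
  have hle : genGroup 7 127 64 gens ≤ φ.range := by
    rw [genGroup, Subgroup.closure_le]
    rintro _ ⟨e, he, rfl⟩
    rw [List.all_eq_true] at hall
    exact permOf_mem_range (hall e he)
  have h2 : Nat.card φ.range = 1451520 := by
    rw [← card_Sp6]
    exact Nat.card_congr (MonoidHom.ofInjective φ_injective).symm.toEquiv
  have h3 : genGroup 7 127 64 gens = φ.range :=
    Subgroup.eq_of_le_of_card_ge hle (by rw [hcard, h2])
  exact ⟨(MulEquiv.subgroupCongr h3).trans (MonoidHom.ofInjective φ_injective).symm⟩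

/-! ### Other fields -/

/-- The symplectic group along an isomorphism of rings. -/
def spCongr {R S : Type*} [CommRing R] [CommRing S] (e : R ≃+* S) (l : Type) [Fintype l] [DecidableEq l] :
    Matrix.symplecticGroup l R ≃* Matrix.symplecticGroup l S where
  toFun A := ⟨e.mapMatrix A.1, by
    have h := SymplecticGroup.mem_iff.1 A.2
    rw [SymplecticGroup.mem_iff]
    have hJ : e.mapMatrix (Matrix.J l R) = Matrix.J l S := by
      ext (i | i) (j | j) <;> simp [Matrix.J, Matrix.one_apply, apply_ite e]
    have h2 := congrArg e.mapMatrix h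
    rw [map_mul, map_mul, hJ] at h2
    have ht : e.mapMatrix (A.1.transpose) = (e.mapMatrix A.1).transpose := by
      ext i j
      rfl
    rwa [ht] at h2⟩
  invFun A := ⟨e.symm.mapMatrix A.1, by
    have h := SymplecticGroup.mem_iff.1 A.2
    rw [SymplecticGroup.mem_iff]
    have hJ : e.symm.mapMatrix (Matrix.J l S) = Matrix.J l R := by
      ext (i | i) (j | j) <;> simp [Matrix.J, Matrix.one_apply, apply_ite e.symm]
    have h2 := congrArg e.symm.mapMatrix h
    rw [map_mul, map_mul, hJ] at h2
    have ht : e.symm.mapMatrix (A.1.transpose) = (e.symm.mapMatrix A.1).transpose := by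
      ext i j
      rfl
    rwa [ht] at h2⟩
  left_inv A := by
    apply Subtype.ext
    ext i j
    simp
  right_inv A := by
    apply Subtype.ext
    ext i j
    simp
  map_mul' A B := by
    apply Subtype.ext
    exact map_mul e.mapMatrix _ _

/-- The centre of the symplectic group in characteristic two. -/
theorem center_eq_bot {F : Type*} [Field F] [Fintype F] (hF : Fintype.card F = 2) :
    Subgroup.center (Matrix.symplecticGroup (Fin 3) F) = ⊥ := by
  haveI : CharP F 2 := ringChar.of_eq (FiniteField.even_card_iff_char_two.mpr (by rw [hF]))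
  rw [eq_bot_iff]
  intro A hA
  rw [Cfsg.Agent.Lib.Classical.Symp.SimpleMatrix.center_symplectic_iff A (by norm_num)] at hA
  rcases hA with h | h
  · rw [Subgroup.mem_bot]
    exact Subtype.ext h
  · rw [Subgroup.mem_bot]
    apply Subtype.ext
    rw [h]
    exact CharTwo.neg_eq _

/-- The simple group over any field with two elements. -/
theorem nonempty_equiv_PSp {F : Type*} [Field F] [Fintype F] (hF : Fintype.card F = 2) :
    Nonempty (Sp6 ≃* Cfsg.PSp 3 F) := by
  have e := ZMod.ringEquivOfPrime F (p := 2) Nat.prime_two hF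
  have hc := center_eq_bot hF
  refine ⟨(spCongr e (Fin 3)).trans ?_⟩
  unfold Cfsg.PSp
  exact (QuotientGroup.quotientBot.symm).trans (QuotientGroup.quotientMulEquivOfEq hc.symm)

end Cfsg.Agent.Lib.Compute.Schur2.SpTwo
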