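import Cfsg.Agent.Lib.Compute.Schur2.O8Cert
import Cfsg.Agent.Lib.Compute.Schur2.CertParts

/-! Checks for the multiplier of `PΩ⁺₈(2)`. -/

set_option autoImplicit false
set_option maxRecDepth 1000000
set_option Elab.async false

namespace Cfsg.Agent.Lib.Compute.Schur2.O8

open Cfsg Cfsg.Agent.Lib.Compute.SchurLin Cfsg.Agent.Lib.Compute.PermCert Cfsg.Agent.Lib.Compute.Schur2

open Cfsg.Agent.Lib.Compute.ToddCoxeterCore

theorem cert0 : certB0 c eE 298431 42633 eP rT 13 = true := by decide +kernel

theorem certL : allFrom (mkC c eE 298431 42633 eP rT).chkLbl (42633 - 1) 1 = true := by decide +kernel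

theorem certF : allFrom ((mkC c eE 298431 42633 eP rT).chkFin (List.range (mkC c eE 298431 42633 eP rT).L)) c.N 0 = true := by decide +kernel

theorem certT : allB (fun i => allB (fun x => Nat.beq ((mkC c eE 298431 42633 eP rT).T x i) (c.t i x)) (Nat.mul 2 c.n)) c.N = true := by
  decide +kernel

end Cfsg.Agent.Lib.Compute.Schur2.O8
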