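import Cfsg.Agent.Lib.Compute.Schur2.O8ChkK0
import Cfsg.Agent.Lib.Compute.Schur2.O8ChkK1
import Cfsg.Agent.Lib.Compute.Schur2.O8ChkB
import Cfsg.Agent.Lib.Compute.Schur2.O8Up
import Cfsg.Agent.Lib.Compute.Schur2.U33
import Cfsg.Agent.Lib.Compute.Schur2.Fast

/-! Checks for the multiplier of `PΩ⁺₈(2)`. -/

set_option autoImplicit false
set_option maxRecDepth 1000000
set_option Elab.async false

namespace Cfsg.Agent.Lib.Compute.Schur2.O8

open Cfsg Cfsg.Agent.Lib.Compute.SchurLin Cfsg.Agent.Lib.Compute.PermCert Cfsg.Agent.Lib.Compute.Schur2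

open Cfsg.Agent.Lib.Compute.ToddCoxeterCore

universe u

theorem certK : allFrom (mkC c eE 298431 42633 eP rT).chkKey 298431 0 = true := by
  have h1 : allFrom (mkC c eE 298431 42633 eP rT).chkKey 100000 0 = true := allFrom_join key0 key50000 rfl
  have h2 : allFrom (mkC c eE 298431 42633 eP rT).chkKey 150000 0 = true := allFrom_join h1 key100000 rfl
  have h3 : allFrom (mkC c eE 298431 42633 eP rT).chkKey 200000 0 = true := allFrom_join h2 key150000 rfl
  have h4 : allFrom (mkC c eE 298431 42633 eP rT).chkKey 250000 0 = true := allFrom_join h3 key200000 rfl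
  have h5 : allFrom (mkC c eE 298431 42633 eP rT).chkKey 298431 0 = true := allFrom_join h4 key250000 rfl
  exact h5

theorem certChk : certB c eE 298431 42633 eP rT 13 = true := certB_of_parts cert0 certK certL certF certT

theorem sound : TC.Sound.{u} c := sound_of_check certChk

/-- The correspondence of relators with the inner relators. -/
def mp (k : ℕ) : ℕ := bif Nat.blt k 2 then k else Nat.succ k

theorem nestChk : nestB c U33.c mp = true := by decide +kernel

theorem hSB : SubBound.{u} c (U33.c.N * 7) := subBound_nest U33.sound U33.hSB nestChk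

theorem hnormC : normB c.n c.W = true := by decide +kernel

theorem hnormU : normB u.n u.W = true := by decide +kernel

theorem tailChk : UP.tailCheck u d = true := by decide +kernel

theorem up0 : Nat.blt 0 u.M = true := by decide +kernel

theorem up1 : u.W.all (fun w => w.all (fun x => Nat.blt x (Nat.mul 2 u.n)) &&
    Nat.blt (Nat.mul w.length (Nat.pow 2 15)) (Nat.pow 2 22)) = true := by decide +kernel

theorem up2 : allB (u.frelCheck 22 (FastW.UPW.PP Pr)) u.W.length = true := by decide +kernel

end Cfsg.Agent.Lib.Compute.Schur2.O8
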