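import Cfsg.Agent.Lib.Compute.Schur2.O8Chain

/-! Checks for the multiplier of `PΩ⁺₈(2)`. -/

set_option autoImplicit false
set_option maxRecDepth 1000000
set_option Elab.async false

namespace Cfsg.Agent.Lib.Compute.Schur2.O8

open Cfsg Cfsg.Agent.Lib.Compute.PermCert Cfsg.Agent.Lib.Compute.Schur2

theorem chainOk : chainCheck 8 255 256 ls = true := by decide +kernel

theorem hsub : (nextGens ls).all O8Two.eltOK = true := by decide +kernel

theorem hord : chainOrder ls2 = 2 * chainOrder ls := by decide +kernel

theorem hZ : O8Two.centerOK ls = true := by decide +kernel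

theorem chainOrd : chainOrder ls = 174182400 := by decide +kernel

theorem validEs : es.all (validB 8 255 256) = true := by decide +kernel

theorem siftEs : es.all (fun e => sift 8 255 256 ls (get 8 255 e.f)) = true := by decide +kernel

end Cfsg.Agent.Lib.Compute.Schur2.O8
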