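import Cfsg.Agent.Lib.Compute.Schur2.O8Chain

/-! Checks for the multiplier of `PΩ⁺₈(2)`. -/

set_option autoImplicit false
set_option maxRecDepth 1000000
set_option Elab.async false

namespace Cfsg.Agent.Lib.Compute.Schur2.O8

open Cfsg Cfsg.Agent.Lib.Compute.PermCert Cfsg.Agent.Lib.Compute.Schur2

theorem hc2 : chainCheck 8 255 256 ls2 = true := by decide +kernel

theorem hall : (nextGens ls2).all O8Two.eltOK = true := by decide +kernel

theorem hcomp : compB 256 O8Two.cmpI O8Two.finI [] ls2 = true := by decide +kernel

end Cfsg.Agent.Lib.Compute.Schur2.O8
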