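import Cfsg.Agent.Lib.Compute.Schur2.O8Up
import Cfsg.Agent.Lib.Compute.Schur2.Fast

/-! Checks for the multiplier of `PΩ⁺₈(2)`. -/

set_option autoImplicit false
set_option maxRecDepth 1000000
set_option Elab.async false

namespace Cfsg.Agent.Lib.Compute.Schur2.O8

open Cfsg Cfsg.Agent.Lib.Compute.SchurLin Cfsg.Agent.Lib.Compute.PermCert Cfsg.Agent.Lib.Compute.Schur2

theorem flP0 : ptsB 0 (fun i => allB (FastW.flipW Ee 6 2 3 i) 6) 8000 = true := by decide +kernel

theorem flP8000 : ptsB 8000 (fun i => allB (FastW.flipW Ee 6 2 3 i) 6) 8000 = true := by decide +kernel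

theorem flP16000 : ptsB 16000 (fun i => allB (FastW.flipW Ee 6 2 3 i) 6) 8000 = true := by decide +kernel

theorem flP24000 : ptsB 24000 (fun i => allB (FastW.flipW Ee 6 2 3 i) 6) 4800 = true := by decide +kernel

theorem lc3 : allB (fun k => allB (fun j => l.eqm j (l.en j k) 0) l.r) l.n = true := by decide +kernel

theorem lc4 : allB (fun j => (l.unit j).all (fun p => Nat.blt p.1 l.nrel) &&
    allB (fun a => l.eqm a (l.comb a (l.unit j)) (bif Nat.beq a j then 1 else 0)) l.r) l.r = true := by decide +kernel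

theorem hcode : ∀ k < l.nrel, code k < 4 ∧ ∀ j < 2, (code k).testBit j = decide (l.en j k % 2 = 1) := by
  decide +kernel

end Cfsg.Agent.Lib.Compute.Schur2.O8
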