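import Cfsg.Agent.Lib.Compute.Schur2.O8Cert
import Cfsg.Agent.Lib.Compute.Schur2.CertParts

/-! Checks for the multiplier of `PΩ⁺₈(2)`. -/

set_option autoImplicit false
set_option maxRecDepth 1000000
set_option Elab.async false

namespace Cfsg.Agent.Lib.Compute.Schur2.O8

open Cfsg Cfsg.Agent.Lib.Compute.SchurLin Cfsg.Agent.Lib.Compute.PermCert Cfsg.Agent.Lib.Compute.Schur2

open Cfsg.Agent.Lib.Compute.ToddCoxeterCore

theorem key0 : allFrom (mkC c eE 298431 42633 eP rT).chkKey 50000 0 = true := by decide +kernel

theorem key50000 : allFrom (mkC c eE 298431 42633 eP rT).chkKey 50000 50000 = true := by decide +kernel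

theorem key100000 : allFrom (mkC c eE 298431 42633 eP rT).chkKey 50000 100000 = true := by decide +kernel


end Cfsg.Agent.Lib.Compute.Schur2.O8
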