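import Cfsg.Agent.Lib.Compute.Schur2.O8Up
import Cfsg.Agent.Lib.Compute.Schur2.Fast

/-! Checks for the multiplier of `PΩ⁺₈(2)`. -/

set_option autoImplicit false
set_option maxRecDepth 1000000
set_option Elab.async false

namespace Cfsg.Agent.Lib.Compute.Schur2.O8

open Cfsg Cfsg.Agent.Lib.Compute.SchurLin Cfsg.Agent.Lib.Compute.PermCert Cfsg.Agent.Lib.Compute.Schur2

theorem upP24000 : ptsB 24000 (fun i => allB (FastW.UPW.edgeW u 22 15 Pr i) 6) 2000 = true := by decide +kernel

theorem upP26000 : ptsB 26000 (fun i => allB (FastW.UPW.edgeW u 22 15 Pr i) 6) 2000 = true := by decide +kernel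

theorem upP28000 : ptsB 28000 (fun i => allB (FastW.UPW.edgeW u 22 15 Pr i) 6) 800 = true := by decide +kernel


end Cfsg.Agent.Lib.Compute.Schur2.O8
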