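import Mathlib
import Cfsg.Agent.Lib.Compute.PermCert
import Cfsg.Agent.Lib.Compute.OrthTransport
import Cfsg.Agent.Lib.Compute.SmallField
import Cfsg.Agent.Lib.Compute.Schur2.ChainComplete

/-!
# The group `PΩ⁺₈(2)` as a group of permutations of 256 vectors
-/

set_option autoImplicit false
set_option maxRecDepth 1000000

namespace Cfsg.Agent.Lib.Compute.Schur2.O8Two

open Matrix
open Cfsg Cfsg.Agent.Lib.Compute.PermCert Cfsg.Agent.Lib.Compute.Schur2

/-- The coordinates. -/
abbrev I8 : Type := Fin 4 ⊕ Fin 4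
/-- The vectors. -/
abbrev V8 : Type := I8 → ZMod 2
/-- The form. -/
abbrev Qf : V8 → ZMod 2 := quadFormPlus 4 (ZMod 2)
/-- The isometry group. -/
abbrev Iso8 : Type := ↥(isometryGroup (ZMod 2) Qf)

/-- The bit number of a coordinate. -/
def idx : I8 → ℕ
  | .inl i => i
  | .inr i => i + 4

/-- The vector of a code. -/
def dec (c : ℕ) : V8 := fun i => bif c.testBit (idx i) then 1 else 0

/-- The code of a vector. -/
def enc (v : V8) : ℕ :=
  (v (.inl 0)).val + 2 * (v (.inl 1)).val + 4 * (v (.inl 2)).val + 8 * (v (.inl 3)).val + 16 * (v (.inr 0)).val +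
    32 * (v (.inr 1)).val + 64 * (v (.inr 2)).val + 128 * (v (.inr 3)).val

/-- The form on codes. -/
def qB (c : ℕ) : Bool :=
  xor (xor (c.testBit 0 && c.testBit 4) (c.testBit 1 && c.testBit 5))
    (xor (c.testBit 2 && c.testBit 6) (c.testBit 3 && c.testBit 7))

theorem enc_lt : ∀ v : V8, enc v < 256 := by decide +kernel

theorem dec_enc : ∀ v : V8, dec (enc v) = v := by decide +kernel

theorem enc_dec : ∀ c : Fin 256, enc (dec c) = c := by decide +kernel

theorem Q_dec : ∀ c : Fin 256, Qf (dec c) = bif qB c then 1 else 0 := by decide +kernel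

theorem dec_xor (a b : ℕ) : dec (Nat.xor a b) = dec a + dec b := by
  funext i
  show (bif (a ^^^ b).testBit (idx i) then (1 : ZMod 2) else 0) = _
  simp only [Nat.testBit_xor, Pi.add_apply, dec]
  cases a.testBit (idx i) <;> cases b.testBit (idx i) <;> decide

theorem xor_lt {a b : ℕ} (ha : a < 256) (hb : b < 256) : Nat.xor a b < 256 := by
  have := Nat.xor_lt_two_pow (n := 8) (x := a) (y := b) ha hb
  exact this

/-- The codes. -/
def codeE : V8 ≃ Fin 256 where
  toFun v := ⟨enc v, enc_lt v⟩
  invFun c := dec c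
  left_inv v := dec_enc v
  right_inv c := Fin.ext (enc_dec c)

/-- The action on vectors. -/
def act : Iso8 →* Equiv.Perm V8 where
  toFun A :=
    { toFun := fun v => A.1.1 *ᵥ v
      invFun := fun v => (A⁻¹).1.1 *ᵥ v
      left_inv := fun v => by
        show (A⁻¹).1.1 *ᵥ (A.1.1 *ᵥ v) = v
        rw [Matrix.mulVec_mulVec]
        have : (A⁻¹).1.1 * A.1.1 = 1 := congrArg (fun x : Iso8 => x.1.1) (inv_mul_cancel A)
        rw [this, Matrix.one_mulVec]
      right_inv := fun v => by
        show A.1.1 *ᵥ ((A⁻¹).1.1 *ᵥ v) = v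
        rw [Matrix.mulVec_mulVec]
        have : A.1.1 * (A⁻¹).1.1 = 1 := congrArg (fun x : Iso8 => x.1.1) (mul_inv_cancel A)
        rw [this, Matrix.one_mulVec] }
  map_one' := Equiv.ext fun v => by
    show (1 : Iso8).1.1 *ᵥ v = v
    exact Matrix.one_mulVec v
  map_mul' A B := Equiv.ext fun v => by
    show (A * B).1.1 *ᵥ v = A.1.1 *ᵥ (B.1.1 *ᵥ v)
    rw [Matrix.mulVec_mulVec]
    rfl

/-- The action on codes. -/
def φ : Iso8 →* Equiv.Perm (Fin 256) := (codeE.permCongrHom.toMonoidHom).comp act

theorem φ_apply (A : Iso8) (y : Fin 256) : ((φ A y : Fin 256) : ℕ) = enc (A.1.1 *ᵥ dec y) := rfl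

theorem dec_φ (A : Iso8) (y : Fin 256) : dec (φ A y : Fin 256) = A.1.1 *ᵥ dec y := by
  rw [φ_apply, dec_enc]

theorem φ_injective : Function.Injective φ := by
  intro A B h
  have h1 : act A = act B := codeE.permCongrHom.injective h
  apply Subtype.ext
  apply Units.ext
  apply Matrix.ext_of_mulVec_single
  intro i
  exact congrArg (fun f : Equiv.Perm V8 => f (Pi.single i 1)) h1

theorem Q_act (A : Iso8) (v : V8) : Qf (A.1.1 *ᵥ v) = Qf v := A.2 v v

/-- The invariants of a point. -/
def cmpI (pre : List ℕ) (b v : ℕ) : Bool :=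
  (Nat.beq v 0 == Nat.beq b 0) && (qB v == qB b) &&
    pre.all fun p => !(Nat.blt p 256) || (qB (Nat.xor v p) == qB (Nat.xor b p))

/-- The codes of the unit vectors. -/
def unitsL : List ℕ := [1, 2, 4, 8, 16, 32, 64, 128]

/-- The invariants determine the images of the unit vectors. -/
def finI (pre : List ℕ) : Bool :=
  unitsL.all fun u => allB (fun v => !(cmpI pre u v) || Nat.beq v u) 256

theorem Q_inj {a b : Fin 256} (h : Qf (dec a) = Qf (dec b)) : qB a = qB b := by
  rw [Q_dec, Q_dec] at h
  cases h1 : qB a <;> cases h2 : qB b <;> simp only [h1, h2] at h ⊢ <;> first | rfl | (exact absurd h (by decide))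

theorem hcmpI (g : Equiv.Perm (Fin 256)) (hg : g ∈ φ.range) (pre : List ℕ)
    (hfix : ∀ p (hp : p < 256), p ∈ pre → (g ⟨p, hp⟩ : ℕ) = p) (b : ℕ) (hb : b < 256) :
    cmpI pre b (g ⟨b, hb⟩ : ℕ) = true := by
  obtain ⟨A, rfl⟩ := hg
  simp only [cmpI, Bool.and_eq_true, beq_iff_eq, List.all_eq_true, Bool.or_eq_true, Bool.not_eq_true']
  refine ⟨⟨?_, ?_⟩, ?_⟩
  · have h0 : (φ A ⟨0, by norm_num⟩ : Fin 256) = ⟨0, by norm_num⟩ := by
      apply Fin.ext
      rw [φ_apply]
      have : dec 0 = 0 := by decide +kernel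
      simp only [this, Matrix.mulVec_zero]
      decide +kernel
    have hb0 : ((φ A ⟨b, hb⟩ : Fin 256) : ℕ) = 0 ↔ b = 0 := by
      constructor
      · intro h
        have h1 : (φ A ⟨b, hb⟩ : Fin 256) = ⟨0, by norm_num⟩ := Fin.ext h
        rw [← h0] at h1
        have := (φ A).injective h1
        exact congrArg Fin.val this
      · rintro rfl
        rw [h0]
    cases h1 : Nat.beq (φ A ⟨b, hb⟩ : Fin 256) 0 <;> cases h2 : Nat.beq b 0 <;> try rfl
    · exfalso
      have h3 := Nat.eq_of_beq_eq_true h2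
      have h4 := hb0.2 h3
      rw [h4] at h1
      simp at h1
    · exfalso
      have h3 := Nat.eq_of_beq_eq_true h1
      have h4 := hb0.1 h3
      rw [h4] at h2
      simp at h2
  · exact Q_inj (a := φ A ⟨b, hb⟩) (b := ⟨b, hb⟩) (by
      show Qf (dec (φ A ⟨b, hb⟩ : Fin 256)) = Qf (dec b)
      rw [dec_φ, Q_act])
  · intro p hp
    by_cases hp' : p < 256
    · right
      have h1 := hfix p hp' hp
      have h2 : Nat.xor (φ A ⟨b, hb⟩ : Fin 256) p < 256 := xor_lt (φ A ⟨b, hb⟩).2 hp'
      have h3 := xor_lt hb hp'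
      exact Q_inj (a := ⟨_, h2⟩) (b := ⟨_, h3⟩) (by
        show Qf (dec (Nat.xor (φ A ⟨b, hb⟩ : Fin 256) p)) = Qf (dec (Nat.xor b p))
        rw [dec_xor, dec_xor, dec_φ]
        have h4 : dec p = A.1.1 *ᵥ dec p := by
          have := dec_φ A ⟨p, hp'⟩
          simp only at this
          rw [← this, h1]
        conv_lhs => rw [h4]
        rw [← Matrix.mulVec_add, Q_act])
    · left
      have : ¬ (p < 256) := hp'
      cases h : Nat.blt p 256
      · rfl
      · exact absurd (by simpa [Nat.blt_eq] using h) hp'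

theorem unit_dec : ∀ i : I8, dec (2 ^ idx i) = Pi.single i 1 := by decide +kernel

theorem unit_mem : ∀ i : I8, 2 ^ idx i ∈ unitsL := by decide +kernel

theorem units_lt : ∀ u ∈ unitsL, u < 256 := by decide

/-- An element fixing the unit vectors is trivial. -/
theorem eq_one_of_fix (A : Iso8) (h : ∀ u (hu : u < 256), u ∈ unitsL → (φ A ⟨u, hu⟩ : ℕ) = u) : φ A = 1 := by
  have : A = 1 := by
    apply Subtype.ext
    apply Units.ext
    apply Matrix.ext_of_mulVec_single
    intro i
    have hlt := units_lt _ (unit_mem i)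
    have h1 := dec_φ A ⟨2 ^ idx i, hlt⟩
    simp only at h1
    rw [h _ hlt (unit_mem i), unit_dec] at h1
    rw [← h1]
    show _ = (1 : Matrix I8 I8 (ZMod 2)) *ᵥ _
    rw [Matrix.one_mulVec]
  rw [this, map_one]

theorem hfinI (pre : List ℕ) (h : finI pre = true) (g : Equiv.Perm (Fin 256)) (hg : g ∈ φ.range)
    (hfix : ∀ p (hp : p < 256), p ∈ pre → (g ⟨p, hp⟩ : ℕ) = p) : g = 1 := by
  obtain ⟨A, rfl⟩ := hg
  apply eq_one_of_fix
  intro u hu hm
  simp only [finI, List.all_eq_true, allB_iff] at h
  have h1 := h u hm _ (φ A ⟨u, hu⟩).2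
  rw [hcmpI _ ⟨A, rfl⟩ pre hfix u hu] at h1
  simpa using h1

/-! ### Tables -/

/-- The matrix of a table. -/
def matE (f : ℕ) : Matrix I8 I8 (ZMod 2) := fun r s => bif (get 8 255 f (2 ^ idx s)).testBit (idx r) then 1 else 0

/-- The check of a table. -/
def eltOK (e : Elt) : Bool :=
  validB 8 255 256 e && decide (matE e.f * matE e.g = 1) &&
    decide (∀ y : Fin 256, qB (get 8 255 e.f y) = qB y) &&
    decide (∀ y : Fin 256, enc (matE e.f *ᵥ dec y) = get 8 255 e.f y)

theorem permOf_mem_range {e : Elt} (h : eltOK e = true) : permOf 8 255 256 e ∈ φ.range := by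
  simp only [eltOK, Bool.and_eq_true, decide_eq_true_eq] at h
  obtain ⟨⟨⟨h1, h2⟩, h3⟩, h4⟩ := h
  have hv := (validB_iff 8 255 256 e).1 h1
  have hlt : ∀ y : Fin 256, get 8 255 e.f y < 256 := fun y => (permOf 8 255 256 e y).2.trans_eq' (by
    rw [permOf_apply h1])
  let A : GL I8 (ZMod 2) := ⟨matE e.f, matE e.g, h2, mul_eq_one_comm.mp h2⟩
  have hA : ∀ y : Fin 256, matE e.f *ᵥ dec y = dec (get 8 255 e.f y) := by
    intro y
    rw [← h4 y, dec_enc]
  have hmem : A ∈ isometryGroup (ZMod 2) Qf := by
    intro u _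
    show Qf (matE e.f *ᵥ u) = Qf u
    have hu := dec_enc u
    have hlt2 := enc_lt u
    rw [← hu, hA ⟨enc u, hlt2⟩]
    have h5 := Q_dec ⟨_, hlt ⟨enc u, hlt2⟩⟩
    have h6 := Q_dec ⟨enc u, hlt2⟩
    simp only at h5 h6
    rw [h5, h6, h3 ⟨enc u, hlt2⟩]
  refine ⟨⟨A, hmem⟩, ?_⟩
  ext y
  rw [φ_apply, permOf_apply h1]
  exact h4 y

theorem genGroup_le_range {gens : List Elt} (h : gens.all eltOK = true) : genGroup 8 255 256 gens ≤ φ.range := by
  rw [genGroup, Subgroup.closure_le]
  rintro _ ⟨e, he, rfl⟩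
  rw [List.all_eq_true] at h
  exact permOf_mem_range (h e he)

/-! ### The commutator subgroup -/

section Main

variable {ls ls2 : List Level} (hc2 : chainCheck 8 255 256 ls2 = true) (hall : (nextGens ls2).all eltOK = true)
  (hcomp : compB 256 cmpI finI [] ls2 = true)

include hc2 hall hcomp

theorem range_eq : φ.range = chainGroup 8 255 256 ls2 := by
  apply le_antisymm
  · intro g hg
    exact le_chain_of_compB (K := φ.range) (cmp := cmpI) (fin := finI) hcmpI hfinI ls2 [] hc2
      (genGroup_le_range hall) hcomp (by simp) g hg (by simp)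
  · exact genGroup_le_range hall

theorem card_Iso : Nat.card Iso8 = chainOrder ls2 := by
  rw [← chain_card hc2, ← range_eq hc2 hall hcomp]
  exact Nat.card_congr (MonoidHom.ofInjective φ_injective).toEquiv

variable (hc : chainCheck 8 255 256 ls = true) (hsub : (nextGens ls).all eltOK = true)
  (hord : chainOrder ls2 = 2 * chainOrder ls) (hperf : commutator ↥(chainGroup 8 255 256 ls) = ⊤)

include hc hsub hord hperf

/-- The image of the commutator subgroup. -/
theorem map_commutator_eq : (commutator Iso8).map φ = chainGroup 8 255 256 ls := by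
  set H := chainGroup 8 255 256 ls with hH
  have hle : H ≤ φ.range := genGroup_le_range hsub
  set K := H.comap φ with hK
  have hKmap : K.map φ = H := Subgroup.map_comap_eq_self hle
  have hcardK : Nat.card K = Nat.card H := by
    rw [← hKmap]
    exact Nat.card_congr (Subgroup.equivMapOfInjective K φ φ_injective).toEquiv
  have hindex : K.index = 2 := by
    have h1 := K.index_mul_card
    rw [hcardK, card_Iso hc2 hall hcomp, chain_card hc, hord] at h1
    have hpos : 0 < chainOrder ls := by
      rw [← chain_card hc]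
      exact Nat.card_pos
    have h2 : K.index * chainOrder ls = 2 * chainOrder ls := h1
    exact Nat.eq_of_mul_eq_mul_right hpos h2
  have hle1 : commutator Iso8 ≤ K := by
    rw [commutator, Subgroup.commutator_le]
    intro a _ b _
    have h1 : ∀ x y : Iso8, x * y ∈ K ↔ (x ∈ K ↔ y ∈ K) := fun x y => Subgroup.mul_mem_iff_of_index_two hindex
    rw [commutatorElement_def, h1, h1, h1, K.inv_mem_iff, K.inv_mem_iff]
    tauto
  apply le_antisymm
  · rw [← hKmap]
    exact Subgroup.map_mono hle1
  · have h2 : H = ⁅H, H⁆ := by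
      have h3 := Subgroup.map_subtype_commutator H
      rw [hperf] at h3
      have h4 : (⊤ : Subgroup ↥H).map H.subtype = H := by
        rw [← MonoidHom.range_eq_map, Subgroup.range_subtype]
      rw [h4] at h3
      exact h3
    rw [h2, commutator, Subgroup.map_commutator]
    apply Subgroup.commutator_mono <;>
    · rw [← MonoidHom.range_eq_map]
      exact hle

/-- The commutator subgroup as a group of permutations. -/
theorem nonempty_omega : Nonempty (↥(commutator Iso8) ≃* ↥(chainGroup 8 255 256 ls)) :=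
  ⟨(Subgroup.equivMapOfInjective _ φ φ_injective).trans
    (MulEquiv.subgroupCongr (map_commutator_eq hc2 hall hcomp hc hsub hord hperf))⟩

end Main

/-- The check for the centre. -/
def centerOK (ls : List Level) : Bool :=
  match ls with
  | [] => false
  | l :: ls' =>
    l.trans.all (fun e => Nat.beq e.pt l.base ||
      (nextGens ls').any fun t => !(Nat.beq (get 8 255 t.f e.pt) e.pt)) &&
    unitsL.all fun u => (findPt u l.trans).isSome

theorem center_eq_bot {ls : List Level} (hc : chainCheck 8 255 256 ls = true) (hsub : (nextGens ls).all eltOK = true)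
    (hZ : centerOK ls = true) : Subgroup.center ↥(chainGroup 8 255 256 ls) = ⊥ := by
  cases ls with
  | nil => simp [centerOK] at hZ
  | cons l ls' =>
    simp only [centerOK, Bool.and_eq_true, List.all_eq_true, Bool.or_eq_true, List.any_eq_true, Bool.not_eq_true'] at hZ
    obtain ⟨hZ1, hZ2⟩ := hZ
    have hc' := hc
    simp only [chainCheck, Bool.and_eq_true] at hc'
    have hf := levelFacts hc'.1
    have hb := hf.base_lt
    rw [eq_bot_iff]
    rintro ⟨z, hz⟩ hzc
    rw [Subgroup.mem_center_iff] at hzc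
    have hcomm : ∀ g (hg : g ∈ chainGroup 8 255 256 (l :: ls')), g * z = z * g := fun g hg =>
      congrArg Subtype.val (hzc ⟨g, hg⟩)
    -- the base point is fixed
    obtain ⟨e, he, hze, _⟩ := chain_orbit hc hb hz
    have hfixb : (z ⟨l.base, hb⟩ : ℕ) = l.base := by
      rw [hze]
      rcases hZ1 e he with h | ⟨t, ht, hmove⟩
      · exact Nat.eq_of_beq_eq_true h
      · exfalso
        have hv := chain_gens_valid hc'.2
        rw [List.all_eq_true] at hv
        have htmem : permOf 8 255 256 t ∈ chainGroup 8 255 256 ls' := permOf_mem_genGroup ht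
        have htH := chainGroup_le hc'.1 hc'.2 htmem
        have h1 := hcomm _ htH
        have h2 := next_fixes hc'.1 hc'.2 hb _ htmem
        have h3 : (permOf 8 255 256 t) (z ⟨l.base, hb⟩) = z ⟨l.base, hb⟩ := by
          have h4 := congrArg (fun f : Equiv.Perm (Fin 256) => f ⟨l.base, hb⟩) h1
          simp only [Equiv.Perm.mul_apply] at h4
          rw [h4]
          congr 1
        have h5 := congrArg Fin.val h3
        rw [permOf_apply (hv t ht), hze] at h5
        rw [h5] at hmove
        simp at hmove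
    have hfixb' : z ⟨l.base, hb⟩ = ⟨l.base, hb⟩ := Fin.ext hfixb
    -- the transversal points are fixed
    have hfixe : ∀ e ∈ l.trans, ∀ (hlt : e.pt < 256), (z ⟨e.pt, hlt⟩ : ℕ) = e.pt := by
      intro e he hlt
      have h1 := hcomm _ (hf.trans_mem e he)
      have h2 : (permOf 8 255 256 e.u ⟨l.base, hb⟩ : ℕ) = e.pt := by
        rw [permOf_apply (hf.trans_valid e he)]
        exact hf.trans_pt e he
      have h3 : (permOf 8 255 256 e.u ⟨l.base, hb⟩) = ⟨e.pt, hlt⟩ := Fin.ext h2
      have h4 := congrArg (fun f : Equiv.Perm (Fin 256) => f ⟨l.base, hb⟩) h1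
      simp only [Equiv.Perm.mul_apply, hfixb', h3] at h4
      rw [← h4]
    have hle := genGroup_le_range hsub
    obtain ⟨A, rfl⟩ := hle hz
    rw [Subgroup.mem_bot]
    apply Subtype.ext
    apply eq_one_of_fix
    intro u hu hm
    obtain ⟨e, he⟩ := Option.isSome_iff_exists.1 (hZ2 u hm)
    obtain ⟨he1, he2⟩ := findPt_some he
    subst he2
    exact hfixe e he1 hu

/-! ### Other fields -/

section Transport

variable {A B : Type*} [Group A] [Group B]

/-- The commutator subgroups along an isomorphism. -/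
noncomputable def commCongr (e : A ≃* B) : ↥(commutator A) ≃* ↥(commutator B) :=
  (e.subgroupMap (commutator A)).trans (MulEquiv.subgroupCongr (by
    show (commutator A).map e.toMonoidHom = commutator B
    rw [commutator, Subgroup.map_commutator, commutator, Subgroup.map_top_of_surjective _ e.surjective]))

/-- The quotients by the centres along an isomorphism. -/
noncomputable def quotCongr (e : A ≃* B) : (A ⧸ Subgroup.center A) ≃* (B ⧸ Subgroup.center B) :=
  QuotientGroup.congr _ _ e (Cfsg.Agent.Lib.Compute.SmallField.map_center_eq e)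

theorem center_bot_of_equiv (e : A ≃* B) (h : Subgroup.center B = ⊥) : Subgroup.center A = ⊥ := by
  have h1 := Cfsg.Agent.Lib.Compute.SmallField.map_center_eq e
  rw [h] at h1
  exact (Subgroup.map_eq_bot_iff_of_injective _ e.injective).1 h1

end Transport

/-- The simple group over any field with two elements. -/
theorem nonempty_equiv {F : Type*} [Field F] [Fintype F] (hF : Fintype.card F = 2) {ls ls2 : List Level}
    (hc2 : chainCheck 8 255 256 ls2 = true) (hall : (nextGens ls2).all eltOK = true)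
    (hcomp : compB 256 cmpI finI [] ls2 = true)
    (hc : chainCheck 8 255 256 ls = true) (hsub : (nextGens ls).all eltOK = true)
    (hord : chainOrder ls2 = 2 * chainOrder ls) (hperf : commutator ↥(chainGroup 8 255 256 ls) = ⊤)
    (hZ : centerOK ls = true) :
    Nonempty (↥(chainGroup 8 255 256 ls) ≃* Cfsg.POmega F (quadFormPlus 4 F)) := by
  have σ : ZMod 2 ≃+* F := (ZMod.ringEquivOfPrime F (p := 2) Nat.prime_two hF)
  have hQ : ∀ v : V8, quadFormPlus 4 F (σ ∘ v) = σ (Qf v) := by
    intro v
    simp [quadFormPlus, map_sum, map_mul]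
  let e1 : Iso8 ≃* ↥(isometryGroup F (quadFormPlus 4 F)) :=
    Cfsg.Agent.Lib.Compute.OrthTransport.isometryCongr σ Qf (quadFormPlus 4 F) hQ
  obtain ⟨e2⟩ := nonempty_omega hc2 hall hcomp hc hsub hord hperf
  let e3 : ↥(commutator Iso8) ≃* Cfsg.Omega F (quadFormPlus 4 F) := commCongr e1
  have hZ1 := center_eq_bot hc hsub hZ
  have hZ2 : Subgroup.center ↥(commutator Iso8) = ⊥ := center_bot_of_equiv e2 hZ1
  refine ⟨e2.symm.trans (e3.trans ?_)⟩
  have hZ3 : Subgroup.center (Cfsg.Omega F (quadFormPlus 4 F)) = ⊥ := center_bot_of_equiv e3.symm hZ2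
  unfold Cfsg.POmega
  exact (QuotientGroup.quotientBot.symm).trans (QuotientGroup.quotientMulEquivOfEq hZ3.symm)

end Cfsg.Agent.Lib.Compute.Schur2.O8Two
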