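import Mathlib
import Cfsg.Agent.Lib.Compute.Schur2.Cover
import Cfsg.Agent.Lib.Compute.Schur2.Parts

/-!
# Sections from totally isotropic planes

Let `a` be an involution of a group `X`, and `b` an element commuting with `a` with four conjugates of `b` under the
centralizer of `a` such that the product of `b` with them is trivial.  Then, in a central extension of `X`, lifts of
`a` and `b` commute: the commutator is central, its square is trivial, and so is its fifth power.

This applies to commuting transvections in unitary groups with a totally isotropic plane: the product of the five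
transvections on the points of a totally isotropic line is trivial.
-/

set_option autoImplicit false

namespace Cfsg.Agent.Lib.Compute.Schur2.Plane

open Cfsg Cfsg.Agent.Lib.Compute.SchurLin Cfsg.Agent.Lib.Compute.Schur2 Cfsg.Agent.Lib.Compute.Schur2.Cover
open Cfsg.Agent.Lib.Compute.ToddCoxeterCore (wordEl wordEl_nil wordEl_cons wordEl_append)
open Cfsg.Agent.Lib.Compute.PermCert (allB allB_iff)

/-- Lifts of commuting elements with a line of conjugates commute. -/
theorem comm_of_plane {Γ X : Type*} [Group Γ] [Group X] (σ : Γ →* X) (hs : Function.Surjective σ)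
    (hc : σ.ker ≤ Subgroup.center Γ) {a b T1 T2 T3 T4 : X} (ha2 : a * a = 1)
    (h1 : a * T1 = T1 * a) (h2 : a * T2 = T2 * a) (h3 : a * T3 = T3 * a) (h4 : a * T4 = T4 * a)
    (hab : a * b = b * a)
    (hprod : (T4⁻¹ * b * T4) * (T3⁻¹ * b * T3) * (T2⁻¹ * b * T2) * (T1⁻¹ * b * T1) * b = 1)
    {A B : Γ} (hA : σ A = a) (hB : σ B = b) : A * B = B * A := by
  have hcen : ∀ {x : Γ}, σ x = 1 → ∀ y : Γ, y * x = x * y := fun {x} hx y =>
    Subgroup.mem_center_iff.mp (hc (MonoidHom.mem_ker.mpr hx)) y
  set c : Γ := A * B * A⁻¹ * B⁻¹ with hcdef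
  have hcc : σ c = 1 := by
    simp only [hcdef, map_mul, map_inv, hA, hB]
    rw [hab]
    group
  have hC := hcen hcc
  have hCn : ∀ (n : ℕ) (y : Γ), y * c ^ n = c ^ n * y := fun n y =>
    ((show Commute y c from hC y).pow_right n).eq
  have hAB : A * B = c * (B * A) := by
    rw [hcdef]
    group
  have step : ∀ T : X, a * T = T * a → ∀ S : Γ, σ S = T →
      A * (S⁻¹ * B * S) = c * ((S⁻¹ * B * S) * A) := by
    intro T hT S hS
    set B' : Γ := S⁻¹ * B * S with hB'
    set A' : Γ := S⁻¹ * A * S with hA'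
    set k : Γ := A⁻¹ * A' with hk
    have hk1 : σ k = 1 := by
      simp only [hk, hA', map_mul, map_inv, hA, hS]
      have : T⁻¹ * a * T = a := by
        rw [mul_assoc, hT]
        group
      rw [this]
      group
    have hK := hcen hk1
    have e1 : A' * B' = c * (B' * A') := by
      calc A' * B' = S⁻¹ * (A * B) * S := by rw [hA', hB']; group
        _ = S⁻¹ * (c * (B * A)) * S := by rw [hAB]
        _ = (S⁻¹ * c) * (B * A) * S := by group
        _ = (c * S⁻¹) * (B * A) * S := by rw [hC S⁻¹]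
        _ = c * (B' * A') := by rw [hA', hB']; group
    have e2 : A' = A * k := by
      rw [hk]
      group
    rw [e2] at e1
    have e3 : (A * B') * k = (c * (B' * A)) * k := by
      calc (A * B') * k = A * (B' * k) := by group
        _ = A * (k * B') := by rw [hK B']
        _ = A * k * B' := by group
        _ = c * (B' * (A * k)) := e1
        _ = (c * (B' * A)) * k := by group
    exact mul_right_cancel e3
  have push : ∀ {x y : Γ} {i j : ℕ}, A * x = c ^ i * (x * A) → A * y = c ^ j * (y * A) →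
      A * (x * y) = c ^ (i + j) * ((x * y) * A) := by
    intro x y i j hx hy
    calc A * (x * y) = (A * x) * y := by group
      _ = (c ^ i * (x * A)) * y := by rw [hx]
      _ = c ^ i * (x * (A * y)) := by group
      _ = c ^ i * (x * (c ^ j * (y * A))) := by rw [hy]
      _ = c ^ i * ((x * c ^ j) * (y * A)) := by group
      _ = c ^ i * ((c ^ j * x) * (y * A)) := by rw [hCn j x]
      _ = c ^ (i + j) * ((x * y) * A) := by rw [pow_add]; group
  obtain ⟨S1, hS1⟩ := hs T1
  obtain ⟨S2, hS2⟩ := hs T2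
  obtain ⟨S3, hS3⟩ := hs T3
  obtain ⟨S4, hS4⟩ := hs T4
  have k1 : A * (S1⁻¹ * B * S1) = c ^ 1 * ((S1⁻¹ * B * S1) * A) := by
    rw [pow_one]
    exact step T1 h1 S1 hS1
  have k2 : A * (S2⁻¹ * B * S2) = c ^ 1 * ((S2⁻¹ * B * S2) * A) := by
    rw [pow_one]
    exact step T2 h2 S2 hS2
  have k3 : A * (S3⁻¹ * B * S3) = c ^ 1 * ((S3⁻¹ * B * S3) * A) := by
    rw [pow_one]
    exact step T3 h3 S3 hS3
  have k4 : A * (S4⁻¹ * B * S4) = c ^ 1 * ((S4⁻¹ * B * S4) * A) := by
    rw [pow_one]
    exact step T4 h4 S4 hS4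
  have k0 : A * B = c ^ 1 * (B * A) := by
    rw [pow_one]
    exact hAB
  have hall := push (push (push (push k4 k3) k2) k1) k0
  set κ : Γ := (S4⁻¹ * B * S4) * (S3⁻¹ * B * S3) * (S2⁻¹ * B * S2) * (S1⁻¹ * B * S1) * B with hκ
  have hκ1 : σ κ = 1 := by
    simp only [hκ, map_mul, map_inv, hB, hS1, hS2, hS3, hS4]
    exact hprod
  have hK := hcen hκ1 A
  have h5 : c ^ (1 + 1 + 1 + 1 + 1) = 1 := by
    have e : c ^ (1 + 1 + 1 + 1 + 1) * (κ * A) = 1 * (κ * A) := by
      rw [← hall, hK, one_mul]
    exact mul_right_cancel e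
  have hAA : σ (A * A) = 1 := by
    rw [map_mul, hA]
    exact ha2
  have h22 : c * c = 1 := by
    have e1 := hcen hAA B
    have e2 : (A * A) * B = (c * c) * (B * (A * A)) := by
      calc (A * A) * B = A * (A * B) := by group
        _ = A * (c * (B * A)) := by rw [hAB]
        _ = (A * c) * (B * A) := by group
        _ = (c * A) * (B * A) := by rw [hC A]
        _ = c * ((A * B) * A) := by group
        _ = c * ((c * (B * A)) * A) := by rw [hAB]
        _ = (c * c) * (B * (A * A)) := by group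
    rw [← e1] at e2
    have e3 : 1 * (B * (A * A)) = (c * c) * (B * (A * A)) := by
      rw [one_mul]
      exact e2
    exact (mul_right_cancel e3).symm
  have hc1 : c = 1 := by
    have e : c ^ (1 + 1 + 1 + 1 + 1) = c * (c * c) * (c * c) := by
      simp only [pow_succ, pow_zero, one_mul]
      group
    rw [e, h22, mul_one, mul_one] at h5
    exact h5
  rw [hAB, hc1, one_mul]

/-! ### Perfect cores -/

section Core

variable {Γ G : Type} [Group Γ] [Group G]

/-- The perfect core of the preimage of a perfect subgroup. -/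
theorem exists_core [Finite Γ] (σ : Γ →* G) (hs : Function.Surjective σ)
    (hc : σ.ker ≤ Subgroup.center Γ) (L : Subgroup G) (hL : commutator L = ⊤) :
    ∃ (D : Subgroup Γ) (τ : D →* L), IsStemExtension τ ∧ ∀ x : D, ((τ x : L) : G) = σ x := by
  set E : Subgroup Γ := L.comap σ with hE
  set D : Subgroup Γ := ⁅E, E⁆ with hD
  have hLL : ⁅L, L⁆ = L := by
    have h1 := Subgroup.map_subtype_commutator L
    rw [hL] at h1
    rw [← h1]
    ext x
    simp
  have hEmap : E.map σ = L := Subgroup.map_comap_eq_self_of_surjective hs L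
  have hDmap : D.map σ = L := by
    rw [hD, Subgroup.map_commutator, hEmap, hLL]
  have hdec : ∀ e ∈ E, ∃ d ∈ D, ∃ z ∈ σ.ker, e = d * z := by
    intro e he
    have h1 : σ e ∈ D.map σ := by rw [hDmap]; exact he
    obtain ⟨d, hd, hde⟩ := h1
    refine ⟨d, hd, d⁻¹ * e, ?_, by group⟩
    rw [MonoidHom.mem_ker, map_mul, map_inv, hde, inv_mul_cancel]
  have hDD : D ≤ ⁅D, D⁆ := by
    show ⁅E, E⁆ ≤ ⁅D, D⁆
    rw [Subgroup.commutator_le]
    intro a ha b hb
    obtain ⟨d, hd, z, hz, rfl⟩ := hdec a ha
    obtain ⟨f, hf, y, hy, rfl⟩ := hdec b hb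
    rw [commutatorElement_def, comm_central_mul d f z y (hc hz) (hc hy)]
    have h5 := Subgroup.commutator_mem_commutator hd hf
    rwa [commutatorElement_def] at h5
  let τ : D →* L := (σ.comp D.subtype).codRestrict L (fun x => by
    have : σ x ∈ D.map σ := ⟨x, x.2, rfl⟩
    rw [hDmap] at this
    exact this)
  have hτs : Function.Surjective τ := by
    rintro ⟨l, hl⟩
    rw [← hDmap] at hl
    obtain ⟨d, hd, rfl⟩ := hl
    exact ⟨⟨d, hd⟩, Subtype.ext rfl⟩
  refine ⟨D, τ, ⟨hτs, ?_, ?_⟩, fun _ => rfl⟩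
  · intro x hx
    have h1 : σ (x : Γ) = 1 := congrArg Subtype.val (MonoidHom.mem_ker.mp hx)
    have h2 := Subgroup.mem_center_iff.mp (hc (MonoidHom.mem_ker.mpr h1))
    rw [Subgroup.mem_center_iff]
    intro y
    apply Subtype.ext
    exact h2 y
  · have h1 : commutator D = ⊤ := by
      apply Subgroup.map_injective D.subtype_injective
      rw [Subgroup.map_subtype_commutator]
      ext x
      simp only [Subgroup.mem_map, Subgroup.mem_top, true_and, Subgroup.subtype_apply]
      constructor
      · intro hx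
        exact ⟨⟨x, comm_le_self D hx⟩, rfl⟩
      · rintro ⟨y, rfl⟩
        exact hDD y.2
    rw [h1]
    exact le_top

end Core

/-! ### Nested tables -/

section Nest

variable {X : Type} [Group X] [Finite X] {el : ℕ → X} {c : TC} {D : ℕ}

/-- The generators of the subgroup of a table with a nested table. -/
theorem nest_data {c' : TC} {mp : ℕ → ℕ} (hf : TC.Sound.{0} c) (hSB : SubBound.{0} c D)
    (hnest : nestB c c' mp = true)
    (hrel : ∀ k < c.nrel, wordEl (ltr el) (c.W.getD k []) = 1)
    (hgen : ∀ x : X, x ∈ Subgroup.closure (el '' Set.Iio c.n)) (hcard : Nat.card X = c.N * D) :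
    ∃ el' : ℕ → subL c el, (∀ k < c'.nrel, wordEl (ltr el') (c'.W.getD k []) = 1) ∧
      (∀ q : subL c el, q ∈ Subgroup.closure (el' '' Set.Iio c'.n)) ∧ Nat.card (subL c el) = D ∧
      ∀ w : List ℕ, ((wordEl (ltr el') w : subL c el) : X) = wordEl (ltr el) (substW (c.W.drop c.nrel) w) := by
  classical
  simp only [nestB, Bool.and_eq_true, beq_iff_eq, allB_iff, decide_eq_true_eq] at hnest
  obtain ⟨h1, h2⟩ := hnest
  set sub := c.W.drop c.nrel with hsub
  have hget : ∀ j, sub.getD j [] = c.W.getD (c.nrel + j) [] := by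
    intro j
    rw [hsub]
    simp only [List.getD_eq_getElem?_getD, List.getElem?_drop]
  have hmem : ∀ j, subV el sub j ∈ subL c el := by
    intro j
    unfold subV
    rw [hget]
    exact subL_mem (by omega)
  let el' : ℕ → subL c el := fun j => ⟨subV el sub j, hmem j⟩
  have hcoe : ∀ w : List ℕ, ((wordEl (ltr el') w : subL c el) : X) = wordEl (ltr (subV el sub)) w := by
    intro w
    exact map_wordEl_ltr (subL c el).subtype el' w
  have hrel' : ∀ k < c'.nrel, wordEl (ltr el') (c'.W.getD k []) = 1 := by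
    intro k hk
    apply Subtype.ext
    rw [hcoe, ← wordEl_substW, ← (h2 k hk).2]
    exact hrel _ (h2 k hk).1
  have hclo : subL c el = Subgroup.closure (subV el sub '' Set.Iio c'.n) := by
    apply le_antisymm
    · rw [subL, Subgroup.closure_le]
      rintro _ ⟨k, hk, rfl⟩
      rcases Nat.lt_or_ge (k - c.nrel) c'.n with hk2 | hk2
      · have : c.W.getD k [] = sub.getD (k - c.nrel) [] := by
          rw [hget]
          congr 1
          omega
        rw [this]
        exact Subgroup.subset_closure ⟨_, hk2, rfl⟩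
      · have h3 : c.W.getD k [] = [] := by
          have : sub.getD (k - c.nrel) [] = [] := List.getD_eq_default _ _ (by omega)
          rw [hget] at this
          have h4 : c.nrel + (k - c.nrel) = k := by omega
          rwa [h4] at this
        rw [h3]
        exact one_mem _
    · rw [Subgroup.closure_le]
      rintro _ ⟨j, _, rfl⟩
      exact hmem j
  have hgen' : ∀ q : subL c el, q ∈ Subgroup.closure (el' '' Set.Iio c'.n) := by
    intro q
    have h3 : (Subgroup.closure (el' '' Set.Iio c'.n)).map (subL c el).subtype = subL c el := by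
      rw [MonoidHom.map_closure, ← Set.image_comp]
      exact hclo.symm
    have h4 : (q : X) ∈ (Subgroup.closure (el' '' Set.Iio c'.n)).map (subL c el).subtype := by
      rw [h3]
      exact q.2
    obtain ⟨y, hy, hyq⟩ := h4
    have : y = q := Subtype.ext hyq
    rwa [this] at hy
  refine ⟨el', hrel', hgen', subL_card_eq hf hSB hrel hgen hcard, fun w => ?_⟩
  rw [hcoe, wordEl_substW]

/-- **Sections over a subgroup with a table over a subgroup with a cover**, the lifts of the pair commuting. -/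
theorem hasSec_of_plane {c5 c4 : TC} {mp mp' : ℕ → ℕ} {w1 w2 : List ℕ}
    (hf : TC.Sound.{0} c) (hSB : SubBound.{0} c (c5.N * D)) (hnest : nestB c c5 mp = true)
    (hrel : ∀ k < c.nrel, wordEl (ltr el) (c.W.getD k []) = 1)
    (hgen : ∀ x : X, x ∈ Subgroup.closure (el '' Set.Iio c.n)) (hcard : Nat.card X = c.N * (c5.N * D))
    (hf5 : TC.Sound.{0} c5) (hSB5 : SubBound.{0} c5 D) (hnest5 : nestB c5 c4 mp' = true)
    (hnn5 : c5.n ≤ c5.nrel) (hnorm5 : normB c5.n c5.W = true)
    (u : UP) (hn : u.n = c5.n) (hN : u.N = c5.N) (ht : u.t = c5.t) (hpar : u.par = c5.par) (hlt : u.lt = c5.lt)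
    {m : ℕ} (hWu : u.W = c5.W.take m) (hm : m ≤ c5.nrel)
    (hnormU : normB u.n u.W = true)
    (he : u.e = u.n) (hM : u.M = c5.N)
    (hu : u.check = true) (d : UP.Tail) (hords : d.ords = []) (hd : UP.tailCheck u d = true)
    (hCov : CoverProp c4 D w1 w2)
    (hq : wordEl (ltr el) (substW (c.W.drop c.nrel) (substW (c5.W.drop c5.nrel) w1)) *
        wordEl (ltr el) (substW (c.W.drop c.nrel) (substW (c5.W.drop c5.nrel) w2)) =
      wordEl (ltr el) (substW (c.W.drop c.nrel) (substW (c5.W.drop c5.nrel) w2)) *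
        wordEl (ltr el) (substW (c.W.drop c.nrel) (substW (c5.W.drop c5.nrel) w1)))
    (hcomm : ∀ (Γ : Type) [Group Γ] (σ : Γ →* X), Function.Surjective σ → σ.ker ≤ Subgroup.center Γ →
      ∀ a b : Γ, σ a = wordEl (ltr el) (substW (c.W.drop c.nrel) (substW (c5.W.drop c5.nrel) w1)) →
        σ b = wordEl (ltr el) (substW (c.W.drop c.nrel) (substW (c5.W.drop c5.nrel) w2)) → a * b = b * a) :
    HasSec c el := by
  classical
  intro Γ _ _ σ hstem
  obtain ⟨el5, hrel5, hgen5, hc5, hcoe5⟩ := nest_data hf hSB hnest hrel hgen hcard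
  have hperf5 := perfect_of_norm hnorm5 hf5.hW hrel5 hnn5 hgen5
  obtain ⟨D5, τ5, hτ5, hτ5c⟩ := exists_core σ hstem.1 hstem.2.1 (subL c el) hperf5
  obtain ⟨el4, hrel4, hgen4, hc4, hcoe4⟩ := nest_data hf5 hSB5 hnest5 hrel5 hgen5 hc5
  have hval : ∀ w : List ℕ, (((wordEl (ltr el4) w : subL c5 el5) : subL c el) : X) =
      wordEl (ltr el) (substW (c.W.drop c.nrel) (substW (c5.W.drop c5.nrel) w)) := by
    intro w
    rw [hcoe4, hcoe5]
  have hq4 : wordEl (ltr el4) w1 * wordEl (ltr el4) w2 = wordEl (ltr el4) w2 * wordEl (ltr el4) w1 := by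
    apply Subtype.ext
    apply Subtype.ext
    simp only [Subgroup.coe_mul]
    rw [hval, hval]
    exact hq
  obtain ⟨hperf4, hT4⟩ := hCov (subL c5 el5) el4 hrel4 hgen4 hc4 hq4
  obtain ⟨D4, τ4, hτ4, hτ4c⟩ := exists_core τ5 hτ5.1 hτ5.2.1 (subL c5 el5) hperf4
  have hinj4 : Function.Injective τ4 := hT4 D4 τ4 hτ4 (by
    intro a b ha hb
    have h1 : σ (((a : D5)) : Γ) = wordEl (ltr el) (substW (c.W.drop c.nrel) (substW (c5.W.drop c5.nrel) w1)) := by
      rw [← hτ5c, ← hτ4c, ha, hval]
    have h2 : σ (((b : D5)) : Γ) = wordEl (ltr el) (substW (c.W.drop c.nrel) (substW (c5.W.drop c5.nrel) w2)) := by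
      rw [← hτ5c, ← hτ4c, hb, hval]
    have h3 := hcomm Γ σ hstem.1 hstem.2.1 _ _ h1 h2
    exact Subtype.ext (Subtype.ext h3))
  let e4 : D4 ≃* subL c5 el5 := MulEquiv.ofBijective τ4 ⟨hinj4, hτ4.1⟩
  let s4 : subL c5 el5 →* D5 := D4.subtype.comp e4.symm.toMonoidHom
  have hs4 : ∀ l, τ5 (s4 l) = l := by
    intro l
    have h1 : τ4 (e4.symm l) = l := e4.apply_symm_apply l
    have h2 := hτ4c (e4.symm l)
    rw [h1] at h2
    exact h2.symm
  have hrelU : ∀ k < u.W.length, wordEl (ltr el5) (u.W.getD k []) = 1 := by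
    intro k hk
    rw [hWu] at hk ⊢
    have hk1 : k < m := by
      rw [List.length_take] at hk
      omega
    have : (c5.W.take m).getD k [] = c5.W.getD k [] := by
      simp only [List.getD_eq_getElem?_getD, List.getElem?_take, if_pos hk1]
    rw [this]
    exact hrel5 k (lt_of_lt_of_le hk1 hm)
  have h1 := upper_main c5 hf5 hrel5 (fun _ hk => subL_mem hk) hgen5 hc5 (subL_card_le hSB5 hrel5) u hn hN ht hpar hlt
    hrelU hnormU he hM hu d hd hτ5 s4 hs4
  rw [hords] at h1
  have hinj5 : Function.Injective τ5 := by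
    rw [injective_iff_map_eq_one]
    intro a ha
    have := @UP.Gen.trivial τ5.ker (kerComm hτ5.2.1) h1 ⟨a, ha⟩
    exact congrArg Subtype.val this
  let e5 : D5 ≃* subL c el := MulEquiv.ofBijective τ5 ⟨hinj5, hτ5.1⟩
  refine ⟨D5.subtype.comp e5.symm.toMonoidHom, fun l => ?_⟩
  have h5 : τ5 (e5.symm l) = l := e5.apply_symm_apply l
  have h6 := hτ5c (e5.symm l)
  rw [h5] at h6
  exact h6.symm

end Nest

end Cfsg.Agent.Lib.Compute.Schur2.Plane
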