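import Mathlib
import Cfsg.Agent.Lib.Classical.Herm.Simple
import Cfsg.Agent.Lib.Classical.Herm.SU
import Cfsg.Agent.Lib.Compute.GFModel
import Cfsg.Agent.Lib.Compute.PermCert
import Cfsg.Agent.Lib.Compute.SU3Two
import Cfsg.Agent.Lib.Compute.Schur2.SU35Tab

/-!
# The group `PSU₃(5)` as a group of permutations of the 126 isotropic points
-/

set_option autoImplicit false
set_option maxRecDepth 1000000

namespace Cfsg.Agent.Lib.Compute.Schur2.SU35

open Cfsg Cfsg.Agent.Lib.Compute.GFModel Cfsg.Agent.Lib.Compute.PermCert Cfsg.Agent.Lib.Compute.Schur2.SU35Tab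
open Cfsg.Agent.Lib.Classical.Herm.Basic Cfsg.Agent.Lib.Classical.Herm.Form Cfsg.Agent.Lib.Classical.Herm.GU
open Cfsg.Agent.Lib.Classical.Herm.SU
open scoped Matrix

/-- The field. -/
abbrev K9 : Type := GF25
/-- The vectors. -/
abbrev V4 : Type := Fin 3 → K9
/-- The group. -/
abbrev SU4 : Type := SU 3 K9 5

/-- The code of a field element. -/
abbrev e9 : K9 → ℕ := gf25.enc
/-- The field element of a code. -/
abbrev d9 : ℕ → K9 := gf25.dec
/-- Product of codes. -/
abbrev mN : ℕ → ℕ → ℕ := gf25.mulN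
/-- Sum of codes. -/
abbrev aN : ℕ → ℕ → ℕ := gf25.addN

theorem e9_lt (x : K9) : e9 x < 25 := gf25.enc_lt x

/-- A base twenty-five digit. -/
def dg (c j : ℕ) : ℕ := Nat.mod (Nat.div c (Nat.pow 25 j)) 25

theorem dg_lt (c j : ℕ) : dg c j < 25 := Nat.mod_lt _ (by norm_num)

/-- Three digits. -/
def pk (a b c : ℕ) : ℕ := a + 25 * b + 625 * c

/-- The code of a vector. -/
def enc4 (v : V4) : ℕ := pk (e9 (v 0)) (e9 (v 1)) (e9 (v 2))

/-- The vector of a code. -/
def dec4 (c : ℕ) : V4 := fun j => d9 (dg c j)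

theorem dg_pk {a b c : ℕ} (ha : a < 25) (hb : b < 25) (hc : c < 25) :
    dg (pk a b c) 0 = a ∧ dg (pk a b c) 1 = b ∧ dg (pk a b c) 2 = c := by
  have e0 : dg (pk a b c) 0 = (a + 25 * b + 625 * c) / 1 % 25 := rfl
  have e1 : dg (pk a b c) 1 = (a + 25 * b + 625 * c) / 25 % 25 := rfl
  have e2 : dg (pk a b c) 2 = (a + 25 * b + 625 * c) / 625 % 25 := rfl
  rw [e0, e1, e2]
  omega

theorem dg_enc4 (v : V4) (j : Fin 3) : dg (enc4 v) j = e9 (v j) := by
  obtain ⟨h0, h1, h2⟩ := dg_pk (e9_lt (v 0)) (e9_lt (v 1)) (e9_lt (v 2))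
  fin_cases j
  · exact h0
  · exact h1
  · exact h2

theorem dec4_enc4 (v : V4) : dec4 (enc4 v) = v := by
  funext j
  show d9 (dg (enc4 v) j) = v j
  rw [dg_enc4]
  exact gf25.dec_enc _

theorem enc4_dec4 {c : ℕ} (hc : c < 15625) : enc4 (dec4 c) = c := by
  have e (j : ℕ) : e9 (d9 (dg c j)) = dg c j := gf25.enc_dec _ (dg_lt c j)
  show pk (e9 (d9 (dg c 0))) (e9 (d9 (dg c 1))) (e9 (d9 (dg c 2))) = c
  rw [e, e, e]
  have e0 : dg c 0 = c / 1 % 25 := rfl
  have e1 : dg c 1 = c / 25 % 25 := rfl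
  have e2 : dg c 2 = c / 625 % 25 := rfl
  rw [e0, e1, e2]
  unfold pk
  omega

theorem enc4_inj {u v : V4} (h : enc4 u = enc4 v) : u = v := by
  rw [← dec4_enc4 u, h, dec4_enc4]

/-- The fifth power of a code. -/
def cbN (x : ℕ) : ℕ := mN x (mN x (mN x (mN x x)))

/-- The form on codes. -/
def hN (a b : ℕ) : ℕ :=
  aN (aN (mN (dg a 0) (cbN (dg b 0))) (mN (dg a 1) (cbN (dg b 1)))) (mN (dg a 2) (cbN (dg b 2)))

theorem enc_cube (x : K9) : e9 (x ^ 5) = cbN (e9 x) := by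
  rw [show x ^ 5 = x * (x * (x * (x * x))) by ring]
  show gf25.enc (x * (x * (x * (x * x)))) = _
  rw [gf25.enc_mul, gf25.enc_mul, gf25.enc_mul, gf25.enc_mul]
  rfl

theorem enc_herm (u v : V4) : e9 (hermForm 3 K9 5 u v) = hN (enc4 u) (enc4 v) := by
  unfold hermForm hN
  rw [Fin.sum_univ_three]
  have h0 := dg_enc4 u 0
  have h1 := dg_enc4 u 1
  have h2 := dg_enc4 u 2
  have k0 := dg_enc4 v 0
  have k1 := dg_enc4 v 1
  have k2 := dg_enc4 v 2
  simp only [Fin.val_zero, Fin.val_one, Fin.val_two] at h0 h1 h2 k0 k1 k2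
  rw [h0, h1, h2, k0, k1, k2]
  show gf25.enc _ = _
  rw [gf25.enc_add, gf25.enc_add, gf25.enc_mul, gf25.enc_mul, gf25.enc_mul]
  rw [show gf25.enc (u 0) = e9 (u 0) from rfl, show gf25.enc (v 0 ^ 5) = e9 (v 0 ^ 5) from rfl, enc_cube]
  rw [show gf25.enc (v 1 ^ 5) = e9 (v 1 ^ 5) from rfl, enc_cube]
  rw [show gf25.enc (v 2 ^ 5) = e9 (v 2 ^ 5) from rfl, enc_cube]

/-- A scalar times a vector, on codes. -/
def sN (t c : ℕ) : ℕ := pk (mN t (dg c 0)) (mN t (dg c 1)) (mN t (dg c 2))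

theorem enc_smul (t : K9) (v : V4) : enc4 (t • v) = sN (e9 t) (enc4 v) := by
  unfold enc4 sN
  have h0 := dg_enc4 v 0
  have h1 := dg_enc4 v 1
  have h2 := dg_enc4 v 2
  simp only [Fin.val_zero, Fin.val_one, Fin.val_two] at h0 h1 h2
  unfold enc4 at h0 h1 h2
  rw [h0, h1, h2]
  simp only [Pi.smul_apply, smul_eq_mul]
  show pk (gf25.enc _) (gf25.enc _) (gf25.enc _) = _
  rw [gf25.enc_mul, gf25.enc_mul, gf25.enc_mul]

/-- The number of a matrix entry. -/
def ent (mc r s : ℕ) : ℕ := dg mc (3 * r + s)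

/-- The matrix of a code. -/
def matOf (mc : ℕ) : Matrix (Fin 3) (Fin 3) K9 := fun r s => d9 (ent mc r s)

theorem e9_ent (mc : ℕ) (r s : ℕ) : e9 (d9 (ent mc r s)) = ent mc r s := gf25.enc_dec _ (dg_lt _ _)

/-- A row of a matrix times a vector. -/
def rowN (mc r c : ℕ) : ℕ :=
  aN (aN (mN (ent mc r 0) (dg c 0)) (mN (ent mc r 1) (dg c 1))) (mN (ent mc r 2) (dg c 2))

/-- A matrix times a vector. -/
def mvN (mc c : ℕ) : ℕ := pk (rowN mc 0 c) (rowN mc 1 c) (rowN mc 2 c)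

theorem enc_row (mc : ℕ) (v : V4) (r : Fin 3) : e9 ((matOf mc *ᵥ v) r) = rowN mc r (enc4 v) := by
  have h0 : dg (enc4 v) 0 = e9 (v 0) := dg_enc4 v 0
  have h1 : dg (enc4 v) 1 = e9 (v 1) := dg_enc4 v 1
  have h2 : dg (enc4 v) 2 = e9 (v 2) := dg_enc4 v 2
  unfold rowN
  rw [h0, h1, h2]
  simp only [Matrix.mulVec, dotProduct, Fin.sum_univ_three]
  show gf25.enc _ = _
  rw [gf25.enc_add, gf25.enc_add, gf25.enc_mul, gf25.enc_mul, gf25.enc_mul]
  have e0 : gf25.enc (matOf mc r 0) = ent mc r 0 := e9_ent mc r 0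
  have e1 : gf25.enc (matOf mc r 1) = ent mc r 1 := e9_ent mc r 1
  have e2 : gf25.enc (matOf mc r 2) = ent mc r 2 := e9_ent mc r 2
  rw [e0, e1, e2]

theorem enc_mv (mc : ℕ) (v : V4) : enc4 (matOf mc *ᵥ v) = mvN mc (enc4 v) := by
  unfold enc4 mvN
  rw [enc_row, enc_row, enc_row]
  rfl

/-- The code of a point. -/
def pc (i : ℕ) : ℕ := get 14 16383 ptT i
/-- The index of a vector. -/
def ix (c : ℕ) : ℕ := get 7 127 ixT c

/-- The nonzero scalars. -/
def units : List ℕ := [1, 2, 3, 4, 5, 6, 7, 8, 9, 10, 11, 12, 13, 14, 15, 16, 17, 18, 19, 20, 21, 22, 23, 24]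

/-- The check of a point. -/
def pointB (i : ℕ) : Bool :=
  Nat.blt (pc i) 15625 && Nat.beq (ix (pc i)) i && Nat.beq (hN (pc i) (pc i)) 0 && !(Nat.beq (pc i) 0) &&
    units.all fun t => Nat.beq (ix (sN t (pc i))) i

/-- The check of a vector. -/
def vecB (c : ℕ) : Bool :=
  Nat.beq c 0 || !(Nat.beq (hN c c) 0) || (Nat.blt (ix c) 126 && units.any fun t => Nat.beq (sN t (pc (ix c))) c)

theorem pointsOK : allB pointB 126 = true := by decide +kernel

theorem vecsOK : allB vecB 15625 = true := by decide +kernel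

/-- A point as a vector. -/
def pt (i : ℕ) : V4 := dec4 (pc i)

theorem enc_pt {i : ℕ} (hi : i < 126) : enc4 (pt i) = pc i := by
  have h := (allB_iff _ _).mp pointsOK i hi
  simp only [pointB, Bool.and_eq_true, Nat.blt_eq] at h
  exact enc4_dec4 h.1.1.1.1

theorem herm_pt {i : ℕ} (hi : i < 126) : hermForm 3 K9 5 (pt i) (pt i) = 0 := by
  have h := (allB_iff _ _).mp pointsOK i hi
  simp only [pointB, Bool.and_eq_true, Nat.beq_eq] at h
  apply gf25.enc_injective
  have := enc_herm (pt i) (pt i)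
  rw [enc_pt hi] at this
  rw [show gf25.enc (hermForm 3 K9 5 (pt i) (pt i)) = _ from this, h.1.1.2]
  rfl

theorem enc4_zero : enc4 (0 : V4) = 0 := rfl

theorem pt_ne {i : ℕ} (hi : i < 126) : pt i ≠ 0 := by
  intro h0
  have h := (allB_iff _ _).mp pointsOK i hi
  simp only [pointB, Bool.and_eq_true, Bool.not_eq_true'] at h
  have h1 := enc_pt hi
  rw [h0, enc4_zero] at h1
  have h2 := h.1.2
  rw [← h1] at h2
  exact absurd h2 (by decide)

theorem ix_pc {i : ℕ} (hi : i < 126) : ix (enc4 (pt i)) = i := by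
  have h := (allB_iff _ _).mp pointsOK i hi
  simp only [pointB, Bool.and_eq_true, Nat.beq_eq] at h
  rw [enc_pt hi]
  exact h.1.1.1.2

theorem mem_units {t : K9} (ht : t ≠ 0) : e9 t ∈ units := by
  have h1 : e9 t < 25 := e9_lt t
  have h2 : e9 t ≠ 0 := fun h => ht (gf25.enc_injective (h.trans rfl))
  have h3 : ∀ n : ℕ, n < 25 → n ≠ 0 → n ∈ units := by decide
  exact h3 _ h1 h2

theorem ix_smul {i : ℕ} (hi : i < 126) {t : K9} (ht : t ≠ 0) : ix (enc4 (t • pt i)) = i := by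
  have h := (allB_iff _ _).mp pointsOK i hi
  simp only [pointB, Bool.and_eq_true] at h
  have h2 := List.all_eq_true.mp h.2 _ (mem_units ht)
  rw [Nat.beq_eq] at h2
  rw [enc_smul, enc_pt hi]
  exact h2

theorem d9_ne {t : ℕ} (ht : t ∈ units) : d9 t ≠ 0 := by
  have h3 : ∀ n ∈ units, d9 n ≠ 0 := by decide +kernel
  exact h3 t ht

theorem enc_lt (v : V4) : enc4 v < 15625 := by
  have h0 := e9_lt (v 0)
  have h1 := e9_lt (v 1)
  have h2 := e9_lt (v 2)
  unfold enc4 pk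
  omega

/-- The structure of nonzero isotropic vectors. -/
theorem exists_smul {v : V4} (hv : v ≠ 0) (hh : hermForm 3 K9 5 v v = 0) :
    ix (enc4 v) < 126 ∧ ∃ t : K9, t ≠ 0 ∧ v = t • pt (ix (enc4 v)) := by
  have h := (allB_iff _ _).mp vecsOK _ (enc_lt v)
  have h0 : enc4 v ≠ 0 := fun h1 => hv (enc4_inj (h1.trans enc4_zero.symm))
  have h1 : hN (enc4 v) (enc4 v) = 0 := by
    rw [← enc_herm, hh]
    rfl
  have h2' : Nat.beq (enc4 v) 0 = false := by
    cases h9 : Nat.beq (enc4 v) 0 with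
    | false => rfl
    | true => exact absurd (Nat.eq_of_beq_eq_true h9) h0
  have h3' : Nat.beq (hN (enc4 v) (enc4 v)) 0 = true := by
    rw [h1]
    rfl
  simp only [vecB, h2', h3', Bool.false_or, Bool.not_true, Bool.and_eq_true, Nat.blt_eq] at h
  obtain ⟨h2, h3⟩ := h
  refine ⟨h2, ?_⟩
  obtain ⟨t, ht, h4⟩ := List.any_eq_true.mp h3
  rw [Nat.beq_eq] at h4
  refine ⟨d9 t, d9_ne ht, enc4_inj ?_⟩
  rw [enc_smul, enc_pt h2]
  have h5 : e9 (d9 t) = t := gf25.enc_dec _ (by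
    have h6 : ∀ n ∈ units, n < 25 := by decide
    exact h6 t ht)
  rw [h5, h4]

/-- The matrix of an element. -/
abbrev mm (A : SU4) : Matrix (Fin 3) (Fin 3) K9 := ((A : Matrix.SpecialLinearGroup (Fin 3) K9) : Matrix (Fin 3) (Fin 3) K9)

theorem hK9 : Fintype.card K9 = 5 ^ 2 := by rw [card_GF25]; norm_num

theorem preserve (A : SU4) (u v : V4) : hermForm 3 K9 5 (mm A *ᵥ u) (mm A *ᵥ v) = hermForm 3 K9 5 u v := A.2 u v

theorem mm_mul (A B : SU4) : mm (A * B) = mm A * mm B := rfl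

theorem mv_ne (A : SU4) {v : V4} (hv : v ≠ 0) : mm A *ᵥ v ≠ 0 := by
  intro h
  apply hv
  have h1 : mm A⁻¹ * mm A = 1 := by
    rw [← mm_mul, inv_mul_cancel]
    rfl
  have h2 : mm A⁻¹ *ᵥ (mm A *ᵥ v) = v := by
    rw [Matrix.mulVec_mulVec, h1, Matrix.one_mulVec]
  rw [← h2, h, Matrix.mulVec_zero]

theorem act_spec (A : SU4) {i : ℕ} (hi : i < 126) :
    ix (enc4 (mm A *ᵥ pt i)) < 126 ∧ ∃ t : K9, t ≠ 0 ∧ mm A *ᵥ pt i = t • pt (ix (enc4 (mm A *ᵥ pt i))) := by
  apply exists_smul (mv_ne A (pt_ne hi))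
  rw [preserve]
  exact herm_pt hi

/-- The action on points. -/
instance act : MulAction SU4 (Fin 126) where
  smul A i := ⟨ix (enc4 (mm A *ᵥ pt i)), (act_spec A i.2).1⟩
  one_smul i := by
    apply Fin.ext
    show ix (enc4 (mm 1 *ᵥ pt i)) = i
    have : mm 1 = 1 := rfl
    rw [this, Matrix.one_mulVec]
    exact ix_pc i.2
  mul_smul A B i := by
    apply Fin.ext
    show ix (enc4 (mm (A * B) *ᵥ pt i)) = ix (enc4 (mm A *ᵥ pt (ix (enc4 (mm B *ᵥ pt i)))))
    obtain ⟨h1, t, ht, h2⟩ := act_spec B i.2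
    obtain ⟨h3, s, hs, h4⟩ := act_spec A h1
    have h5 : mm (A * B) *ᵥ pt i = (t * s) • pt (ix (enc4 (mm A *ᵥ pt (ix (enc4 (mm B *ᵥ pt i)))))) := by
      rw [mm_mul, ← Matrix.mulVec_mulVec]
      have h6 : mm A *ᵥ (mm B *ᵥ pt i) = t • (mm A *ᵥ pt (ix (enc4 (mm B *ᵥ pt i)))) := by
        conv_lhs => rw [h2]
        rw [Matrix.mulVec_smul]
      rw [h6]
      conv_lhs => rw [h4]
      rw [smul_smul]
    rw [h5, ix_smul h3 (mul_ne_zero ht hs)]

theorem act_val (A : SU4) (i : Fin 126) : ((A • i : Fin 126) : ℕ) = ix (enc4 (mm A *ᵥ pt i)) := rfl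

/-- The map to permutations. -/
noncomputable def φ : SU4 →* Equiv.Perm (Fin 126) := MulAction.toPermHom SU4 (Fin 126)

theorem φ_apply (A : SU4) (i : Fin 126) : ((φ A i : Fin 126) : ℕ) = ix (enc4 (mm A *ᵥ pt i)) := rfl

theorem center_le : Subgroup.center SU4 ≤ φ.ker := by
  intro z hz
  obtain ⟨c, hc⟩ := center_scalar hK9 z hz
  rw [MonoidHom.mem_ker]
  ext i
  rw [φ_apply]
  have h1 : mm z *ᵥ pt i = c • pt i := by
    rw [show mm z = _ from hc]
    funext j
    simp [Matrix.mulVec, dotProduct, Matrix.scalar_apply, Matrix.diagonal_apply]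
  have hne : c ≠ 0 := by
    rintro rfl
    have := mv_ne z (pt_ne i.2)
    rw [h1, zero_smul] at this
    exact this rfl
  rw [h1, ix_smul i.2 hne]
  rfl

/-- The map from the projective group. -/
noncomputable def ψ : PSU 3 K9 5 →* Equiv.Perm (Fin 126) := QuotientGroup.lift _ φ center_le

theorem range_ψ : ψ.range = φ.range := by
  ext x
  constructor
  · rintro ⟨y, rfl⟩
    obtain ⟨A, rfl⟩ := QuotientGroup.mk_surjective y
    exact ⟨A, rfl⟩
  · rintro ⟨A, rfl⟩
    exact ⟨(A : PSU 3 K9 5), rfl⟩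

theorem simple_PSU : IsSimpleGroup (PSU 3 K9 5) :=
  Cfsg.Agent.Lib.Classical.Herm.Simple.isSimpleGroup_PSU hK9 (by norm_num) (by norm_num)

theorem card_PSU' : Nat.card (PSU 3 K9 5) = 126000 := by
  have h := card_PSU hK9 (n := 3) (by norm_num)
  simp [Finset.prod_range_succ] at h
  norm_num [Nat.even_iff] at h
  omega

/-- The isomorphism with a group of permutations. -/
theorem nonempty_iso {gens : List Elt} (hall : ∀ e ∈ gens, permOf 7 127 126 e ∈ φ.range)
    (hcard : Nat.card (genGroup 7 127 126 gens) = 126000) :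
    Nonempty (genGroup 7 127 126 gens ≃* PSU 3 K9 5) := by
  have hle : genGroup 7 127 126 gens ≤ ψ.range := by
    rw [range_ψ, genGroup, Subgroup.closure_le]
    rintro _ ⟨e, he, rfl⟩
    exact hall e he
  have := simple_PSU
  have hinj : Function.Injective ψ := by
    rcases (MonoidHom.normal_ker ψ).eq_bot_or_eq_top with h | h
    · exact (MonoidHom.ker_eq_bot_iff ψ).mp h
    · exfalso
      have h1 : ψ.range = ⊥ := by
        rw [eq_bot_iff]
        rintro _ ⟨y, rfl⟩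
        have : y ∈ ψ.ker := by
          rw [h]
          trivial
        exact (MonoidHom.mem_ker).mp this
      rw [h1, le_bot_iff] at hle
      rw [hle, Subgroup.card_bot] at hcard
      norm_num at hcard
  have h2 : Nat.card ψ.range = 126000 := by
    rw [← card_PSU']
    exact Nat.card_congr (MonoidHom.ofInjective hinj).symm.toEquiv
  have h3 : genGroup 7 127 126 gens = ψ.range :=
    Subgroup.eq_of_le_of_card_ge hle (by rw [hcard, h2])
  exact ⟨(MulEquiv.subgroupCongr h3).trans (MonoidHom.ofInjective hinj).symm⟩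

/-! ### Generators -/

/-- A column of a matrix. -/
def colN (mc s : ℕ) : ℕ := pk (ent mc 0 s) (ent mc 1 s) (ent mc 2 s)

/-- The frame check. -/
def frameB (mc : ℕ) : Bool :=
  allB (fun r => allB (fun s => Nat.beq (hN (colN mc r) (colN mc s)) (bif Nat.beq r s then 1 else 0)) 3) 3

theorem col_matOf (mc : ℕ) (s : Fin 3) : enc4 (fun i => matOf mc i s) = colN mc s := by
  unfold enc4 colN
  show pk (e9 (d9 (ent mc 0 s))) (e9 (d9 (ent mc 1 s))) (e9 (d9 (ent mc 2 s))) = _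
  rw [e9_ent, e9_ent, e9_ent]

theorem preserves_of_frameB {mc : ℕ} (h : frameB mc = true) : Preserves 5 (matOf mc) := by
  rw [preserves_iff_frame hK9]
  intro r s
  have h1 := (allB_iff _ _).mp ((allB_iff _ _).mp h r r.2) s s.2
  rw [Nat.beq_eq] at h1
  apply gf25.enc_injective
  rw [show gf25.enc (hermForm 3 K9 5 (fun i => matOf mc i r) (fun i => matOf mc i s)) = _ from enc_herm _ _, col_matOf,
    col_matOf, h1]
  by_cases hrs : r = s
  · subst hrs
    rw [Nat.beq_refl, if_pos rfl]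
    rfl
  · have h2 : Nat.beq (r : ℕ) (s : ℕ) = false := by
      cases h9 : Nat.beq (r : ℕ) (s : ℕ) with
      | false => rfl
      | true => exact absurd (Fin.ext (Nat.eq_of_beq_eq_true h9)) hrs
    rw [h2, if_neg hrs]
    rfl

/-- The check of a table. -/
def eltOK (e : Elt) (mc : ℕ) : Bool :=
  validB 7 127 126 e && frameB mc && decide ((matOf mc).det = 1) &&
    allB (fun i => Nat.beq (ix (mvN mc (pc i))) (get 7 127 e.f i)) 126

theorem permOf_mem_range {e : Elt} {mc : ℕ} (h : eltOK e mc = true) : permOf 7 127 126 e ∈ φ.range := by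
  simp only [eltOK, Bool.and_eq_true, decide_eq_true_eq] at h
  obtain ⟨⟨⟨h1, h2⟩, h3⟩, h4⟩ := h
  refine ⟨mkSU (matOf mc) h3 (preserves_of_frameB h2), ?_⟩
  ext i
  rw [φ_apply, permOf_apply h1]
  have h5 := (allB_iff _ _).mp h4 i i.2
  rw [Nat.beq_eq] at h5
  rw [← h5, ← enc_pt i.2, ← enc_mv]
  rfl

/-! ### Other fields -/

/-- `SU` along a ring isomorphism, as an isomorphism. -/
noncomputable def suEquiv {F : Type*} [Field F] (e : F ≃+* K9) : SU 3 F 5 ≃* SU 3 K9 5 :=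
  { toFun := SU3Two.suCongrHom e 3 5
    invFun := SU3Two.suCongrHom e.symm 3 5
    left_inv := by
      intro g
      apply Subtype.ext
      apply Subtype.ext
      refine Matrix.ext fun i j => ?_
      exact e.symm_apply_apply _
    right_inv := by
      intro g
      apply Subtype.ext
      apply Subtype.ext
      refine Matrix.ext fun i j => ?_
      exact e.apply_symm_apply _
    map_mul' := map_mul _ }

/-- `PSU` along a ring isomorphism. -/
noncomputable def psuEquiv {F : Type*} [Field F] (e : F ≃+* K9) : PSU 3 F 5 ≃* PSU 3 K9 5 :=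
  QuotientGroup.congr _ _ (suEquiv e) (Cfsg.Agent.Lib.Compute.SmallField.map_center_eq _)

/-- The transport to any field with twenty-five elements. -/
theorem nonempty_equiv {F : Type*} [Field F] [Fintype F] (hF : Fintype.card F = 25) :
    Nonempty (PSU 3 F 5 ≃* PSU 3 K9 5) :=
  ⟨psuEquiv (equivOfCard (hF.trans card_GF25.symm))⟩

end Cfsg.Agent.Lib.Compute.Schur2.SU35
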