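import Mathlib
import Cfsg.Agent.Lib.Compute.Schur2.Pres

/-!
# Orders of the generators of products of cyclic groups
-/

set_option autoImplicit false

namespace Cfsg.Agent.Lib.Compute.Schur2

theorem a2_pow0 {m₁ m₂ : ℕ} : a2 m₁ m₂ 0 ^ m₁ = 1 := by
  show Multiplicative.ofAdd (((1 : ZMod m₁), (0 : ZMod m₂))) ^ m₁ = 1
  rw [← ofAdd_nsmul]
  have : m₁ • (((1 : ZMod m₁), (0 : ZMod m₂))) = 0 := by
    ext <;> simp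
  rw [this]
  rfl

theorem a2_pow1 {m₁ m₂ : ℕ} : a2 m₁ m₂ 1 ^ m₂ = 1 := by
  show Multiplicative.ofAdd (((0 : ZMod m₁), (1 : ZMod m₂))) ^ m₂ = 1
  rw [← ofAdd_nsmul]
  have : m₂ • (((0 : ZMod m₁), (1 : ZMod m₂))) = 0 := by
    ext <;> simp
  rw [this]
  rfl

theorem a3_pow0 {m₁ m₂ m₃ : ℕ} : a3 m₁ m₂ m₃ 0 ^ m₁ = 1 := by
  show Multiplicative.ofAdd (((1 : ZMod m₁), (0 : ZMod m₂), (0 : ZMod m₃))) ^ m₁ = 1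
  rw [← ofAdd_nsmul]
  have : m₁ • (((1 : ZMod m₁), (0 : ZMod m₂), (0 : ZMod m₃))) = 0 := by
    ext <;> simp
  rw [this]
  rfl

theorem a3_pow1 {m₁ m₂ m₃ : ℕ} : a3 m₁ m₂ m₃ 1 ^ m₂ = 1 := by
  show Multiplicative.ofAdd (((0 : ZMod m₁), (1 : ZMod m₂), (0 : ZMod m₃))) ^ m₂ = 1
  rw [← ofAdd_nsmul]
  have : m₂ • (((0 : ZMod m₁), (1 : ZMod m₂), (0 : ZMod m₃))) = 0 := by
    ext <;> simp
  rw [this]
  rfl

theorem a3_pow2 {m₁ m₂ m₃ : ℕ} : a3 m₁ m₂ m₃ 2 ^ m₃ = 1 := by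
  show Multiplicative.ofAdd (((0 : ZMod m₁), (0 : ZMod m₂), (1 : ZMod m₃))) ^ m₃ = 1
  rw [← ofAdd_nsmul]
  have : m₃ • (((0 : ZMod m₁), (0 : ZMod m₂), (1 : ZMod m₃))) = 0 := by
    ext <;> simp
  rw [this]
  rfl

end Cfsg.Agent.Lib.Compute.Schur2
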