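import Mathlib
import Cfsg.Agent.Lib.Compute.Schur2.Cert
import Cfsg.Agent.Lib.Compute.Schur2.Fast
import Cfsg.Agent.Lib.Compute.Schur2.FastUp

/-!
# The checks of big tables, in parts

The checks of certificates, of cascades and of labels on ranges of points, so that one declaration of the kernel has
only a bounded amount of work. The labels: one read of a packed table in each step of a walk.
-/

set_option autoImplicit false
set_option linter.unusedSectionVars false
set_option linter.unusedVariables false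

namespace Cfsg.Agent.Lib.Compute.Schur2

open Cfsg Cfsg.Agent.Lib.Compute.SchurLin
open Cfsg.Agent.Lib.Compute.ToddCoxeterCore
open Cfsg.Agent.Lib.Compute.ToddCoxeterPresented (RT rulesOK rulesOK_spec mkCfg allFrom_all allFrom_chain allFrom_nil)
open Cfsg.Agent.Lib.Compute.PermCert (allB allB_iff)

universe u

/-! ### Certificates -/

/-- Soundness from the parts of a check. -/
theorem sound_of_parts {d : TC} {E : ℕ → ℕ} {M Lbl : ℕ} {Pd : ℕ → ℕ} {rt : RT} {m : ℕ}
    (h1 : Nat.blt 0 d.N = true) (h2 : Nat.ble m d.nrel = true)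
    (h3 : d.W.all (fun w => w.all (fun x => Nat.blt x (Nat.mul 2 d.n))) = true)
    (h4 : ∀ i, i < d.N → d.treeCheck i = true)
    (h5 : rulesOK (2 * d.n) (invOf (2 * d.n)) (d.W.take m) rt = true)
    (h6 : ∀ k, 0 ≤ k → k < M → (mkC d E M Lbl Pd rt).chkKey k = true)
    (h7 : ∀ j, 1 ≤ j → j < Lbl → (mkC d E M Lbl Pd rt).chkLbl j = true)
    (h8 : ∀ i, 0 ≤ i → i < d.N → (mkC d E M Lbl Pd rt).chkFin (List.range (mkC d E M Lbl Pd rt).L) i = true)
    (h9 : ∀ i, i < d.N → ∀ x, x < 2 * d.n → Nat.beq ((mkC d E M Lbl Pd rt).T x i) (d.t i x) = true) :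
    TC.Sound.{u} d := by
  have hok : CertOK d (mkC d E M Lbl Pd rt) m := by
    simp only [Nat.blt_eq, Nat.ble_eq] at h1 h2
    refine ⟨rfl, rfl, rfl, ?_, ?_, h2, ?_, ?_, ?_, ?_, ?_, ?_, ?_, ?_, h1⟩
    · intro x hx
      exact invOf_lt hx
    · exact invOf_self _
    · exact fun r => rulesOK_spec h5 r
    · intro w
      rfl
    · intro k hk
      exact h6 k (Nat.zero_le k) hk
    · intro j hj0 hj
      exact h7 j (by omega) hj
    · intro i hi
      exact h8 i (Nat.zero_le i) hi
    · intro i hi x hx
      exact Nat.eq_of_beq_eq_true (h9 i hi x hx)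
    · intro k x hx
      rw [List.all_eq_true] at h3
      by_cases hk : k < d.W.length
      · rw [List.getD_eq_getElem _ _ hk] at hx
        have := h3 _ (List.getElem_mem hk)
        rw [List.all_eq_true] at this
        have h5 := this x hx
        rw [Nat.blt_eq] at h5
        exact h5
      · rw [List.getD_eq_default _ _ (by omega)] at hx
        simp at hx
    · intro i hi h0
      have := h4 i hi
      unfold TC.treeCheck at this
      have h5 : Nat.beq i 0 = false := by
        cases hb : Nat.beq i 0 with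
        | false => rfl
        | true => exact absurd (Nat.eq_of_beq_eq_true hb) h0
      rw [h5, cond_false] at this
      simp only [Bool.and_eq_true, Nat.blt_eq, Nat.beq_eq] at this
      exact ⟨this.1.1, this.1.2, this.2⟩
  exact hok.sound

/-! ### Checks on ranges -/

/-- From a check on all points below a number. -/
theorem allB_all {f : ℕ → Bool} {n : ℕ} (h : allB f n = true) : ∀ i, i < n → f i = true :=
  (allB_iff _ _).1 h

/-! ### Cascades -/

namespace UP

theorem fcheck_of_parts (c : UP) (B b : ℕ) (P : ℕ → ℕ) (h0 : Nat.blt 0 c.M = true)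
    (h1 : c.W.all (fun w => w.all (fun x => Nat.blt x (Nat.mul 2 c.n)) && Nat.blt (Nat.mul w.length (Nat.pow 2 b)) (Nat.pow 2 B)) = true)
    (h2 : allB (c.frelCheck B P) c.W.length = true)
    (h3 : allB (fun i => allB (c.fedgeCheck B b P i) (Nat.mul 2 c.n)) c.N = true) :
    c.fcheck B b P = true := by
  unfold fcheck
  rw [h0, h1, h2, h3]
  rfl

end UP

/-! ### Cascades, with one read of the numbers of an edge -/

namespace UP

variable (c : UP) (B b : ℕ) (P R : ℕ → ℕ)

/-- The sums along a walk are those of the value of the relator: the values are digits as well. -/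
noncomputable def fsumOK2 (i0 k : ℕ) (w : List ℕ) : Bool :=
  frc (walkSum c.t (Nat.mul 2 c.n) P i0 w) fun S => frc (R k) fun r =>
    allB (fun j => c.eqM (dig B j S) (dig B j r)) c.s

/-- The justification of an edge of positive rank. -/
noncomputable def fscan2 (i x j y u : ℕ) : Bool :=
  frc (c.jk u) fun k => frc (c.ji u) fun i0 => frc (c.rk u) fun r =>
    Nat.blt k c.W.length && Nat.blt i0 c.N && Nat.beq (walkEnd c.t i0 (c.W.getD k [])) i0 &&
      Nat.blt (c.rkR k) r &&
      oneHit c.t (Nat.mul 2 c.n) c.rk r i x j y i0 (c.W.getD k []) &&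
      c.fsumOK2 B P R i0 k (c.W.getD k [])

/-- The check of an edge. -/
noncomputable def fedgeCheck2 (i x : ℕ) : Bool :=
  frc (c.t i x) fun j => frc (c.key i x) fun u => frc (c.key j (flpB x)) fun v => frc (P u) fun p =>
    Nat.blt j c.N && Nat.beq (c.t j (flpB x)) i && Nat.beq (c.rk v) (c.rk u) &&
      (Nat.blt p (Nat.pow (Nat.pow 2 B) c.s) && allB (fun a => Nat.blt (dig B a p) (Nat.pow 2 b)) c.s) &&
      (bif Nat.ble u v then
        (frc (P v) fun q => allB (fun a => c.eqM (Nat.add (dig B a p) (dig B a q)) 0) c.s) &&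
        (bif Nat.beq (c.rk u) 0 then
          (c.treeEdge i x j (flpB x) && allB (fun a => c.eqM (dig B a p) 0) c.s) || c.seedEdge i x u
         else c.fscan2 B P R i x j (flpB x) u)
       else true)

/-- The check of a relator. -/
noncomputable def frelCheck2 (k : ℕ) : Bool :=
  bif Nat.beq (c.rkR k) 0 then
    (Nat.blt k c.e && allB (fun j => c.eqM (c.rv j k) 0) c.s) ||
      ((match Cfsg.Agent.Lib.Compute.PermCert.nth c.seeds (c.jR k) with
        | some (kd, a, _) => Nat.beq kd 1 && Nat.beq a k
        | none => false) && Nat.blt (c.jR k) c.s &&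
        allB (fun j => c.eqM (c.rv j k) (bif Nat.beq j (c.jR k) then 1 else 0)) c.s)
  else
    Nat.blt (c.jR k) c.N && Nat.beq (walkEnd c.t (c.jR k) (c.W.getD k [])) (c.jR k) &&
      allLow c.t (Nat.mul 2 c.n) c.rk (c.rkR k) (c.jR k) (c.W.getD k []) && c.fsumOK2 B P R (c.jR k) k (c.W.getD k [])

variable {c B b P R}

theorem fsumOK2_eq (hrv : ∀ j k, c.rv j k = dig B j (R k)) (i0 k : ℕ) (w : List ℕ) :
    c.fsumOK2 B P R i0 k w = c.fsumOK B P i0 k w := by
  simp only [fsumOK2, fsumOK, frc_eq, hrv]

theorem fedgeCheck2_eq (hrv : ∀ j k, c.rv j k = dig B j (R k)) (hlab : ∀ j k, c.lab j k = dig B j (P k)) (i x : ℕ) :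
    c.fedgeCheck2 B b P R i x = c.fedgeCheck B b P i x := by
  simp only [fedgeCheck2, fedgeCheck, fscan2, fscan, keyOK, zeroLab, frc_eq, fsumOK2_eq hrv, hlab]

theorem frelCheck2_eq (hrv : ∀ j k, c.rv j k = dig B j (R k)) (k : ℕ) :
    c.frelCheck2 B P R k = c.frelCheck B P k := by
  simp only [frelCheck2, frelCheck, fsumOK2_eq hrv]
  rfl

/-- The check of a cascade, from the parts of the check with one read of the numbers of an edge. -/
theorem check_of_parts2 (hrv : ∀ j k, c.rv j k = dig B j (R k)) (hlab : ∀ j k, c.lab j k = dig B j (P k))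
    (h0 : Nat.blt 0 c.M = true)
    (h1 : c.W.all (fun w => w.all (fun x => Nat.blt x (Nat.mul 2 c.n)) && Nat.blt (Nat.mul w.length (Nat.pow 2 b)) (Nat.pow 2 B)) = true)
    (h2 : allB (c.frelCheck2 B P R) c.W.length = true)
    (h3 : allB (fun i => allB (c.fedgeCheck2 B b P R i) (Nat.mul 2 c.n)) c.N = true) :
    c.check = true := by
  refine check_of_fcheck (B := B) (b := b) (P := P) hlab (fcheck_of_parts c B b P h0 h1 ?_ ?_)
  · have e : c.frelCheck B P = c.frelCheck2 B P R := funext fun k => (frelCheck2_eq hrv k).symm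
    rw [e]
    exact h2
  · have e : (fun i => allB (c.fedgeCheck B b P i) (Nat.mul 2 c.n)) =
        (fun i => allB (c.fedgeCheck2 B b P R i) (Nat.mul 2 c.n)) := by
      funext i
      have e2 : c.fedgeCheck B b P i = c.fedgeCheck2 B b P R i := funext fun x => (fedgeCheck2_eq hrv hlab i x).symm
      rw [e2]
    rw [e]
    exact h3

end UP

/-! ### Labels -/

section Fast

variable (E : ℕ → ℕ) (L b mask : ℕ)

/-- A walk, with one read of a packed table in each step: at the end, the point and the sum of the labels are those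
expected. -/
noncomputable def fwalk (i0 en m : ℕ) (w : List ℕ) : ℕ → ℕ → Bool :=
  List.rec (motive := fun _ => ℕ → ℕ → Bool)
    (fun j a => Bool.rec (motive := fun _ => Bool) false (Nat.beq (Nat.mod a m) (Nat.mod en m)) (Nat.beq j i0))
    (fun x _ ih j a => frc (Nat.add (Nat.mul j L) x) fun k => frc (E k) fun e =>
      ih (Nat.shiftRight e b) (Nat.add a (Nat.land e mask))) w

/-- All the relators at one point. -/
noncomputable def ptFast (m : ℕ) (rs : List (List ℕ × ℕ)) (i : ℕ) : Bool :=
  List.rec (motive := fun _ => Bool) true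
    (fun p _ ih => Bool.rec (motive := fun _ => Bool) false ih (fwalk E L b mask i p.2 m p.1 i 0)) rs

variable {E L b mask} {t : ℕ → ℕ → ℕ} {num : ℕ → ℕ}

theorem fwalk_spec (ht : ∀ i x, t i x = Nat.shiftRight (E (Nat.add (Nat.mul i L) x)) b)
    (hn : ∀ k, num k = Nat.land (E k) mask) {i0 en m : ℕ} (w : List ℕ) (j a : ℕ)
    (h : fwalk E L b mask i0 en m w j a = true) :
    walkEnd t j w = i0 ∧ Nat.mod (Nat.add a (walkSum t L num j w)) m = Nat.mod en m := by
  induction w generalizing j a with
  | nil =>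
    have h1 : Bool.rec (motive := fun _ => Bool) false (Nat.beq (Nat.mod a m) (Nat.mod en m)) (Nat.beq j i0) = true := h
    cases h2 : Nat.beq j i0 with
    | false => rw [h2] at h1; cases h1
    | true =>
      rw [h2] at h1
      have h3 : Nat.mod a m = Nat.mod en m := Nat.eq_of_beq_eq_true h1
      exact ⟨Nat.eq_of_beq_eq_true h2, h3⟩
  | cons x w ih =>
    have h1 : frc (Nat.add (Nat.mul j L) x) (fun k => frc (E k) fun e =>
      fwalk E L b mask i0 en m w (Nat.shiftRight e b) (Nat.add a (Nat.land e mask))) = true := h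
    simp only [frc_eq] at h1
    have h2 := ih _ _ h1
    rw [← ht, ← hn] at h2
    refine ⟨h2.1, ?_⟩
    have h3 : Nat.add a (walkSum t L num j (x :: w)) =
        Nat.add (Nat.add a (num (Nat.add (Nat.mul j L) x))) (walkSum t L num (t j x) w) := by
      show a + (num (Nat.add (Nat.mul j L) x) + walkSum t L num (t j x) w) =
        a + num (Nat.add (Nat.mul j L) x) + walkSum t L num (t j x) w
      omega
    rw [h3]
    exact h2.2

theorem ptFast_spec {m : ℕ} {rs : List (List ℕ × ℕ)} {i : ℕ} (h : ptFast E L b mask m rs i = true) :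
    ∀ p ∈ rs, fwalk E L b mask i p.2 m p.1 i 0 = true := by
  induction rs with
  | nil => simp
  | cons p rs ih =>
    have h1 : Bool.rec (motive := fun _ => Bool) false (ptFast E L b mask m rs i)
      (fwalk E L b mask i p.2 m p.1 i 0) = true := h
    cases h2 : fwalk E L b mask i p.2 m p.1 i 0 with
    | false => rw [h2] at h1; cases h1
    | true =>
      rw [h2] at h1
      intro q hq
      rcases List.mem_cons.mp hq with rfl | hq
      · exact h2
      · exact ih h1 q hq

/-- The check of the labels of a cyclic group, from a fast check. -/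
theorem LC.check_of_fast (l : LC) (hr : l.r = 1)
    (ht : ∀ i x, l.t i x = Nat.shiftRight (E (Nat.add (Nat.mul i (Nat.mul 2 l.n)) x)) b)
    (hn : ∀ k, l.num 0 k = Nat.land (E k) mask) (rs : List (List ℕ × ℕ))
    (hrs : ∀ k < l.nrel, (l.W.getD k [], l.en 0 k) ∈ rs)
    (h1 : ∀ i, i < l.N → ∀ x, x < Nat.mul 2 l.n → l.flipCheck i x = true)
    (h2 : ∀ i, i < l.N → ptFast E (Nat.mul 2 l.n) b mask (l.m 0) rs i = true)
    (h3 : allB (fun k => allB (fun j => l.eqm j (l.en j k) 0) l.r) l.n = true)
    (h4 : allB (fun j => (l.unit j).all (fun p => Nat.blt p.1 l.nrel) &&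
      allB (fun a => l.eqm a (l.comb a (l.unit j)) (bif Nat.beq a j then 1 else 0)) l.r) l.r = true) :
    l.check = true := by
  unfold LC.check
  rw [h3, h4]
  have h5 : allB (fun i => allB (l.flipCheck i) (Nat.mul 2 l.n)) l.N = true := by
    rw [allB_iff]
    intro i hi
    rw [allB_iff]
    exact h1 i hi
  have h6 : allB l.relCheck l.nrel = true := by
    rw [allB_iff]
    intro k hk
    unfold LC.relCheck
    simp only
    rw [allB_iff]
    intro i hi
    obtain ⟨h7, h8⟩ := fwalk_spec (t := l.t) (num := l.num 0) ht hn _ _ _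
      (ptFast_spec (h2 i hi) _ (hrs k hk))
    rw [Bool.and_eq_true, Nat.beq_eq]
    refine ⟨h7, ?_⟩
    rw [allB_iff]
    intro j hj
    rw [hr] at hj
    obtain rfl : j = 0 := by omega
    unfold LC.eqm LC.relCheck.UP_walk
    rw [Nat.beq_eq]
    have h9 : Nat.add 0 (walkSum l.t (Nat.mul 2 l.n) (l.num 0) i (l.W.getD k [])) =
      walkSum l.t (Nat.mul 2 l.n) (l.num 0) i (l.W.getD k []) := Nat.zero_add _
    rw [h9] at h8
    exact h8
  rw [h5, h6]
  rfl

end Fast

end Cfsg.Agent.Lib.Compute.Schur2
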