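import Cfsg.Agent.Lib.Compute.Schur2.U34sData

set_option autoImplicit false
set_option maxRecDepth 1000000

namespace Cfsg.Agent.Lib.Compute.Schur2.U34s

open Cfsg Cfsg.Agent.Lib.Compute.SchurLin

universe u

theorem certChk : certB c eE 77805 15561 eP rT 6 = true := by decide +kernel

theorem sound : TC.Sound.{u} c := sound_of_check certChk

theorem hSB : SubBound.{u} c 13 := subBound_cyc (kp := 2) (w := [0, 2]) (by decide +kernel)

theorem upChk : u.check = true := by decide +kernel

theorem tailChk : UP.tailCheck u d = true := by decide +kernel

theorem hnormC : normB c.n c.W = true := by decide +kernel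

theorem hnormU : normB u.n u.W = true := by decide +kernel

/-- Groups with the relators of the table, generated by the letters, of order `62400`, have trivial multiplier and
are perfect. -/
theorem presTriv : PresTriv c (c.N * 13) := by
  refine presTriv_of_table sound hSB (by decide) hnormC ?_ u rfl rfl rfl rfl rfl rfl (m := 6) (by decide) hnormU rfl rfl upChk d rfl tailChk
  intro X _ _ el hrel hgen hcard
  refine hasSec_of_coprime sound hSB hrel hgen hcard (perfect_of_norm hnormC (sound.{0}).hW hrel (by decide) hgen) [13] rfl ?_
  intro p hp
  simp only [List.mem_singleton] at hp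
  subst hp
  refine ⟨by norm_num, ?_⟩
  rw [hcard]
  decide

end Cfsg.Agent.Lib.Compute.Schur2.U34s
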