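import Mathlib
import Cfsg.Agent.Lib.Compute.Schur2.U35D
import Cfsg.Agent.Lib.Compute.Schur2.SU35
import Cfsg.Agent.Lib.Compute.Schur2.PresIso
import Cfsg.Agent.Lib.Compute.Schur2.Pres

/-!
# The group `PSU₃(5)` with generators and a table
-/

set_option autoImplicit false
set_option maxRecDepth 1000000

namespace Cfsg.Agent.Lib.Compute.Schur2.U35Main

open Cfsg Cfsg.Agent.Lib.Compute.SchurLin Cfsg.Agent.Lib.Compute.PermCert Cfsg.Agent.Lib.Compute.Schur2
open Cfsg.Agent.Lib.Compute.Schur2.U35D

universe u

theorem certChk : certB c eE 74280 14856 eP rT 5 = true := by decide +kernel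

theorem sound : TC.Sound.{u} c := sound_of_check certChk

theorem hSB : SubBound.{u} c 10 := subBound_cyc (kp := 4) (w := [0, 2]) (by decide +kernel)

theorem chainOk : chainCheck 7 127 126 ls = true := by decide +kernel

theorem chainOrd : chainOrder ls = 126000 := by decide +kernel

theorem validEs : es.all (validB 7 127 126) = true := by decide +kernel

theorem siftEs : es.all (fun e => sift 7 127 126 ls (get 7 127 e.f)) = true := by decide +kernel

/-- The group. -/
abbrev H : Subgroup (Equiv.Perm (Fin 126)) := chainGroup 7 127 126 ls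

theorem hmem (j : ℕ) : gPerm 7 127 126 es j ∈ H := gPerm_mem_chain chainOk validEs siftEs j

theorem relsChk : allB (fun k => allB (fun i => Nat.beq (wordPt 7 127 es (c.W.getD k []) i) i) 126) c.nrel = true := by
  decide +kernel

/-- The words of the generators of the group. -/
def us : List (List ℕ) := [[0], [2]]

theorem wordsChk : wordsB 7 127 126 es 2 (nextGens ls) us = true := by decide +kernel

/-- The generators. -/
noncomputable abbrev gJ : ℕ → H := gP 7 127 126 es H

theorem hrel : ∀ k < c.nrel, Cfsg.Agent.Lib.Compute.ToddCoxeterCore.wordEl (ltr gJ) (c.W.getD k []) = 1 := by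
  intro k hk
  apply rel_of_check validEs hmem
  have := (allB_iff _ _).mp relsChk k hk
  exact this

theorem hgen (x : H) : x ∈ Subgroup.closure (gJ '' Set.Iio c.n) :=
  gen_of_words validEs hmem (k := 2) (gens := nextGens ls) (us := us) rfl wordsChk x

theorem hcard : Nat.card H = c.N * 10 := by
  rw [chain_card chainOk, chainOrd]
  rfl

/-- The matrices of the generators. -/
def mcs : List ℕ := Cfsg.Agent.Lib.Compute.Schur2.SU35Tab.mcL

theorem eltChk : ((nextGens ls).zip mcs).all (fun p => SU35.eltOK p.1 p.2) = true := by decide +kernel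

theorem mcs_len : (nextGens ls).length = mcs.length := by decide +kernel

theorem hcardG : Nat.card (genGroup 7 127 126 (nextGens ls)) = 126000 := by
  have := chain_card chainOk
  rw [chainOrd] at this
  exact this

theorem hall : ∀ e ∈ nextGens ls, permOf 7 127 126 e ∈ SU35.φ.range := by
  intro e he
  obtain ⟨i, hi, rfl⟩ := List.getElem_of_mem he
  have h1 := List.all_eq_true.mp eltChk ((nextGens ls)[i], mcs[i]'(by rw [← mcs_len]; exact hi))
    (by
      rw [List.mem_iff_getElem]
      refine ⟨i, by rw [List.length_zip, ← mcs_len]; omega, ?_⟩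
      simp)
  exact SU35.permOf_mem_range h1

theorem nonempty_H : Nonempty (H ≃* PSU 3 SU35.K9 5) :=
  SU35.nonempty_iso (gens := nextGens ls) hall hcardG

theorem simple_H : IsSimpleGroup H := by
  obtain ⟨e⟩ := nonempty_H
  have := SU35.simple_PSU
  exact e.isSimpleGroup

/-- A finite group generated by two elements with the relators of the table, not trivial, is `H`. -/
theorem nonempty_of_rel {B : Type} [Group B] [Finite B] [Nontrivial B] {gb : ℕ → B}
    (hrb : ∀ k < c.nrel, Cfsg.Agent.Lib.Compute.ToddCoxeterCore.wordEl (ltr gb) (c.W.getD k []) = 1)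
    (hgb : ∀ x : B, x ∈ Subgroup.closure (gb '' Set.Iio c.n)) : Nonempty (B ≃* H) := by
  obtain ⟨κ, -⟩ := exists_equiv_of_relators (c := c) (D := 10) sound.{0} hSB.{0}
    (A := H) (B := B) (ga := gJ) (gb := gb) hrel hrb hgen hgb hcard
    (Or.inr ⟨simple_H, inferInstance⟩)
  exact ⟨κ⟩

end Cfsg.Agent.Lib.Compute.Schur2.U35Main
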