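import Mathlib
import Cfsg.Agent.Lib.Compute.Schur2.U42D
import Cfsg.Agent.Lib.Compute.Schur2.U52D
import Cfsg.Agent.Lib.Compute.Schur2.U62D
import Cfsg.Agent.Lib.Compute.Schur2.SU62
import Cfsg.Agent.Lib.Compute.Schur2.PresIso
import Cfsg.Agent.Lib.Compute.Schur2.Pres
import Cfsg.Agent.Lib.Compute.OutFinal

/-!
# The group `PSU₆(2)` with generators and nested tables `U₄(2) < U₅(2) < U₆(2)`
-/

set_option autoImplicit false
set_option maxRecDepth 1000000

namespace Cfsg.Agent.Lib.Compute.Schur2.U62Main

open Cfsg Cfsg.Agent.Lib.Compute.SchurLin Cfsg.Agent.Lib.Compute.PermCert Cfsg.Agent.Lib.Compute.Schur2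
open Cfsg.Agent.Lib.Compute.OutChain Cfsg.Agent.Lib.Compute.OutFinal

universe u

theorem cert4 : certB U42D.c U42D.eE 14715 2943 U42D.eP U42D.rT 5 = true := by decide +kernel

theorem sound4 : TC.Sound.{u} U42D.c := sound_of_check cert4

theorem hSB4 : SubBound.{u} U42D.c 9 := subBound_cyc (kp := 2) (w := [0, 2]) (by decide +kernel)

/-- The correspondence of relators with the inner relators. -/
def mp (k : ℕ) : ℕ := k

theorem nest5 : nestB U52D.c U42D.c mp = true := by decide +kernel

theorem cert5 : certB U52D.c U52D.eE 81025 11575 U52D.eP U52D.rT 12 = true := by decide +kernel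

theorem sound5 : TC.Sound.{u} U52D.c := sound_of_check cert5

theorem hSB5 : SubBound.{u} U52D.c (U42D.c.N * 9) := subBound_nest sound4 hSB4 nest5

theorem nest6 : nestB U62D.c U52D.c mp = true := by decide +kernel

theorem cert6 : certB U62D.c U62D.eE 121761 13529 U62D.eP U62D.rT 18 = true := by decide +kernel

theorem sound : TC.Sound.{u} U62D.c := sound_of_check cert6

theorem hSB : SubBound.{u} U62D.c (U52D.c.N * (U42D.c.N * 9)) := subBound_nest sound5 hSB5 nest6

open U62D

theorem hdN : 693 ≤ 2 ^ 10 := by norm_num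

theorem chainOkF : chkChainF 10 1023 693 22 4194303 10 ls = true := by decide +kernel

theorem chainOk : chkChain 10 1023 693 22 4194303 ls = true :=
  (chkChainF_eq hdN (tw := 22) (tm := 4194303) (w := 10) (m := 1023) (ls := ls)).symm.trans chainOkF

theorem chainOrd : ordC ls = 9196830720 := by decide +kernel

theorem validEs : es.all (validB 10 1023 693) = true := by decide +kernel

/-- The group. -/
abbrev H : Subgroup (Equiv.Perm (Fin 693)) := genGroup 10 1023 693 es

theorem hmem (j : ℕ) : gPerm 10 1023 693 es j ∈ H := by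
  unfold gPerm letterPerm
  have h1 : Nat.div (2 * j) 2 = j := by
    show (2 * j) / 2 = j
    omega
  have h2 : Nat.mod (2 * j) 2 = 0 := by
    show (2 * j) % 2 = 0
    omega
  rw [h1, h2]
  cases hn : nth es j with
  | none => exact one_mem _
  | some e => exact Subgroup.subset_closure ⟨e, nth_mem hn, rfl⟩

theorem relsChk : allB (fun k => allB (fun i => Nat.beq (wordPt 10 1023 es (c.W.getD k []) i) i) 693) c.nrel = true := by
  decide +kernel

/-- The words of the generators of the group. -/
def us : List (List ℕ) := [[0], [2], [4], [6]]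

theorem wordsChk : wordsB 10 1023 693 es 4 es us = true := by decide +kernel

/-- The generators. -/
noncomputable abbrev gJ : ℕ → H := gP 10 1023 693 es H

theorem hrel : ∀ k < c.nrel, Cfsg.Agent.Lib.Compute.ToddCoxeterCore.wordEl (ltr gJ) (c.W.getD k []) = 1 := by
  intro k hk
  apply rel_of_check validEs hmem
  have := (allB_iff _ _).mp relsChk k hk
  exact this

theorem hgen (x : H) : x ∈ Subgroup.closure (gJ '' Set.Iio c.n) :=
  gen_of_words validEs hmem (k := 4) (gens := es) (us := us) rfl wordsChk x

/-- The matrices of the generators. -/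
def mcs : List ℕ := Cfsg.Agent.Lib.Compute.Schur2.SU62Tab.mcL

theorem eltChk : (es.zip mcs).all (fun p => SU62.eltOK p.1 p.2) = true := by decide +kernel

theorem mcs_len : es.length = mcs.length := by decide +kernel

theorem hall : ∀ e ∈ es, permOf 10 1023 693 e ∈ SU62.φ.range := by
  intro e he
  obtain ⟨i, hi, rfl⟩ := List.getElem_of_mem he
  have h1 := List.all_eq_true.mp eltChk (es[i], mcs[i]'(by rw [← mcs_len]; exact hi))
    (by
      rw [List.mem_iff_getElem]
      refine ⟨i, by rw [List.length_zip, ← mcs_len]; omega, ?_⟩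
      simp)
  exact SU62.permOf_mem_range h1

theorem card_H : Nat.card H = 9196830720 := by
  apply le_antisymm (SU62.card_genGroup_le hall)
  have := (chain_lower ls H chainOk le_rfl).1
  rwa [chainOrd] at this

theorem hcard : Nat.card H = c.N * (U52D.c.N * (U42D.c.N * 9)) := by
  rw [card_H]
  rfl

theorem nonempty_H : Nonempty (H ≃* PSU 6 SU62.K9 2) :=
  SU62.nonempty_iso (gens := es) hall card_H

theorem simple_H : IsSimpleGroup H := by
  obtain ⟨e⟩ := nonempty_H
  have := SU62.simple_PSU
  exact e.isSimpleGroup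

/-- A finite group generated by four elements with the relators of the table, not trivial, is `H`. -/
theorem nonempty_of_rel {B : Type} [Group B] [Finite B] [Nontrivial B] {gb : ℕ → B}
    (hrb : ∀ k < c.nrel, Cfsg.Agent.Lib.Compute.ToddCoxeterCore.wordEl (ltr gb) (c.W.getD k []) = 1)
    (hgb : ∀ x : B, x ∈ Subgroup.closure (gb '' Set.Iio c.n)) : Nonempty (B ≃* H) := by
  obtain ⟨κ, -⟩ := exists_equiv_of_relators (c := c) (D := U52D.c.N * (U42D.c.N * 9)) sound.{0} hSB.{0}
    (A := H) (B := B) (ga := gJ) (gb := gb) hrel hrb hgen hgb hcard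
    (Or.inr ⟨simple_H, inferInstance⟩)
  exact ⟨κ⟩

end Cfsg.Agent.Lib.Compute.Schur2.U62Main
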